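import Mathlib
import Cfsg.Agent.Helper13.TIDefs

set_option autoImplicit false

/-!
# Piece GEN of S5955 (helper70): the fixed space and totally isotropic subspaces of a product.
-/

namespace Cfsg.Agent.Helper70.TI5955

open Module Polynomial
open Cfsg.Agent.Helper42.SpForm Cfsg.Agent.Helper42.SpGroup Cfsg.Agent.Helper42.SpModels
open Cfsg.Agent.Helper13.TIsp Cfsg.Agent.Helper90.BG

section gen

variable {F : Type*} [Field F] {V₁ : Type*} [AddCommGroup V₁] [Module F V₁]
  {V₂ : Type*} [AddCommGroup V₂] [Module F V₂] [FiniteDimensional F V₁] [FiniteDimensional F V₂]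

/-- GEN (one piece, two statements) -/
theorem prod_ker (T₁ : Module.End F V₁) (h : LinearMap.ker (T₁ - 1) = ⊥) :
    finrank F (LinearMap.ker (T₁.prodMap (1 : Module.End F V₂) - 1)) = finrank F V₂ := by
  have hmem : ∀ z : V₁ × V₂, z ∈ LinearMap.ker (T₁.prodMap (1 : Module.End F V₂) - 1) ↔
      z.1 = 0 := by
    intro z
    rw [LinearMap.mem_ker, LinearMap.sub_apply, sub_eq_zero]
    constructor
    · intro hz
      have h1 : T₁ z.1 = z.1 := congrArg Prod.fst hz
      have h2 : z.1 ∈ LinearMap.ker (T₁ - 1) := by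
        rw [LinearMap.mem_ker, LinearMap.sub_apply, sub_eq_zero]
        exact h1
      rw [h, Submodule.mem_bot] at h2
      exact h2
    · intro hz
      apply Prod.ext
      · change T₁ z.1 = z.1
        rw [hz, map_zero]
      · rfl
  have hinj : Function.Injective
      ((LinearMap.snd F V₁ V₂).domRestrict
        (LinearMap.ker (T₁.prodMap (1 : Module.End F V₂) - 1))) := by
    intro a b hab
    apply Subtype.ext
    apply Prod.ext
    · rw [(hmem _).1 a.2, (hmem _).1 b.2]
    · exact hab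
  have hsurj : Function.Surjective
      ((LinearMap.snd F V₁ V₂).domRestrict
        (LinearMap.ker (T₁.prodMap (1 : Module.End F V₂) - 1))) := by
    intro v
    exact ⟨⟨(0, v), (hmem _).2 rfl⟩, rfl⟩
  exact (LinearEquiv.ofBijective _ ⟨hinj, hsurj⟩).finrank_eq

theorem prod_ti (B₁ : LinearMap.BilinForm F V₁) (B₂ : LinearMap.BilinForm F V₂)
    (halt₂ : ∀ v, B₂ v v = 0) (hnd₂ : ∀ v, (∀ w, B₂ v w = 0) → v = 0)
    (W : Submodule F (V₁ × V₂)) (hW : TI (sumForm B₁ B₂) W) (h0 : ∀ w ∈ W, w.1 = 0) :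
    2 * finrank F W ≤ finrank F V₂ := by
  have hinj : Function.Injective ((LinearMap.snd F V₁ V₂).domRestrict W) := by
    intro a b hab
    apply Subtype.ext
    apply Prod.ext
    · rw [h0 _ a.2, h0 _ b.2]
    · exact hab
  have hfr : finrank F (LinearMap.range ((LinearMap.snd F V₁ V₂).domRestrict W)) = finrank F W :=
    LinearMap.finrank_range_of_inj hinj
  rw [← hfr]
  apply Cfsg.Agent.Helper30.bgSp_ti_finrank_le B₂ halt₂ hnd₂
  rintro _ ⟨a, rfl⟩ _ ⟨b, rfl⟩
  have h1 := hW a a.2 b b.2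
  rw [sumForm_apply, h0 _ a.2, h0 _ b.2, map_zero, zero_add] at h1
  exact h1

end gen

end Cfsg.Agent.Helper70.TI5955
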