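import Mathlib
import Cfsg.Agent.Helper13.TIDefs

set_option autoImplicit false

/-!
# Piece PI of S5955 (helper70): the orthogonal sum of `ι` copies of a form and blockwise maps.
-/

namespace Cfsg.Agent.Helper70.TI5955

open Module Polynomial
open Cfsg.Agent.Helper42.SpForm Cfsg.Agent.Helper42.SpGroup Cfsg.Agent.Helper42.SpModels
open Cfsg.Agent.Helper13.TIsp Cfsg.Agent.Helper90.BG

section pi

variable {F : Type*} [Field F] {ι : Type*} [Fintype ι] {V₁ : Type*} [AddCommGroup V₁] [Module F V₁]

/-- PI (one piece, seven statements) -/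
theorem pi_alt (B₁ : LinearMap.BilinForm F V₁) (h : ∀ v, B₁ v v = 0) (x : ι → V₁) :
    piForm ι B₁ x x = 0 := by
  rw [piForm_apply]
  exact Finset.sum_eq_zero fun j _ => h (x j)

theorem pi_nondeg (B₁ : LinearMap.BilinForm F V₁) (h : ∀ v, (∀ w, B₁ v w = 0) → v = 0)
    (x : ι → V₁) (hx : ∀ y, piForm ι B₁ x y = 0) : x = 0 := by
  classical
  funext j
  apply h
  intro w
  have h1 := hx (Pi.single j w)
  rw [piForm_apply, Finset.sum_eq_single j] at h1
  · rwa [Pi.single_eq_same] at h1
  · intro k _ hkj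
    rw [Pi.single_eq_of_ne hkj, map_zero]
  · intro hj
    exact absurd (Finset.mem_univ j) hj

theorem pi_preserves (B₁ : LinearMap.BilinForm F V₁) (T₁ : ι → Module.End F V₁)
    (h : ∀ j, Preserves B₁ (T₁ j)) : Preserves (piForm ι B₁) (piMap T₁) := by
  intro x y
  rw [piForm_apply, piForm_apply]
  apply Finset.sum_congr rfl
  intro j _
  rw [piMap_apply, piMap_apply, h j]

theorem pi_pow (T₁ : ι → Module.End F V₁) (k : ℕ) : piMap T₁ ^ k = piMap (fun j => T₁ j ^ k) := by
  induction k with
  | zero =>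
    apply LinearMap.ext
    intro x
    funext j
    simp [piMap_apply]
  | succ k ih =>
    rw [pow_succ, ih]
    apply LinearMap.ext
    intro x
    funext j
    rw [Module.End.mul_apply, piMap_apply, piMap_apply, piMap_apply, pow_succ,
      Module.End.mul_apply]

theorem pi_one : piMap (fun _ : ι => (1 : Module.End F V₁)) = 1 := by
  apply LinearMap.ext
  intro x
  funext j
  rw [piMap_apply]
  rfl

theorem pi_ne_one (T₁ : ι → Module.End F V₁) (j : ι) (h : T₁ j ≠ 1) : piMap T₁ ≠ 1 := by
  classical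
  intro h1
  apply h
  apply LinearMap.ext
  intro v
  have h2 := congrFun (LinearMap.congr_fun h1 (Pi.single j v)) j
  rw [piMap_apply, Pi.single_eq_same] at h2
  rw [h2]
  simp

theorem pi_ker (T₁ : ι → Module.End F V₁) (h : ∀ j, LinearMap.ker (T₁ j - 1) = ⊥) :
    LinearMap.ker (piMap T₁ - 1) = ⊥ := by
  rw [Submodule.eq_bot_iff]
  intro x hx
  rw [LinearMap.mem_ker, LinearMap.sub_apply, sub_eq_zero] at hx
  funext j
  have h1 : x j ∈ LinearMap.ker (T₁ j - 1) := by
    rw [LinearMap.mem_ker, LinearMap.sub_apply, sub_eq_zero]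
    have h2 := congrFun hx j
    rw [piMap_apply] at h2
    exact h2
  rw [h j, Submodule.mem_bot] at h1
  exact h1

end pi

end Cfsg.Agent.Helper70.TI5955
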