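import Mathlib
import Cfsg.Agent.Helper13.TIDefs

set_option autoImplicit false

/-!
# Piece SCAL of S5955 (helper70): scalar symplectic matrices.
-/

namespace Cfsg.Agent.Helper70.TI5955

open Module Polynomial
open Cfsg.Agent.Helper42.SpForm Cfsg.Agent.Helper42.SpGroup Cfsg.Agent.Helper42.SpModels
open Cfsg.Agent.Helper13.TIsp Cfsg.Agent.Helper90.BG

section sp

variable {F : Type*} [Field F]

/-- SCAL (one piece, two statements) -/
theorem sp_scal (d : ℕ) (hd : 1 ≤ d) (z : F) (g : Matrix.symplecticGroup (Fin d) F)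
    (hg : (g : Matrix (Fin d ⊕ Fin d) (Fin d ⊕ Fin d) F) = z • 1) : z * z = 1 := by
  have h1 := (SymplecticGroup.mem_iff).1 g.2
  rw [hg, Matrix.transpose_smul, Matrix.transpose_one, Matrix.smul_mul, Matrix.one_mul,
    Matrix.mul_smul, Matrix.mul_one, smul_smul] at h1
  have h2 := congrFun (congrFun h1 (Sum.inl ⟨0, hd⟩)) (Sum.inr ⟨0, hd⟩)
  simp [Matrix.J] at h2
  exact h2

theorem sp_nonscalar (d : ℕ) (hd : 1 ≤ d) (r : ℕ) (hr : Odd r)
    (g : Matrix.symplecticGroup (Fin d) F) (h1 : toEnd g ^ r = 1) (h2 : toEnd g ≠ 1) (z : F) :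
    (g : Matrix (Fin d ⊕ Fin d) (Fin d ⊕ Fin d) F) ≠ z • 1 := by
  intro hg
  have hz2 := sp_scal d hd z g hg
  obtain ⟨k, hk⟩ := hr
  have hzr : z ^ r = z := by
    rw [hk, pow_succ, pow_mul, pow_two, hz2, one_pow, one_mul]
  have hpow : ((g ^ r : Matrix.symplecticGroup (Fin d) F) :
      Matrix (Fin d ⊕ Fin d) (Fin d ⊕ Fin d) F) = 1 := by
    have h3 : toEnd (g ^ r) = toEnd (1 : Matrix.symplecticGroup (Fin d) F) := by
      rw [toEnd_pow, h1, toEnd_one]
    have h4 := toEnd_injective h3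
    rw [h4]
    rfl
  have hcoe : ((g ^ r : Matrix.symplecticGroup (Fin d) F) :
      Matrix (Fin d ⊕ Fin d) (Fin d ⊕ Fin d) F) =
      (g : Matrix (Fin d ⊕ Fin d) (Fin d ⊕ Fin d) F) ^ r := rfl
  rw [hcoe, hg, _root_.smul_pow, one_pow, hzr] at hpow
  apply h2
  have h5 : g = 1 := by
    apply Subtype.ext
    rw [hg, hpow]
    rfl
  rw [h5, toEnd_one]

end sp

end Cfsg.Agent.Helper70.TI5955
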