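import Mathlib
import Cfsg.Agent.Helper71.SQDefs
import Cfsg.Agent.Helper11.SORT
import Cfsg.Agent.Helper11.SORP
import Cfsg.Agent.Helper96.T5Defs

/-!
# Helper70: PIECE CO of CALL S5867 (helper71): `conic_lemma`.
-/

set_option autoImplicit false
set_option linter.unusedVariables false

namespace Cfsg.Agent.Helper70.SQCO

open Matrix Cfsg.Agent.Helper71.T4 Cfsg.Agent.Helper71.SO Cfsg.Agent.Helper71.SQ
open scoped Kronecker

variable {F : Type*} [Field F] {m n : ℕ}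

section Aux

open Cfsg.Agent.Helper11.SORT Cfsg.Agent.Helper11.SORP

/-- A non-singular vector in `u^⊥` (dimension 3, `u` singular). -/
theorem co_exists_w (h2 : (2 : F) ≠ 0) (S : Matrix (Fin 3) (Fin 3) F) (hS : Sᵀ = S)
    (hdet : S.det ≠ 0) (u : Fin 3 → F) (hu : u ≠ 0) (huu : bl S u u = 0) :
    ∃ w : Fin 3 → F, bl S u w = 0 ∧ bl S w w ≠ 0 := by
  by_contra hcon
  push Not at hcon
  obtain ⟨x₁, hx₁'⟩ := Cfsg.Agent.Helper96.T5.exists_bf_eq_one S hdet u hu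
  have hx₁ : bl S u x₁ = 1 := hx₁'
  obtain ⟨z, hz, hz1, hz2⟩ := exists_perp2 (le_refl 3) (S *ᵥ u) (S *ᵥ x₁)
  have hzu : bl S z u = 0 := hz1
  have hzx : bl S z x₁ = 0 := hz2
  have huz : bl S u z = 0 := by rw [bl_comm S hS, hzu]
  obtain ⟨y, hy'⟩ := Cfsg.Agent.Helper96.T5.exists_bf_eq_one S hdet z hz
  have hy : bl S z y = 1 := hy'
  have hv' : bl S u (y - bl S u y • x₁) = 0 := by
    rw [bl_sub_right, bl_smul_right, hx₁, mul_one, sub_self]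
  have hq1 := hcon z huz
  have hq2 := hcon _ hv'
  have hq3 := hcon (z + (y - bl S u y • x₁)) (by rw [bl_add_right, huz, hv', add_zero])
  rw [bl_add_left, bl_add_right, bl_add_right, hq1, hq2,
    bl_comm S hS (y - bl S u y • x₁) z] at hq3
  have h3 : bl S z (y - bl S u y • x₁) = 0 := by
    have h4 : (2 : F) * bl S z (y - bl S u y • x₁) = 0 := by linear_combination hq3
    rcases mul_eq_zero.mp h4 with h | h
    · exact absurd h h2
    · exact h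
  rw [bl_sub_right, bl_smul_right, hzx, mul_zero, sub_zero, hy] at h3
  exact one_ne_zero h3

/-- The expansion of `(1 + tN + sP) D (1 - tN + sP)`. -/
theorem co_expand (N P D : Matrix (Fin 3) (Fin 3) F) (t : F) :
    (1 + t • N + (2⁻¹ * t ^ 2) • P) * D * (1 + (-t) • N + (2⁻¹ * (-t) ^ 2) • P)
      = t ^ 0 • D + t ^ 1 • (N * D - D * N)
        + t ^ 2 • ((2⁻¹ : F) • (P * D) - N * D * N + (2⁻¹ : F) • (D * P))
        + t ^ 3 • ((2⁻¹ : F) • (N * D * P) - (2⁻¹ : F) • (P * D * N))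
        + t ^ 4 • ((2⁻¹ * 2⁻¹ : F) • (P * D * P)) := by
  have hL : (1 + t • N + (2⁻¹ * t ^ 2) • P) * D
      = D + t • (N * D) + (2⁻¹ * t ^ 2) • (P * D) := by
    rw [Matrix.add_mul, Matrix.add_mul, Matrix.one_mul, Matrix.smul_mul, Matrix.smul_mul]
  have hR : ∀ X : Matrix (Fin 3) (Fin 3) F, X * (1 + (-t) • N + (2⁻¹ * (-t) ^ 2) • P)
      = X + (-t) • (X * N) + (2⁻¹ * (-t) ^ 2) • (X * P) := by
    intro X
    rw [Matrix.mul_add, Matrix.mul_add, Matrix.mul_one, Matrix.mul_smul, Matrix.mul_smul]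
  rw [hL, hR, Matrix.add_mul, Matrix.add_mul, Matrix.add_mul, Matrix.add_mul, Matrix.smul_mul,
    Matrix.smul_mul, Matrix.smul_mul, Matrix.smul_mul]
  module

end Aux

/-! ## Piece CO -/
theorem conic_lemma [Finite F] (hq : 5 ≤ Nat.card F) (h2 : (2 : F) ≠ 0)
    (S : Matrix (Fin 3) (Fin 3) F) (hS : Sᵀ = S) (hdet : S.det ≠ 0)
    (U : Set (Matrix (Fin 3) (Fin 3) F))
    (hadd : ∀ D D' : Matrix (Fin 3) (Fin 3) F, D ∈ U → D' ∈ U → D + D' ∈ U)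
    (hsmul : ∀ (c : F) (D : Matrix (Fin 3) (Fin 3) F), D ∈ U → c • D ∈ U)
    (hconj : ∀ B B' D : Matrix (Fin 3) (Fin 3) F, Bᵀ * S * B = S → B * B' = 1 → D ∈ U →
      B * D * B' ∈ U)
    (hint : ∀ Dk : Fin 5 → Matrix (Fin 3) (Fin 3) F,
      (∀ t : F, ∑ k : Fin 5, t ^ (k : ℕ) • Dk k ∈ U) → Dk 4 ∈ U)
    (D : Matrix (Fin 3) (Fin 3) F) (hD : D ∈ U) (u : Fin 3 → F) (hu : u ≠ 0)
    (huu : bl S u u = 0) (huD : bl S u (D *ᵥ u) ≠ 0) :
    vecMulVec u (S *ᵥ u) ∈ U := by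
  obtain ⟨w, huw, hww⟩ := co_exists_w h2 S hS hdet u hu huu
  have hwu : bl S w u = 0 := by rw [Cfsg.Agent.Helper11.SORT.bl_comm S hS, huw]
  obtain ⟨N, hN⟩ : ∃ N : Matrix (Fin 3) (Fin 3) F, N = Nuw S u w := ⟨_, rfl⟩
  obtain ⟨E, hE⟩ : ∃ E : Matrix (Fin 3) (Fin 3) F, E = vecMulVec u (S *ᵥ u) := ⟨_, rfl⟩
  obtain ⟨P, hP⟩ : ∃ P : Matrix (Fin 3) (Fin 3) F, P = N * N := ⟨_, rfl⟩
  have hNN : P = (-(bl S w w)) • E := by
    rw [hP, hN, hE]
    apply Cfsg.Agent.Helper11.SORT.mv_ext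
    intro x
    rw [← Matrix.mulVec_mulVec, Cfsg.Agent.Helper11.SORT.Nuw_mulVec,
      Cfsg.Agent.Helper11.SORT.Nuw_mulVec, Matrix.smul_mulVec,
      Cfsg.Agent.Helper11.SORT.vmvS_mulVec]
    simp only [Cfsg.Agent.Helper11.SORT.bl_sub_left, Cfsg.Agent.Helper11.SORT.bl_smul_left, huu,
      huw, hwu]
    module
  have hEDE : E * D * E = bl S u (D *ᵥ u) • E := by
    rw [hE]
    apply Cfsg.Agent.Helper11.SORT.mv_ext
    intro x
    rw [Matrix.mul_assoc, ← Matrix.mulVec_mulVec, ← Matrix.mulVec_mulVec, Matrix.smul_mulVec,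
      Cfsg.Agent.Helper11.SORT.vmvS_mulVec S u u x, Matrix.mulVec_smul, Matrix.mulVec_smul,
      Cfsg.Agent.Helper11.SORT.vmvS_mulVec S u u (D *ᵥ u),
      Cfsg.Agent.Helper11.SORT.bl_comm S hS (D *ᵥ u) u, smul_smul, smul_smul, mul_comm]
  have hr : ∀ t : F, ruw S u (t • w) = 1 + t • N + (2⁻¹ * t ^ 2) • P := by
    intro t
    have h1 : Nuw S u (t • w) = t • N := by
      rw [hN]
      apply Cfsg.Agent.Helper11.SORT.mv_ext
      intro x
      rw [Cfsg.Agent.Helper11.SORT.Nuw_mulVec, Matrix.smul_mulVec,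
        Cfsg.Agent.Helper11.SORT.Nuw_mulVec, Cfsg.Agent.Helper11.SORT.bl_smul_right]
      module
    unfold ruw
    rw [h1, hP, Matrix.smul_mul, Matrix.mul_smul, smul_smul, smul_smul]
    congr 2
    ring
  obtain ⟨Dk, hDk⟩ : ∃ Dk : Fin 5 → Matrix (Fin 3) (Fin 3) F,
      Dk = ![D, N * D - D * N, (2⁻¹ : F) • (P * D) - N * D * N + (2⁻¹ : F) • (D * P),
        (2⁻¹ : F) • (N * D * P) - (2⁻¹ : F) • (P * D * N),
        (2⁻¹ * 2⁻¹ : F) • (P * D * P)] := ⟨_, rfl⟩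
  have hall : ∀ t : F, ∑ k : Fin 5, t ^ (k : ℕ) • Dk k ∈ U := by
    intro t
    have htw : bl S u (t • w) = 0 := by
      rw [Cfsg.Agent.Helper11.SORT.bl_smul_right, huw, mul_zero]
    have htw' : bl S u ((-t) • w) = 0 := by
      rw [Cfsg.Agent.Helper11.SORT.bl_smul_right, huw, mul_zero]
    have hB : (ruw S u (t • w))ᵀ * S * ruw S u (t • w) = S :=
      Cfsg.Agent.Helper11.SORT.ruw_isom h2 S hS u (t • w) huu htw
    have hBB : ruw S u (t • w) * ruw S u ((-t) • w) = 1 := by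
      rw [Cfsg.Agent.Helper11.SORP.ruw_add h2 S hS u (t • w) ((-t) • w) huu htw htw',
        ← add_smul, add_neg_cancel, zero_smul, Cfsg.Agent.Helper11.SORP.ruw_zero]
    have hmem := hconj _ _ D hB hBB hD
    have hexp : ruw S u (t • w) * D * ruw S u ((-t) • w)
        = ∑ k : Fin 5, t ^ (k : ℕ) • Dk k := by
      rw [hr t, hr (-t), co_expand, Fin.sum_univ_five, hDk]
      rfl
    rw [← hexp]
    exact hmem
  have h4 := hint Dk hall
  have hD4 : Dk 4 = (2⁻¹ * 2⁻¹ * (bl S w w) ^ 2 * bl S u (D *ᵥ u)) • E := by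
    have h5 : Dk 4 = (2⁻¹ * 2⁻¹ : F) • (P * D * P) := by
      rw [hDk]
      rfl
    rw [h5, hNN, Matrix.smul_mul, Matrix.smul_mul, Matrix.mul_smul, hEDE, smul_smul, smul_smul,
      smul_smul]
    congr 1
    ring
  rw [hD4] at h4
  have hc : 2⁻¹ * 2⁻¹ * (bl S w w) ^ 2 * bl S u (D *ᵥ u) ≠ 0 := by
    have h6 : (2⁻¹ : F) ≠ 0 := inv_ne_zero h2
    exact mul_ne_zero (mul_ne_zero (mul_ne_zero h6 h6) (pow_ne_zero 2 hww)) huD
  have h7 := hsmul (2⁻¹ * 2⁻¹ * (bl S w w) ^ 2 * bl S u (D *ᵥ u))⁻¹ _ h4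
  rw [smul_smul, inv_mul_cancel₀ hc, one_smul] at h7
  rw [← hE]
  exact h7

end Cfsg.Agent.Helper70.SQCO
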