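import Mathlib
import Cfsg.Agent.Helper96.OHDefs

set_option autoImplicit false
set_option linter.unusedSectionVars false
set_option linter.unusedVariables false

namespace Cfsg.Agent.Helper70.OH5992

open Module Polynomial Cfsg Cfsg.Geo
open Cfsg.Agent.Helper13.TIu Cfsg.Agent.Helper96.OH

variable {ι : Type} [Fintype ι] [DecidableEq ι] {F : Type*} [Field F] (Q : (ι → F) → F)

/-- ONONISO: a nonzero nondegenerate subspace has a nonsingular vector. -/
theorem o_noniso (hQ : IsNondegenerateQuadraticForm Q) (W : Submodule F (ι → F)) (hW : ONd Q W)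
    (hW0 : W ≠ ⊥) : ∃ v ∈ W, Q v ≠ 0 := by
  by_contra hcon
  push Not at hcon
  obtain ⟨w, hw, hw0⟩ := (Submodule.ne_bot_iff W).mp hW0
  obtain ⟨-, x, hx, hne⟩ := hW w hw hw0
  apply hne
  unfold QuadraticMap.polar
  rw [hcon _ (W.add_mem hw hx), hcon _ hw, hcon _ hx]
  ring

end Cfsg.Agent.Helper70.OH5992
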