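import Mathlib
import Cfsg.Agent.Helper96.OHDefs
import Cfsg.Agent.Helper73.TLUPERP
import Cfsg.Agent.Helper70.OHONONISO

set_option autoImplicit false
set_option linter.unusedSectionVars false
set_option linter.unusedVariables false

namespace Cfsg.Agent.Helper70.OH5992

open Module Polynomial Cfsg Cfsg.Geo
open Cfsg.Agent.Helper13.TIu Cfsg.Agent.Helper96.OH

variable {ι : Type} [Fintype ι] [DecidableEq ι] {F : Type*} [Field F] (Q : (ι → F) → F)

theorem oh_finrank_span_pair {V : Type*} [AddCommGroup V] [Module F V] (x y : V)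
    (h : ∀ s t : F, s • x + t • y = 0 → s = 0 ∧ t = 0) :
    finrank F (Submodule.span F ({x, y} : Set V)) = 2 := by
  have hli : LinearIndependent F ![x, y] := LinearIndependent.pair_iff.mpr h
  have h1 := finrank_span_eq_card hli
  rw [Matrix.range_cons_cons_empty] at h1
  simpa using h1

/-- OPLANES: a nondegenerate subspace of dimension `≥ 3` contains a hyperbolic plane and an
anisotropic plane. -/
theorem o_planes [Fintype F] (hQ : IsNondegenerateQuadraticForm Q) (h2 : (2 : F) ≠ 0)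
    (K : Submodule F (ι → F)) (hK : ONd Q K) (hdim : 3 ≤ finrank F K) :
    (∃ H : Submodule F (ι → F), H ≤ K ∧ ONd Q H ∧ finrank F H = 2 ∧ OPl Q H) ∧
    (∃ A : Submodule F (ι → F), A ≤ K ∧ ONd Q A ∧ finrank F A = 2 ∧ ¬ OPl Q A) := by
  classical
  have hsm : ∀ (c : F) (v : ι → F), Q (c • v) = c ^ 2 * Q v := hQ.smul
  have hadd : ∀ x y : ι → F, Q (x + y) = Q x + Q y + QuadraticMap.polar Q x y := q_add Q
  have pl_add_l : ∀ x y z : ι → F, QuadraticMap.polar Q (x + y) z =
      QuadraticMap.polar Q x z + QuadraticMap.polar Q y z :=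
    fun x y z => (pB Q hQ).map_add₂ x y z
  have pl_smul_l : ∀ (c : F) (x z : ι → F), QuadraticMap.polar Q (c • x) z =
      c * QuadraticMap.polar Q x z :=
    fun c x z => (pB Q hQ).map_smul₂ c x z
  have pl_add_r : ∀ x y z : ι → F, QuadraticMap.polar Q x (y + z) =
      QuadraticMap.polar Q x y + QuadraticMap.polar Q x z :=
    fun x y z => (pB Q hQ x).map_add y z
  have pl_smul_r : ∀ (c : F) (x z : ι → F), QuadraticMap.polar Q x (c • z) =
      c * QuadraticMap.polar Q x z :=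
    fun c x z => (pB Q hQ x).map_smul c z
  have pl_comm : ∀ x y : ι → F, QuadraticMap.polar Q x y = QuadraticMap.polar Q y x :=
    fun x y => QuadraticMap.polar_comm Q x y
  have pl_self : ∀ x : ι → F, QuadraticMap.polar Q x x = 2 * Q x := fun x => pB_self Q hQ x
  have hQ0 : Q 0 = 0 := q_zero Q hQ
  have hz : ∀ v : ι → F, QuadraticMap.polar Q 0 v = 0 := fun v => by
    have := pl_smul_l 0 0 v
    simpa using this
  -- singular vector and hyperbolic pair
  obtain ⟨u', hu'0, hu'Q⟩ := Cfsg.Agent.Helper43.exists_singular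
    (Cfsg.Agent.Helper33.OType.restr Q hQ K) hdim
  obtain ⟨w', hw'Q, hpol⟩ := Cfsg.Agent.Helper43.exists_hyperbolic_pair
    (Cfsg.Agent.Helper33.OType.restr Q hQ K)
    (Cfsg.Agent.Helper33.OType.polarNondeg_restr Q hQ K hK) hu'0 hu'Q
  obtain ⟨u, hu⟩ := u'
  obtain ⟨w, hw⟩ := w'
  have hu0 : u ≠ 0 := fun h => hu'0 (Subtype.ext h)
  have hQu : Q u = 0 := hu'Q
  have hQw : Q w = 0 := hw'Q
  have hp : QuadraticMap.polar Q u w = 1 := hpol
  have hpuu : QuadraticMap.polar Q u u = 0 := by rw [pl_self, hQu, mul_zero]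
  have hpww : QuadraticMap.polar Q w w = 0 := by rw [pl_self, hQw, mul_zero]
  have hpwu : QuadraticMap.polar Q w u = 1 := by rw [pl_comm, hp]
  have hQH : ∀ x s : F, Q (x • u + s • w) = x * s := by
    intro x s
    rw [hadd, hsm, hsm, hQu, hQw, pl_smul_l, pl_smul_r, hp]; ring
  -- H
  obtain ⟨H, hHdef⟩ : ∃ H : Submodule F (ι → F), H = Submodule.span F {u, w} := ⟨_, rfl⟩
  have huH : u ∈ H := by rw [hHdef]; exact Submodule.subset_span (by simp)
  have hwH : w ∈ H := by rw [hHdef]; exact Submodule.subset_span (by simp)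
  have hHK : H ≤ K := by
    rw [hHdef, Submodule.span_le]
    intro x hx
    rcases hx with rfl | rfl
    · exact hu
    · exact hw
  have hpolH_u : ∀ x s : F, QuadraticMap.polar Q (x • u + s • w) u = s := by
    intro x s
    rw [pl_add_l, pl_smul_l, pl_smul_l, hpuu, hpwu]; ring
  have hpolH_w : ∀ x s : F, QuadraticMap.polar Q (x • u + s • w) w = x := by
    intro x s
    rw [pl_add_l, pl_smul_l, pl_smul_l, hp, hpww]; ring
  have hHdim : finrank F H = 2 := by
    rw [hHdef]
    apply oh_finrank_span_pair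
    intro x s hxs
    have h1 := hpolH_u x s
    have h2' := hpolH_w x s
    rw [hxs, hz] at h1 h2'
    exact ⟨h2'.symm, h1.symm⟩
  have hHnd : ONd Q H := by
    intro v hv hv0
    rw [hHdef] at hv
    obtain ⟨x, s, rfl⟩ := Submodule.mem_span_pair.mp hv
    have hx : x ≠ 0 ∨ s ≠ 0 := by
      by_contra hcon
      push Not at hcon
      apply hv0
      rw [hcon.1, hcon.2]; simp
    rcases hx with hx | hs
    · exact ⟨⟨w, hwH, by rw [pl_comm, hpolH_w]; exact hx⟩, ⟨w, hwH, by rw [hpolH_w]; exact hx⟩⟩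
    · exact ⟨⟨u, huH, by rw [pl_comm, hpolH_u]; exact hs⟩, ⟨u, huH, by rw [hpolH_u]; exact hs⟩⟩
  have hHpl : OPl Q H := by
    refine ⟨Submodule.span F {u}, ?_, ?_, ?_⟩
    · rw [Submodule.span_le]
      intro x hx
      rw [Set.mem_singleton_iff] at hx
      rw [hx]; exact huH
    · intro v hv
      obtain ⟨c, rfl⟩ := Submodule.mem_span_singleton.mp hv
      rw [hsm, hQu, mul_zero]
    · rw [finrank_span_singleton hu0, hHdim]
  refine ⟨⟨H, hHK, hHnd, hHdim, hHpl⟩, ?_⟩
  -- the perp of H in K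
  obtain ⟨P, hPK, -, hPnd, hHP, hsup, horth, -, hPdim⟩ :=
    Cfsg.Agent.Helper73.TI5954.u_perp (pB Q hQ) id2 ⟨fun x y => pB_comm Q hQ x y⟩
      (1 : Module.End F (ι → F))
      (upres_of Q hQ 1 (opres_one Q)) 1 one_pos (pow_one 1) K H ((und_iff Q hQ K).mpr hK)
      ((und_iff Q hQ H).mpr hHnd) hHK (by rw [Module.End.one_eq_id, Submodule.map_id])
      (by rw [Module.End.one_eq_id, Submodule.map_id])
  have hP0 : P ≠ ⊥ := by
    intro h
    rw [h, finrank_bot] at hPdim
    omega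
  obtain ⟨z, hzP, hQz⟩ := o_noniso Q hQ P ((und_iff Q hQ P).mp hPnd) hP0
  have hpuz : QuadraticMap.polar Q u z = 0 := horth u huH z hzP
  have hpwz : QuadraticMap.polar Q w z = 0 := horth w hwH z hzP
  -- nonsquare
  have hchar : ringChar F ≠ 2 := by
    intro h
    apply h2
    have h3 := ringChar.Nat.cast_ringChar (R := F)
    rw [h] at h3
    exact_mod_cast h3
  obtain ⟨ε, hε⟩ := FiniteField.exists_nonsquare hchar
  obtain ⟨a, ha⟩ : ∃ a : F, a = Q z := ⟨_, rfl⟩
  rw [← ha] at hQz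
  obtain ⟨y, hy⟩ : ∃ y : ι → F, y = u + (-(a * ε)) • w := ⟨_, rfl⟩
  have hyK : y ∈ K := by rw [hy]; exact K.add_mem hu (K.smul_mem _ hw)
  have hQy : Q y = -(a * ε) := by
    have := hQH 1 (-(a * ε))
    rw [one_smul, one_mul] at this
    rw [hy]
    exact this
  have hpzy : QuadraticMap.polar Q z y = 0 := by
    rw [hy, pl_add_r, pl_smul_r, pl_comm z u, pl_comm z w, hpuz, hpwz]; ring
  have hQA : ∀ x s : F, Q (x • z + s • y) = a * (x ^ 2 - ε * s ^ 2) := by
    intro x s
    rw [hadd, hsm, hsm, hQy, pl_smul_l, pl_smul_r, hpzy, ← ha]; ring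
  have haniso : ∀ x s : F, Q (x • z + s • y) = 0 → x = 0 ∧ s = 0 := by
    intro x s h
    rw [hQA] at h
    have h3 : x ^ 2 - ε * s ^ 2 = 0 := by
      rcases mul_eq_zero.mp h with h4 | h4
      · exact absurd h4 hQz
      · exact h4
    have hs : s = 0 := by
      by_contra hs
      apply hε
      refine ⟨x / s, ?_⟩
      field_simp
      linear_combination -h3
    subst hs
    have h5 : x ^ 2 = 0 := by linear_combination h3
    exact ⟨(pow_eq_zero_iff two_ne_zero).mp h5, rfl⟩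
  obtain ⟨A, hAdef⟩ : ∃ A : Submodule F (ι → F), A = Submodule.span F {z, y} := ⟨_, rfl⟩
  have hAK : A ≤ K := by
    rw [hAdef, Submodule.span_le]
    intro x hx
    rcases hx with rfl | rfl
    · exact hPK hzP
    · exact hyK
  have hAdim : finrank F A = 2 := by
    rw [hAdef]
    apply oh_finrank_span_pair
    intro x s hxs
    apply haniso
    rw [hxs, hQ0]
  have hAan : ∀ v ∈ A, v ≠ 0 → Q v ≠ 0 := by
    intro v hv hv0 hQv
    rw [hAdef] at hv
    obtain ⟨x, s, rfl⟩ := Submodule.mem_span_pair.mp hv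
    obtain ⟨rfl, rfl⟩ := haniso x s hQv
    apply hv0; simp
  have hAnd : ONd Q A := by
    intro v hv hv0
    have h3 : QuadraticMap.polar Q v v ≠ 0 := by
      rw [pl_self]
      exact mul_ne_zero h2 (hAan v hv hv0)
    exact ⟨⟨v, hv, h3⟩, ⟨v, hv, h3⟩⟩
  refine ⟨A, hAK, hAnd, hAdim, ?_⟩
  rintro ⟨U, hUA, hts, hd⟩
  have hU1 : finrank F U = 1 := by omega
  have hU0 : U ≠ ⊥ := by
    intro h
    rw [h, finrank_bot] at hU1
    omega
  obtain ⟨v, hv, hv0⟩ := (Submodule.ne_bot_iff U).mp hU0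
  exact hAan v (hUA hv) hv0 (hts v hv)

end Cfsg.Agent.Helper70.OH5992
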