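import Mathlib
import Cfsg.Agent.Helper96.OHDefs
import Cfsg.Agent.Helper31.OHOPERP
import Cfsg.Agent.Helper70.OHOPLANES
import Cfsg.Agent.Helper96.OHEXND

set_option autoImplicit false
set_option linter.unusedSectionVars false
set_option linter.unusedVariables false

namespace Cfsg.Agent.Helper70.OH5992

open Module Polynomial Cfsg Cfsg.Geo
open Cfsg.Agent.Helper13.TIu Cfsg.Agent.Helper96.OH
open Cfsg.Agent.Helper96.OH5992 (o_exists_nd)

variable {ι : Type} [Fintype ι] [DecidableEq ι] {F : Type*} [Field F] (Q : (ι → F) → F)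

/-- OSUB: type freedom. -/
theorem o_sub [Fintype F] (hQ : IsNondegenerateQuadraticForm Q) (h2 : (2 : F) ≠ 0)
    (K : Submodule F (ι → F)) (hK : ONd Q K) (e : ℕ) (hev : Even e) (he0 : 0 < e)
    (heK : e < finrank F K) (b : Prop) :
    ∃ X : Submodule F (ι → F), X ≤ K ∧ ONd Q X ∧ finrank F X = e ∧ (OPl Q X ↔ b) := by
  classical
  obtain ⟨k, hk⟩ := hev
  have he2 : 2 ≤ e := by omega
  obtain ⟨X₀, hX₀K, hX₀nd, hX₀dim⟩ := o_exists_nd Q hQ h2 K hK (e - 2) (by omega)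
  obtain ⟨K₁, hK₁K, -, hK₁nd, hinf, hsup, horth, hdim⟩ :=
    Cfsg.Agent.Helper31.OH5992.o_perp Q hQ (1 : Module.End F (ι → F)) (opres_one Q) 1 one_pos
      (pow_one 1) K X₀ hK hX₀nd hX₀K
      (by rw [Module.End.one_eq_id, Submodule.map_id])
      (by rw [Module.End.one_eq_id, Submodule.map_id])
  have hK₁3 : 3 ≤ finrank F K₁ := by omega
  obtain ⟨⟨H, hHK₁, hHnd, hHdim, hHpl⟩, ⟨A, hAK₁, hAnd, hAdim, hApl⟩⟩ :=
    o_planes Q hQ h2 K₁ hK₁nd hK₁3
  have hX₀ev : Even (finrank F X₀) := by rw [hX₀dim]; exact ⟨k - 1, by omega⟩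
  by_cases hb : (OPl Q X₀ ↔ b)
  · have horthH : OOrth Q X₀ H := fun u hu v hv => horth u hu v (hHK₁ hv)
    refine ⟨X₀ ⊔ H, sup_le hX₀K (hHK₁.trans hK₁K),
      Cfsg.Agent.Helper33.OType.nondeg_sup Q hQ X₀ H hX₀nd hHnd horthH, ?_, ?_⟩
    · rw [Cfsg.Agent.Helper33.OType.finrank_sup_of_orth Q X₀ H hX₀nd horthH, hX₀dim, hHdim]
      omega
    · refine Iff.trans (Cfsg.Agent.Helper33.o_type_mul Q hQ X₀ H hX₀nd hHnd horthH hX₀ev
        (by rw [hHdim]; exact even_two)) ?_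
      constructor
      · intro h; exact hb.mp (h.mpr hHpl)
      · intro hb'; exact ⟨fun _ => hHpl, fun _ => hb.mpr hb'⟩
  · have horthA : OOrth Q X₀ A := fun u hu v hv => horth u hu v (hAK₁ hv)
    refine ⟨X₀ ⊔ A, sup_le hX₀K (hAK₁.trans hK₁K),
      Cfsg.Agent.Helper33.OType.nondeg_sup Q hQ X₀ A hX₀nd hAnd horthA, ?_, ?_⟩
    · rw [Cfsg.Agent.Helper33.OType.finrank_sup_of_orth Q X₀ A hX₀nd horthA, hX₀dim, hAdim]
      omega
    · refine Iff.trans (Cfsg.Agent.Helper33.o_type_mul Q hQ X₀ A hX₀nd hAnd horthA hX₀ev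
        (by rw [hAdim]; exact even_two)) ?_
      constructor
      · intro h
        by_contra hnb
        apply hb
        constructor
        · intro hX; exact absurd (h.mp hX) hApl
        · intro hb'; exact absurd hb' hnb
      · intro hb'
        constructor
        · intro hX; exact absurd ⟨fun _ => hb', fun _ => hX⟩ hb
        · intro hA; exact absurd hA hApl

end Cfsg.Agent.Helper70.OH5992
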