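import Mathlib
import Cfsg.Prelude.Def_GeometricClasses
import Cfsg.Prelude.Def_Classical
import Cfsg.Agent.Helper58.TSDefs

set_option autoImplicit false
set_option linter.unusedSectionVars false
set_option linter.unusedVariables false

namespace Cfsg.Agent.Helper70.TSR2

open Module Cfsg Cfsg.Geo Cfsg.Agent.Helper58.TS
open scoped MatrixGroups

variable {ι : Type} [Fintype ι] [DecidableEq ι] {F : Type*} [Field F] [Fintype F]

/-- CH2 [S]: odd cardinality gives `2 ≠ 0`. -/
theorem r2_two_ne (hodd : Odd (Fintype.card F)) : (2 : F) ≠ 0 := by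
  intro h
  have h1 : ringChar F ∣ 2 := (ringChar.spec F 2).mp (by exact_mod_cast h)
  have h2 : ringChar F = 2 := by
    rcases (Nat.dvd_prime Nat.prime_two).mp h1 with h3 | h3
    · exact absurd h3 CharP.ringChar_ne_one
    · exact h3
  have h4 := FiniteField.even_card_iff_char_two.mp h2
  rcases hodd with ⟨k, hk⟩
  omega

end Cfsg.Agent.Helper70.TSR2
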