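import Mathlib
import Cfsg.Prelude.Def_GeometricClasses
import Cfsg.Prelude.Def_Classical
import Cfsg.Agent.Helper58.TSDefs

set_option autoImplicit false
set_option linter.unusedSectionVars false
set_option linter.unusedVariables false

namespace Cfsg.Agent.Helper70.TSR2

open Module Cfsg Cfsg.Geo Cfsg.Agent.Helper58.TS
open scoped MatrixGroups

variable {ι : Type} [Fintype ι] [DecidableEq ι] {F : Type*} [Field F] [Fintype F]

theorem eig_exists_sub_finrank {V : Type*} [AddCommGroup V] [Module F V] [FiniteDimensional F V]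
    (E : Submodule F V) (k : ℕ) (hk : k ≤ finrank F E) :
    ∃ W : Submodule F V, W ≤ E ∧ finrank F W = k := by
  classical
  let b := Module.finBasis F E
  have hli : LinearIndependent F (fun j : Fin k => ((b (Fin.castLE hk j) : E) : V)) := by
    have h1 : LinearIndependent F (fun j : Fin k => b (Fin.castLE hk j)) :=
      b.linearIndependent.comp _ (Fin.castLE_injective hk)
    exact h1.map' E.subtype (Submodule.ker_subtype E)
  refine ⟨Submodule.span F (Set.range (fun j : Fin k => ((b (Fin.castLE hk j) : E) : V))), ?_, ?_⟩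
  · rw [Submodule.span_le]
    rintro _ ⟨j, rfl⟩
    exact (b (Fin.castLE hk j)).2
  · rw [finrank_span_eq_card hli, Fintype.card_fin]

/-- EIG [M]. -/
theorem r2_eig (Q : (ι → F) → F) (hQ : IsNondegenerateQuadraticForm Q) (h2 : (2 : F) ≠ 0) (d : ℕ)
    (hcard : Fintype.card ι = 2 * d) (M : Matrix ι ι F) (hM : ∀ v, Q (M.mulVec v) = Q v)
    (hM2 : M * M = -1) (hm1 : IsSquare (-1 : F)) : ∀ k, k ≤ d → InvTS Q M k := by
  classical
  obtain ⟨i₀, hi₀⟩ := hm1
  obtain ⟨T, hT⟩ : ∃ T : Module.End F (ι → F), T = Matrix.toLin' M := ⟨_, rfl⟩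
  have hTa : ∀ v, T v = M.mulVec v := fun v => by rw [hT, Matrix.toLin'_apply]
  have hTT : ∀ v, T (T v) = -v := by
    intro v
    rw [hTa, hTa, Matrix.mulVec_mulVec, hM2, Matrix.neg_mulVec, Matrix.one_mulVec]
  have hQT : ∀ v, Q (T v) = Q v := fun v => by rw [hTa]; exact hM v
  obtain ⟨Ep, hEp⟩ : ∃ E : Submodule F (ι → F),
      E = LinearMap.ker (T - i₀ • (1 : Module.End F (ι → F))) := ⟨_, rfl⟩
  obtain ⟨Em, hEm⟩ : ∃ E : Submodule F (ι → F),
      E = LinearMap.ker (T + i₀ • (1 : Module.End F (ι → F))) := ⟨_, rfl⟩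
  have hmemp : ∀ v, v ∈ Ep ↔ T v = i₀ • v := by
    intro v
    rw [hEp, LinearMap.mem_ker, LinearMap.sub_apply, LinearMap.smul_apply, Module.End.one_apply,
      sub_eq_zero]
  have hmemm : ∀ v, v ∈ Em ↔ T v = -(i₀ • v) := by
    intro v
    rw [hEm, LinearMap.mem_ker, LinearMap.add_apply, LinearMap.smul_apply, Module.End.one_apply,
      add_eq_zero_iff_eq_neg]
  have hsing : ∀ c : F, c * c = -1 → ∀ v, T v = c • v → Q v = 0 := by
    intro c hc v hv
    have h1 := hQT v
    rw [hv, hQ.smul] at h1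
    have h3 : c ^ 2 = -1 := by rw [pow_two, hc]
    rw [h3] at h1
    have h4 : 2 * Q v = 0 := by linear_combination -h1
    rcases mul_eq_zero.mp h4 with h5 | h5
    · exact absurd h5 h2
    · exact h5
  have hEpts : ∀ v ∈ Ep, Q v = 0 := fun v hv => hsing i₀ hi₀.symm v ((hmemp v).mp hv)
  have hEmts : ∀ v ∈ Em, Q v = 0 := fun v hv =>
    hsing (-i₀) (by rw [neg_mul_neg]; exact hi₀.symm) v (by rw [(hmemm v).mp hv, neg_smul])
  have hsup : Ep ⊔ Em = ⊤ := by
    rw [eq_top_iff]
    intro v _
    have hv : v = (2 : F)⁻¹ • (v - i₀ • T v) + (2 : F)⁻¹ • (v + i₀ • T v) := by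
      rw [← smul_add]
      have : v - i₀ • T v + (v + i₀ • T v) = (2 : F) • v := by rw [two_smul]; abel
      rw [this, smul_smul, inv_mul_cancel₀ h2, one_smul]
    rw [hv]
    apply Submodule.add_mem_sup
    · apply Ep.smul_mem
      rw [hmemp, map_sub, map_smul, hTT, smul_sub, smul_smul, ← hi₀]
      module
    · apply Em.smul_mem
      rw [hmemm, map_add, map_smul, hTT, smul_add, smul_smul, ← hi₀]
      module
  -- the polar form as a bilinear form
  let B : LinearMap.BilinForm F (ι → F) := LinearMap.mk₂ F (QuadraticMap.polar Q)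
    hQ.polar_bilinear.add_left hQ.polar_bilinear.smul_left hQ.polar_bilinear.add_right
    hQ.polar_bilinear.smul_right
  have hBa : ∀ x y, B x y = QuadraticMap.polar Q x y := fun x y => rfl
  have hBnd : B.Nondegenerate := by
    constructor
    · intro z hz
      by_contra h0
      obtain ⟨x, hx⟩ := (hQ.nondegenerate z h0).2
      exact hx (hz x)
    · intro z hz
      by_contra h0
      obtain ⟨x, hx⟩ := (hQ.nondegenerate z h0).1
      exact hx (hz x)
  have h5 : finrank F (ι → F) = 2 * d := by rw [Module.finrank_fintype_fun_eq_card, hcard]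
  have hbound : ∀ U : Submodule F (ι → F), (∀ v ∈ U, Q v = 0) → finrank F U ≤ d := by
    intro U hU
    have h1 := LinearMap.BilinForm.finrank_orthogonal hBnd U
    have h3 : U ≤ B.orthogonal U := by
      intro u hu
      rw [LinearMap.BilinForm.mem_orthogonal_iff]
      intro n hn
      rw [hBa]
      unfold QuadraticMap.polar
      rw [hU _ (U.add_mem hn hu), hU _ hn, hU _ hu]; ring
    have h4 := Submodule.finrank_mono h3
    omega
  have hdim := Submodule.finrank_sup_add_finrank_inf_eq Ep Em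
  rw [hsup, finrank_top, h5] at hdim
  have hEmd := hbound Em hEmts
  have hEpd : d ≤ finrank F Ep := by omega
  intro k hk
  obtain ⟨W, hWE, hWk⟩ := eig_exists_sub_finrank Ep k (le_trans hk hEpd)
  refine ⟨W, hWk, fun w hw => hEpts w (hWE hw), ?_⟩
  rintro _ ⟨w, hw, rfl⟩
  have h6 := (hmemp w).mp (hWE hw)
  rw [← hT, h6]
  exact W.smul_mem _ hw

end Cfsg.Agent.Helper70.TSR2
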