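import Mathlib
import Cfsg.Prelude.Def_GeometricClasses
import Cfsg.Prelude.Def_Classical
import Cfsg.Agent.Helper58.TSDefs

set_option autoImplicit false
set_option linter.unusedSectionVars false
set_option linter.unusedVariables false

namespace Cfsg.Agent.Helper70.TSR2

open Module Cfsg Cfsg.Geo Cfsg.Agent.Helper58.TS
open scoped MatrixGroups

variable {ι : Type} [Fintype ι] [DecidableEq ι] {F : Type*} [Field F] [Fintype F]

/-- Z [S]: a scalar isometry-square is `± 1`. -/
theorem r2_z (Q : (ι → F) → F) (hQ : IsNondegenerateQuadraticForm Q) (hne : Nonempty ι)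
    (M : Matrix ι ι F) (hM : ∀ v, Q (M.mulVec v) = Q v) (z : F)
    (hz : M * M = z • (1 : Matrix ι ι F)) : z = 1 ∨ z = -1 := by
  classical
  obtain ⟨i⟩ := hne
  have hw0 : (Pi.single i (1 : F) : ι → F) ≠ 0 := by
    intro h
    have := congrFun h i
    simp at this
  obtain ⟨-, x, hx⟩ := hQ.nondegenerate _ hw0
  have hex : ∃ v : ι → F, Q v ≠ 0 := by
    by_contra hcon
    push Not at hcon
    apply hx
    unfold QuadraticMap.polar
    rw [hcon, hcon, hcon]; ring
  obtain ⟨v, hv⟩ := hex
  have h1 : Q (M.mulVec (M.mulVec v)) = Q v := by rw [hM, hM]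
  rw [Matrix.mulVec_mulVec, hz, Matrix.smul_mulVec, Matrix.one_mulVec, hQ.smul] at h1
  have h3 : (z - 1) * (z + 1) = 0 := by
    have h4 : (z ^ 2 - 1) * Q v = 0 := by linear_combination h1
    rcases mul_eq_zero.mp h4 with h5 | h5
    · linear_combination h5
    · exact absurd h5 hv
  rcases mul_eq_zero.mp h3 with h5 | h5
  · left; linear_combination h5
  · right; linear_combination h5

end Cfsg.Agent.Helper70.TSR2
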