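import Cfsg.Agent.Helper70.FrobMul
import Cfsg.Agent.Helper35.Coprime
import Cfsg.Agent.Helper19.FpfConj

/-!
# Frobenius-type groups acting coprimely on solvable groups (helper70)

Group-level consequences of `frob_mul`: for subgroups `U`, `E`, `H` of a finite group with
`E` normalizing `U`, `C_U(e) = 1` for `e ∈ E`, `e ≠ 1`, `U` nilpotent, `U ⊔ E` normalizing the
solvable subgroup `H` of coprime order:
* `|C_H(UE)|^|E| · |H| = |C_H(E)|^|E| · |C_H(U)|`;
* if `C_H(E)` is cyclic then all commutators `[u, u']` (`u, u' ∈ U`) centralize `H`.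
-/

set_option autoImplicit false

namespace Cfsg.Agent.Helper70

noncomputable section

section IndAut

variable {G H Q : Type*} [Group G] [Group H] [Group Q]

/-- The endomorphism of a quotient `Q` of `H` induced by an automorphism. -/
def indHom (c : G →* MulAut H) (π : H →* Q) (hπ : Function.Surjective π)
    (hinv : ∀ g h, π h = 1 → π (c g h) = 1) (g : G) : Q →* Q :=
  π.liftOfSurjective hπ ⟨π.comp (c g).toMonoidHom, fun h hh => by
    rw [MonoidHom.mem_ker] at hh ⊢
    exact hinv g h hh⟩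

theorem indHom_apply (c : G →* MulAut H) (π : H →* Q) (hπ : Function.Surjective π)
    (hinv : ∀ g h, π h = 1 → π (c g h) = 1) (g : G) (h : H) :
    indHom c π hπ hinv g (π h) = π (c g h) :=
  MonoidHom.liftOfRightInverse_comp_apply _ _ _ _ h

/-- The action on a quotient `Q` of `H` induced by an action on `H` preserving the kernel. -/
def indAut (c : G →* MulAut H) (π : H →* Q) (hπ : Function.Surjective π)
    (hinv : ∀ g h, π h = 1 → π (c g h) = 1) : G →* MulAut Q :=
  MonoidHom.mk' (fun g =>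
    { toFun := indHom c π hπ hinv g
      invFun := indHom c π hπ hinv g⁻¹
      left_inv := fun q => by
        obtain ⟨h, rfl⟩ := hπ q
        rw [indHom_apply, indHom_apply, ← MulAut.mul_apply, ← map_mul, inv_mul_cancel, map_one,
          MulAut.one_apply]
      right_inv := fun q => by
        obtain ⟨h, rfl⟩ := hπ q
        rw [indHom_apply, indHom_apply, ← MulAut.mul_apply, ← map_mul, mul_inv_cancel, map_one,
          MulAut.one_apply]
      map_mul' := map_mul _ })
    (fun g g' => by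
      refine MulEquiv.ext (fun q => ?_)
      obtain ⟨h, rfl⟩ := hπ q
      show indHom c π hπ hinv (g * g') (π h) =
        indHom c π hπ hinv g (indHom c π hπ hinv g' (π h))
      rw [indHom_apply, indHom_apply, indHom_apply, map_mul, MulAut.mul_apply])

theorem indAut_apply (c : G →* MulAut H) (π : H →* Q) (hπ : Function.Surjective π)
    (hinv : ∀ g h, π h = 1 → π (c g h) = 1) (g : G) (h : H) :
    indAut c π hπ hinv g (π h) = π (c g h) :=
  indHom_apply c π hπ hinv g h

end IndAut

section ConjOn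

variable {X : Type*} [Group X]

/-- The conjugation action of a subgroup `A` on a subgroup `H` that it normalizes. -/
def conjOn (A H : Subgroup X) (hn : ∀ a ∈ A, ∀ h ∈ H, a * h * a⁻¹ ∈ H) : ↥A →* MulAut ↥H :=
  MonoidHom.mk' (fun a =>
    { toFun := fun h => ⟨a * h * (a : X)⁻¹, hn a a.2 h h.2⟩
      invFun := fun h => ⟨(a : X)⁻¹ * h * a, by
        have := hn (a : X)⁻¹ (A.inv_mem a.2) h h.2
        rwa [inv_inv] at this⟩
      left_inv := fun h => by
        apply Subtype.ext
        show (a : X)⁻¹ * (a * h * (a : X)⁻¹) * a = h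
        group
      right_inv := fun h => by
        apply Subtype.ext
        show (a : X) * ((a : X)⁻¹ * h * a) * (a : X)⁻¹ = h
        group
      map_mul' := fun h h' => by
        apply Subtype.ext
        show (a : X) * ((h : X) * h') * (a : X)⁻¹ = (a * h * (a : X)⁻¹) * (a * h' * (a : X)⁻¹)
        group })
    (fun a b => by
      refine MulEquiv.ext (fun h => Subtype.ext ?_)
      show ((a : X) * b) * h * ((a : X) * b)⁻¹ = a * (b * h * (b : X)⁻¹) * (a : X)⁻¹
      group)

theorem conjOn_apply (A H : Subgroup X) (hn : ∀ a ∈ A, ∀ h ∈ H, a * h * a⁻¹ ∈ H) (a : ↥A)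
    (h : ↥H) : ((conjOn A H hn a h : ↥H) : X) = a * h * (a : X)⁻¹ := rfl

end ConjOn

section EQ

variable (H : Type*) [Group H] (r : ℕ)

/-- The largest quotient of `H` that is abelian of exponent dividing `r`. -/
abbrev EQ : Type _ :=
  Abelianization H ⧸ (powMonoidHom r : Abelianization H →* Abelianization H).range

/-- The canonical map onto `EQ H r`. -/
def eqMap : H →* EQ H r := (QuotientGroup.mk' _).comp Abelianization.of

theorem eqMap_apply (h : H) :
    eqMap H r h = ((Abelianization.of h : Abelianization H) : EQ H r) := rfl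

theorem abelianization_of_surjective :
    Function.Surjective (Abelianization.of : H →* Abelianization H) :=
  fun a => QuotientGroup.mk_surjective a

theorem eqMap_surjective : Function.Surjective (eqMap H r) := by
  intro q
  induction q using QuotientGroup.induction_on with | _ a => ?_
  obtain ⟨h, rfl⟩ := abelianization_of_surjective H a
  exact ⟨h, rfl⟩

theorem EQ_pow (q : EQ H r) : q ^ r = 1 := by
  induction q using QuotientGroup.induction_on with | _ a => ?_
  rw [← QuotientGroup.mk_pow, QuotientGroup.eq_one_iff]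
  exact ⟨a, rfl⟩

instance EQ_finite [Finite H] : Finite (EQ H r) :=
  Finite.of_surjective _ (eqMap_surjective H r)

theorem eqMap_ker_le {C : Type*} [CommGroup C] (hC : ∀ c : C, c ^ r = 1) (f : H →* C) :
    (eqMap H r).ker ≤ f.ker := by
  intro h hh
  rw [MonoidHom.mem_ker] at hh ⊢
  have h1 : (Abelianization.of h) ∈
      (powMonoidHom r : Abelianization H →* Abelianization H).range := by
    rwa [eqMap_apply, QuotientGroup.eq_one_iff] at hh
  obtain ⟨a, ha⟩ := h1
  rw [← Abelianization.lift_apply_of f, ← ha, powMonoidHom_apply, map_pow, hC]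

theorem eqMap_aut (φ : MulAut H) (h : H) (hh : eqMap H r h = 1) : eqMap H r (φ h) = 1 := by
  have := eqMap_ker_le H r (EQ_pow H r) ((eqMap H r).comp φ.toMonoidHom)
    (by rwa [MonoidHom.mem_ker])
  rwa [MonoidHom.mem_ker] at this

theorem exists_eqMap_ne_one [Finite H] [Nontrivial H] [hs : Group.IsSolvable H] :
    ∃ r : ℕ, r.Prime ∧ ∃ h : H, eqMap H r h ≠ 1 := by
  have hfin : Finite (Abelianization H) :=
    Finite.of_surjective _ (abelianization_of_surjective H)
  have h1 : commutator H ≠ ⊤ := (Group.IsSolvable.commutator_lt_top_of_nontrivial H).ne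
  have h2 : Nat.card (Abelianization H) ≠ 1 := by
    intro h
    apply h1
    rw [← Subgroup.index_eq_one]
    exact h
  obtain ⟨r, hr, hdvd⟩ := Nat.exists_prime_and_dvd h2
  have := Fact.mk hr
  obtain ⟨a, ha⟩ := exists_prime_orderOf_dvd_card' r hdvd
  refine ⟨r, hr, ?_⟩
  by_contra hcon
  push Not at hcon
  have h3 : (powMonoidHom r : Abelianization H →* Abelianization H).range = ⊤ := by
    rw [eq_top_iff]
    intro b _
    obtain ⟨h, rfl⟩ := abelianization_of_surjective H b
    have := hcon h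
    rwa [eqMap_apply, QuotientGroup.eq_one_iff] at this
  have h4 : Function.Surjective (powMonoidHom r : Abelianization H →* Abelianization H) :=
    MonoidHom.range_eq_top.mp h3
  have h5 := Finite.injective_iff_surjective.mpr h4
  have h6 : a = 1 := h5 (by
    rw [powMonoidHom_apply, powMonoidHom_apply, one_pow, ← ha, pow_orderOf_eq_one])
  rw [h6, orderOf_one] at ha
  exact hr.one_lt.ne ha

end EQ

section Count

universe u

variable {X : Type u} [Group X] [Finite X]

/-- Fixed points on a quotient lift to fixed points (coprime action), and the resulting count. -/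
theorem card_fixed_eq (A H B : Subgroup X) (hn : ∀ a ∈ A, ∀ h ∈ H, a * h * a⁻¹ ∈ H)
    {Q : Type*} [Group Q] (π : ↥H →* Q) (hπ : Function.Surjective π)
    (hinv : ∀ (g : ↥A) (h : ↥H), π h = 1 → π (conjOn A H hn g h) = 1) (hBA : B ≤ A)
    (hcop : (Nat.card B).Coprime (Nat.card (π.ker.map H.subtype)))
    (hsolv : Group.IsSolvable ↥(π.ker.map H.subtype)) :
    (∀ q : Q, q ∈ fixSub (indAut (conjOn A H hn) π hπ hinv) (B.subgroupOf A) ↔
      ∃ y : ↥H, (y : X) ∈ Subgroup.centralizer (B : Set X) ∧ π y = q) ∧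
    Nat.card ↥(H ⊓ Subgroup.centralizer (B : Set X)) =
      Nat.card ↥(π.ker.map H.subtype ⊓ Subgroup.centralizer (B : Set X)) *
        Nat.card (fixSub (indAut (conjOn A H hn) π hπ hinv) (B.subgroupOf A)) := by
  set N := π.ker.map H.subtype with hNdef
  set α := indAut (conjOn A H hn) π hπ hinv with hα
  have hN : ∀ x : X, x ∈ N ↔ ∃ h : ↥H, π h = 1 ∧ (h : X) = x := by
    intro x
    rw [hNdef, Subgroup.mem_map]
    constructor
    · rintro ⟨h, hh, rfl⟩
      exact ⟨h, MonoidHom.mem_ker.mp hh, rfl⟩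
    · rintro ⟨h, hh, rfl⟩
      exact ⟨h, MonoidHom.mem_ker.mpr hh, rfl⟩
  have hconjN : ∀ b ∈ B, ∀ n ∈ N, b * n * b⁻¹ ∈ N := by
    intro b hb n hn'
    obtain ⟨h, hh, rfl⟩ := (hN n).mp hn'
    exact (hN _).mpr ⟨conjOn A H hn ⟨b, hBA hb⟩ h, hinv _ h hh, rfl⟩
  have hBN : B ≤ Subgroup.normalizer (N : Set X) := by
    intro b hb
    rw [Subgroup.mem_normalizer_iff]
    intro n
    refine ⟨fun h => hconjN b hb n h, fun h => ?_⟩
    have := hconjN b⁻¹ (B.inv_mem hb) _ h
    have h2 : b⁻¹ * (b * n * b⁻¹) * b⁻¹⁻¹ = n := by group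
    rwa [h2] at this
  have hfix : ∀ q : Q, q ∈ fixSub α (B.subgroupOf A) ↔
      ∃ y : ↥H, (y : X) ∈ Subgroup.centralizer (B : Set X) ∧ π y = q := by
    intro q
    constructor
    · intro hq
      obtain ⟨h₀, rfl⟩ := hπ q
      have hx : ∀ b ∈ B, (h₀ : X)⁻¹ * b * h₀ * b⁻¹ ∈ N := by
        intro b hb
        have h1 := hq ⟨b, hBA hb⟩ (Subgroup.mem_subgroupOf.mpr hb)
        rw [hα, indAut_apply] at h1
        refine (hN _).mpr ⟨h₀⁻¹ * conjOn A H hn ⟨b, hBA hb⟩ h₀, ?_, ?_⟩
        · rw [map_mul, h1, map_inv, inv_mul_cancel]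
        · rw [Subgroup.coe_mul, Subgroup.coe_inv, conjOn_apply]
          simp only [mul_assoc]
      obtain ⟨c, hc, hcN⟩ := Cfsg.Agent.Helper35.exists_fixed_in_coset hBN hcop (Or.inr hsolv)
        (h₀ : X) hx
      obtain ⟨n, hn1, hn2⟩ := (hN _).mp hcN
      refine ⟨h₀ * n, ?_, ?_⟩
      · rw [Subgroup.coe_mul, hn2, mul_inv_cancel_left]
        exact hc
      · rw [map_mul, hn1, mul_one]
    · rintro ⟨y, hy, rfl⟩ b hb
      rw [hα, indAut_apply]
      congr 1
      apply Subtype.ext
      rw [conjOn_apply]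
      have h1 := Subgroup.mem_centralizer_iff.mp hy (b : X) (Subgroup.mem_subgroupOf.mp hb)
      rw [h1, mul_inv_cancel_right]
  refine ⟨hfix, ?_⟩
  set θ : ↥(H ⊓ Subgroup.centralizer (B : Set X)) →* Q :=
    π.comp (Subgroup.inclusion inf_le_left) with hθ
  have hθ_apply : ∀ y : ↥(H ⊓ Subgroup.centralizer (B : Set X)),
      θ y = π ⟨(y : X), y.2.1⟩ := fun y => rfl
  have e1 := Subgroup.card_mul_index θ.ker
  rw [Subgroup.index_ker] at e1
  have e2 : θ.range = fixSub α (B.subgroupOf A) := by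
    ext q
    rw [hfix, MonoidHom.mem_range]
    constructor
    · rintro ⟨y, rfl⟩
      exact ⟨⟨(y : X), y.2.1⟩, y.2.2, rfl⟩
    · rintro ⟨y, hy, rfl⟩
      exact ⟨⟨(y : X), ⟨y.2, hy⟩⟩, rfl⟩
  have e3 : θ.ker.map (H ⊓ Subgroup.centralizer (B : Set X)).subtype =
      N ⊓ Subgroup.centralizer (B : Set X) := by
    ext x
    rw [Subgroup.mem_map, Subgroup.mem_inf, hN]
    constructor
    · rintro ⟨y, hy, rfl⟩
      exact ⟨⟨⟨(y : X), y.2.1⟩, MonoidHom.mem_ker.mp hy, rfl⟩, y.2.2⟩
    · rintro ⟨⟨h, hh, rfl⟩, hx⟩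
      exact ⟨⟨(h : X), ⟨h.2, hx⟩⟩, MonoidHom.mem_ker.mpr hh, rfl⟩
  have e4 : Nat.card θ.ker = Nat.card ↥(N ⊓ Subgroup.centralizer (B : Set X)) := by
    rw [← e3]
    exact (Subgroup.card_map_of_injective (Subgroup.subtype_injective _)).symm
  rw [← e1, e4, e2]

end Count

section Main

universe u

variable {X : Type u} [Group X] [Finite X]

omit [Finite X] in
theorem stab_aux (d h n : X) (h1 : d * h * d⁻¹ = h * n) (h2 : d * n = n * d) (k : ℕ) :
    d ^ k * h * (d ^ k)⁻¹ = h * n ^ k := by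
  induction k with
  | zero => simp
  | succ k ih =>
    have h3 : d * n ^ k = n ^ k * d := by
      have : Commute d n := h2
      exact (this.pow_right k).eq
    calc d ^ (k + 1) * h * (d ^ (k + 1))⁻¹ = d * (d ^ k * h * (d ^ k)⁻¹) * d⁻¹ := by
          rw [pow_succ']
          group
      _ = d * (h * n ^ k) * d⁻¹ := by rw [ih]
      _ = (d * h * d⁻¹) * (d * n ^ k) * d⁻¹ := by group
      _ = h * n ^ (k + 1) := by
          rw [h1, h3, pow_succ']
          group

omit [Finite X] in
theorem comm_of_stab (A N : Subgroup X) (hcop : Nat.Coprime (Nat.card N) (Nat.card A)) (d h : X)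
    (hd : d ∈ A) (hn : h⁻¹ * (d * h * d⁻¹) ∈ N)
    (hcomm : d * (h⁻¹ * (d * h * d⁻¹)) = (h⁻¹ * (d * h * d⁻¹)) * d) : d * h = h * d := by
  set n := h⁻¹ * (d * h * d⁻¹) with hndef
  have h1 : d * h * d⁻¹ = h * n := by
    rw [hndef]
    group
  have h2 := stab_aux d h n h1 hcomm (orderOf d)
  rw [pow_orderOf_eq_one, one_mul, inv_one, mul_one] at h2
  have h3 : n ^ orderOf d = 1 := by
    have := congrArg (fun x => h⁻¹ * x) h2
    simpa using this.symm
  have h4 : orderOf n ∣ orderOf d := orderOf_dvd_of_pow_eq_one h3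
  have h5 : orderOf n ∣ Nat.card N := Subgroup.orderOf_dvd_natCard N hn
  have h6 : orderOf d ∣ Nat.card A := Subgroup.orderOf_dvd_natCard A hd
  have h7 : orderOf n ∣ Nat.gcd (Nat.card N) (Nat.card A) := Nat.dvd_gcd h5 (h4.trans h6)
  rw [hcop.gcd_eq_one, Nat.dvd_one, orderOf_eq_one_iff] at h7
  rw [h7, mul_one] at h1
  calc d * h = d * h * d⁻¹ * d := by group
    _ = h * d := by rw [h1]

theorem frob_arith (a b c d e f g i n : ℕ) (h1 : a ^ n * b = c ^ n * d)
    (h2 : e * f ^ n = g * i ^ n) : (a * f) ^ n * (b * e) = (c * i) ^ n * (d * g) := by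
  calc (a * f) ^ n * (b * e) = (a ^ n * b) * (e * f ^ n) := by ring
    _ = (c ^ n * d) * (g * i ^ n) := by rw [h1, h2]
    _ = (c * i) ^ n * (d * g) := by ring

theorem frob_group_aux (U E : Subgroup X) (hUn : ∀ e ∈ E, ∀ u ∈ U, e * u * e⁻¹ ∈ U)
    (hfpf : ∀ e ∈ E, e ≠ 1 → ∀ u ∈ U, e * u = u * e → u = 1) [hnil : Group.IsNilpotent U] :
    ∀ (n : ℕ) (H : Subgroup X), Nat.card H ≤ n →
      (∀ x ∈ U ⊔ E, ∀ h ∈ H, x * h * x⁻¹ ∈ H) → Group.IsSolvable H →
      Nat.Coprime (Nat.card H) (Nat.card ↥(U ⊔ E)) →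
      (Nat.card ↥(H ⊓ Subgroup.centralizer ((U ⊔ E : Subgroup X) : Set X)) ^ Nat.card E *
          Nat.card H =
        Nat.card ↥(H ⊓ Subgroup.centralizer (E : Set X)) ^ Nat.card E *
          Nat.card ↥(H ⊓ Subgroup.centralizer (U : Set X))) ∧
      (IsCyclic ↥(H ⊓ Subgroup.centralizer (E : Set X)) →
        ∀ u ∈ U, ∀ u' ∈ U, ∀ h ∈ H,
          (u * u' * u⁻¹ * u'⁻¹) * h = h * (u * u' * u⁻¹ * u'⁻¹)) := by
  intro n
  induction n with
  | zero =>
    intro H hH
    have := Nat.card_pos (α := ↥H)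
    omega
  | succ n ih =>
    intro H hHcard hHn hsolv hcop
    by_cases hbot : H = ⊥
    · subst hbot
      refine ⟨?_, ?_⟩
      · simp
      · intro _ u _ u' _ h hh
        rw [Subgroup.mem_bot] at hh
        rw [hh, mul_one, one_mul]
    · have hnt : Nontrivial ↥H := (Subgroup.nontrivial_iff_ne_bot H).mpr hbot
      obtain ⟨r, hr, h₀, hh₀⟩ := exists_eqMap_ne_one ↥H
      have hrf := Fact.mk hr
      set A := U ⊔ E with hA
      set π := eqMap ↥H r with hπdef
      have hπ : Function.Surjective π := eqMap_surjective ↥H r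
      have hinv : ∀ (g : ↥A) (h : ↥H), π h = 1 → π (conjOn A H hHn g h) = 1 :=
        fun g h hh => eqMap_aut ↥H r _ h hh
      set α := indAut (conjOn A H hHn) π hπ hinv with hα
      set N := π.ker.map H.subtype with hNdef
      have hNH : N ≤ H := Subgroup.map_subtype_le _
      have hcardN : Nat.card N = Nat.card π.ker :=
        Subgroup.card_map_of_injective (Subgroup.subtype_injective H)
      have hcardH : Nat.card H = Nat.card N * Nat.card (EQ ↥H r) := by
        have := Subgroup.card_mul_index π.ker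
        rw [Subgroup.index_ker, MonoidHom.range_eq_top.mpr hπ, Subgroup.card_top] at this
        rw [hcardN, this]
      have hQnt : 1 < Nat.card (EQ ↥H r) := by
        rw [Finite.one_lt_card_iff_nontrivial]
        exact ⟨⟨π h₀, 1, hh₀⟩⟩
      have hNlt : Nat.card N < Nat.card H := by
        rw [hcardH]
        have := Nat.card_pos (α := ↥N)
        nlinarith
      have hrQ : r ∣ Nat.card (EQ ↥H r) := by
        have h1 : orderOf (π h₀) = r := orderOf_eq_prime (EQ_pow ↥H r _) hh₀
        have h2 : orderOf (π h₀) ∣ Nat.card (EQ ↥H r) := orderOf_dvd_natCard _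
        rwa [h1] at h2
      have hrA : ¬ r ∣ Nat.card ↥A := by
        intro hdiv
        have h1 : r ∣ Nat.card H := hrQ.trans (Dvd.intro_left _ hcardH.symm)
        have h2 := Nat.dvd_gcd h1 hdiv
        rw [hcop.gcd_eq_one] at h2
        exact hr.one_lt.ne' (Nat.dvd_one.mp h2)
      have hNn : ∀ x ∈ A, ∀ n ∈ N, x * n * x⁻¹ ∈ N := by
        intro x hx n hn
        obtain ⟨h, hh, rfl⟩ := hn
        exact ⟨conjOn A H hHn ⟨x, hx⟩ h,
          MonoidHom.mem_ker.mpr (hinv ⟨x, hx⟩ h (MonoidHom.mem_ker.mp hh)), rfl⟩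
      have hNsolv : Group.IsSolvable ↥N :=
        Group.isSolvable_of_isSolvable_injective (f := Subgroup.inclusion hNH)
          (Subgroup.inclusion_injective hNH)
      have hNcop : Nat.Coprime (Nat.card N) (Nat.card ↥A) :=
        Nat.Coprime.coprime_dvd_left (Subgroup.card_dvd_of_le hNH) hcop
      obtain ⟨ihF, ihC⟩ := ih N (by omega) hNn hNsolv hNcop
      have hUA : U ≤ A := le_sup_left
      have hEA : E ≤ A := le_sup_right
      have hAU : A ≤ Subgroup.normalizer (U : Set X) := by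
        refine sup_le Subgroup.le_normalizer (fun e he => ?_)
        rw [Subgroup.mem_normalizer_iff]
        intro u
        refine ⟨fun hu => hUn e he u hu, fun hu => ?_⟩
        have := hUn e⁻¹ (E.inv_mem he) _ hu
        have h2 : e⁻¹ * (e * u * e⁻¹) * e⁻¹⁻¹ = u := by group
        rwa [h2] at this
      have hU'n : (U.subgroupOf A).Normal := Subgroup.normal_subgroupOf_of_le_normalizer hAU
      have hU'nil : Group.IsNilpotent ↥(U.subgroupOf A) :=
        Group.nilpotent_of_mulEquiv (Subgroup.subgroupOfEquivOfLe hUA).symm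
      have hfpf' : ∀ e ∈ E.subgroupOf A, e ≠ 1 → ∀ u ∈ U.subgroupOf A, e * u = u * e → u = 1 := by
        intro e he hne u hu hcomm
        have := hfpf e he (fun h => hne (Subtype.ext h)) u hu (congrArg Subtype.val hcomm)
        exact Subtype.ext this
      obtain ⟨hmulF, hmulC⟩ :=
        frob_mul r (EQ_pow ↥H r) α hrA (U.subgroupOf A) (E.subgroupOf A) hfpf'
      have hsup : U.subgroupOf A ⊔ E.subgroupOf A = A.subgroupOf A :=
        (Subgroup.subgroupOf_sup hUA hEA).symm
      rw [hsup] at hmulF hmulC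
      have hE'card : Nat.card ↥(E.subgroupOf A) = Nat.card E :=
        Nat.card_congr (Subgroup.subgroupOfEquivOfLe hEA).toEquiv
      rw [hE'card] at hmulF
      have hcount := fun (B : Subgroup X) (hBA : B ≤ A) =>
        card_fixed_eq A H B hHn π hπ hinv hBA
          (Nat.Coprime.coprime_dvd_left (Subgroup.card_dvd_of_le hBA) hNcop.symm) hNsolv
      obtain ⟨hfixA, hcA⟩ := hcount A le_rfl
      obtain ⟨hfixU, hcU⟩ := hcount U hUA
      obtain ⟨hfixE, hcE⟩ := hcount E hEA
      constructor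
      · rw [hcA, hcE, hcU, hcardH]
        exact frob_arith _ _ _ _ _ _ _ _ _ ihF hmulF
      · intro hcyc u hu u' hu' h hh
        have hle' : N ⊓ Subgroup.centralizer (E : Set X) ≤
            H ⊓ Subgroup.centralizer (E : Set X) := inf_le_inf_right _ hNH
        have hcycN : IsCyclic ↥(N ⊓ Subgroup.centralizer (E : Set X)) :=
          isCyclic_of_injective (Subgroup.inclusion hle') (Subgroup.inclusion_injective hle')
        have ihC' := ihC hcycN
        -- the fixed points of `E` on the quotient form a cyclic group of exponent `r`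
        have hfixle : Nat.card (fixSub α (E.subgroupOf A)) ≤ r := by
          obtain ⟨g₀, hg₀⟩ := hcyc.exists_generator
          set q₀ : EQ ↥H r := π ⟨(g₀ : X), g₀.2.1⟩ with hq₀
          have hle : fixSub α (E.subgroupOf A) ≤ Subgroup.zpowers q₀ := by
            intro q hq
            obtain ⟨y, hy, rfl⟩ := (hfixE q).mp hq
            obtain ⟨k, hk⟩ := Subgroup.mem_zpowers_iff.mp
              (hg₀ ⟨(y : X), ⟨y.2, hy⟩⟩)
            refine Subgroup.mem_zpowers_iff.mpr ⟨k, ?_⟩
            rw [hq₀, ← map_zpow]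
            congr 1
            apply Subtype.ext
            have := congrArg (fun z : ↥(H ⊓ Subgroup.centralizer (E : Set X)) => (z : X)) hk
            simpa using this
          have h1 : Nat.card (Subgroup.zpowers q₀) ≤ r := by
            rw [Nat.card_zpowers]
            exact Nat.le_of_dvd hr.pos (orderOf_dvd_of_pow_eq_one (EQ_pow ↥H r q₀))
          exact (Subgroup.card_le_of_le hle).trans h1
        have hpos : 0 < Nat.card (fixSub α (A.subgroupOf A)) := Nat.card_pos
        have hcommQ := hmulC (by nlinarith)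
        set uA : ↥A := ⟨u, hUA hu⟩ with huA
        set u'A : ↥A := ⟨u', hUA hu'⟩ with hu'A
        have hab : α uA * α u'A = α u'A * α uA := by
          refine MulEquiv.ext (fun q => ?_)
          exact hcommQ uA (Subgroup.mem_subgroupOf.mpr hu) u'A (Subgroup.mem_subgroupOf.mpr hu') q
        have hαd : α (uA * u'A * uA⁻¹ * u'A⁻¹) = 1 := by
          rw [map_mul, map_mul, map_mul, map_inv, map_inv, hab]
          group
        have hd : u * u' * u⁻¹ * u'⁻¹ ∈ A :=
          A.mul_mem (A.mul_mem (A.mul_mem (hUA hu) (hUA hu')) (A.inv_mem (hUA hu)))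
            (A.inv_mem (hUA hu'))
        have h1 := indAut_apply (conjOn A H hHn) π hπ hinv (uA * u'A * uA⁻¹ * u'A⁻¹) ⟨h, hh⟩
        rw [← hα, hαd, MulAut.one_apply] at h1
        have hnN : h⁻¹ * ((u * u' * u⁻¹ * u'⁻¹) * h * (u * u' * u⁻¹ * u'⁻¹)⁻¹) ∈ N := by
          refine ⟨(⟨h, hh⟩ : ↥H)⁻¹ * conjOn A H hHn (uA * u'A * uA⁻¹ * u'A⁻¹) ⟨h, hh⟩, ?_, ?_⟩
          · rw [SetLike.mem_coe, MonoidHom.mem_ker, map_mul, ← h1, map_inv, inv_mul_cancel]
          · rfl
        exact comm_of_stab A N hNcop _ h hd hnN (ihC' u hu u' hu' _ hnN)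

/-- **Frobenius-type group acting coprimely on a solvable group.** -/
theorem frob_group_main (U E H : Subgroup X) (hE1 : E ≠ ⊥)
    (hUn : ∀ e ∈ E, ∀ u ∈ U, e * u * e⁻¹ ∈ U)
    (hfpf : ∀ e ∈ E, e ≠ 1 → ∀ u ∈ U, e * u = u * e → u = 1)
    (hHn : ∀ x ∈ U ⊔ E, ∀ h ∈ H, x * h * x⁻¹ ∈ H) (hsolv : Group.IsSolvable H)
    (hcop : Nat.Coprime (Nat.card H) (Nat.card ↥(U ⊔ E))) :
    (Nat.card ↥(H ⊓ Subgroup.centralizer ((U ⊔ E : Subgroup X) : Set X)) ^ Nat.card E *
        Nat.card H =
      Nat.card ↥(H ⊓ Subgroup.centralizer (E : Set X)) ^ Nat.card E *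
        Nat.card ↥(H ⊓ Subgroup.centralizer (U : Set X))) ∧
    (IsCyclic ↥(H ⊓ Subgroup.centralizer (E : Set X)) →
      ∀ u ∈ U, ∀ u' ∈ U, ∀ h ∈ H,
        (u * u' * u⁻¹ * u'⁻¹) * h = h * (u * u' * u⁻¹ * u'⁻¹)) := by
  obtain ⟨e, he, hne⟩ : ∃ e ∈ E, e ≠ 1 := by
    by_contra hcon
    push Not at hcon
    exact hE1 ((Subgroup.eq_bot_iff_forall E).mpr hcon)
  have ho : orderOf e ≠ 1 := by rwa [Ne, orderOf_eq_one_iff]
  set p := (orderOf e).minFac with hpdef
  have hp : p.Prime := Nat.minFac_prime ho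
  have hpd : p ∣ orderOf e := Nat.minFac_dvd _
  set h := e ^ (orderOf e / p) with hhdef
  have hhp : h ^ p = 1 := by rw [hhdef, ← pow_mul, Nat.div_mul_cancel hpd, pow_orderOf_eq_one]
  have hpos : 0 < orderOf e := orderOf_pos e
  have hh1 : h ≠ 1 := by
    intro h1
    have h2 := orderOf_dvd_of_pow_eq_one h1
    have h3 : orderOf e ≤ orderOf e / p :=
      Nat.le_of_dvd (Nat.div_pos (Nat.le_of_dvd hpos hpd) hp.pos) h2
    have h4 : orderOf e / p < orderOf e := Nat.div_lt_self hpos hp.one_lt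
    omega
  have hhE : h ∈ E := E.pow_mem he _
  have hnil : Group.IsNilpotent U :=
    Cfsg.Agent.Helper19.isNilpotent_of_fpf_conj U h hp (fun x hx => hUn h hhE x hx) hhp (by
      rw [eq_bot_iff]
      rintro x ⟨hxU, hxC⟩
      rw [Subgroup.mem_bot]
      have := Subgroup.mem_centralizer_iff.mp hxC h (Set.mem_singleton h)
      exact hfpf h hhE hh1 x hxU this)
  exact frob_group_aux U E hUn hfpf _ H le_rfl hHn hsolv hcop

end Main

end

end Cfsg.Agent.Helper70
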