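import Mathlib
import Cfsg.Agent.Helper5.SLCard
import Cfsg.Agent.Helper2.SolvableSmall

/-!
# Helper70: PIECES L3 and NOT3 of CALL S2752 (helper87)

* `sf_l_syl`: a 2-subgroup of `PSL₂(3^(2n+1))` has order dividing 4;
* `sf_not3`: `PSL₂(3)` is not simple.
-/

set_option autoImplicit false
set_option linter.style.haveILetI false

namespace Cfsg.Agent.Helper70

/-- `PSL₂(F)` is finite for a finite field. -/
theorem sf_psl2_finite {F : Type} [Field F] [Fintype F] :
    Finite (Matrix.ProjectiveSpecialLinearGroup (Fin 2) F) := by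
  classical
  haveI : Finite (Matrix.SpecialLinearGroup (Fin 2) F) :=
    Finite.of_injective (fun g => g.1) (fun g h hgh => Subtype.ext hgh)
  unfold Matrix.ProjectiveSpecialLinearGroup
  infer_instance

/-- `2 |PSL₂(q)| = q (q² - 1)` for `q` a power of `3`. -/
theorem sf_psl2_card {F : Type} [Field F] [Fintype F] (k : ℕ) (hF : Fintype.card F = 3 ^ k) :
    Nat.card (Matrix.ProjectiveSpecialLinearGroup (Fin 2) F) * 2
      = 3 ^ k * ((3 ^ k) ^ 2 - 1) := by
  have h2 : (2 : F) ≠ 0 := by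
    apply Ring.two_ne_zero
    intro h
    have h1 := FiniteField.even_card_of_char_two h
    rw [hF] at h1
    have h3 : 3 ^ k % 2 = 1 := by
      rw [Nat.pow_mod]
      norm_num
    omega
  have hc := Cfsg.Agent.Helper5.card_PSL2_mul (F := F)
  rw [Cfsg.Agent.Helper5.card_center_SL2 h2, hF] at hc
  exact hc

/-- L3 -/
theorem sf_l_syl {F : Type} [Field F] [Fintype F] (n : ℕ) (hF : Fintype.card F = 3 ^ (2 * n + 1))
    (E : Subgroup (Matrix.ProjectiveSpecialLinearGroup (Fin 2) F)) (hE : IsPGroup 2 E) :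
    Nat.card E ∣ 4 := by
  haveI := sf_psl2_finite (F := F)
  haveI : Fact (Nat.Prime 2) := ⟨Nat.prime_two⟩
  have hc := sf_psl2_card (2 * n + 1) hF
  obtain ⟨k, hk⟩ := IsPGroup.iff_card.mp hE
  have hdvd : Nat.card E ∣ Nat.card (Matrix.ProjectiveSpecialLinearGroup (Fin 2) F) :=
    Subgroup.card_subgroup_dvd_card E
  have hq8 : 3 ^ (2 * n + 1) % 8 = 3 := by
    rw [pow_succ, pow_mul, Nat.mul_mod, Nat.pow_mod]
    norm_num
  obtain ⟨m, hm⟩ : ∃ m, 3 ^ (2 * n + 1) = 8 * m + 3 := ⟨3 ^ (2 * n + 1) / 8, by omega⟩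
  rw [hm] at hc
  have hsq : (8 * m + 3) ^ 2 - 1 = 8 * (8 * m ^ 2 + 6 * m + 1) := by
    have h1 : (8 * m + 3) ^ 2 = 8 * (8 * m ^ 2 + 6 * m + 1) + 1 := by ring
    omega
  rw [hsq] at hc
  obtain ⟨X, hX⟩ : ∃ X, X = (8 * m + 3) * (8 * m ^ 2 + 6 * m + 1) := ⟨_, rfl⟩
  have hXodd : ¬ 2 ∣ X := by
    rw [hX, Nat.Prime.dvd_mul Nat.prime_two]
    rintro (h | h)
    · omega
    · have h1 : 8 * m ^ 2 + 6 * m + 1 = 2 * (4 * m ^ 2 + 3 * m) + 1 := by ring
      omega
  have hc' : Nat.card (Matrix.ProjectiveSpecialLinearGroup (Fin 2) F) = 4 * X := by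
    have h1 : Nat.card (Matrix.ProjectiveSpecialLinearGroup (Fin 2) F) * 2 = 4 * X * 2 := by
      rw [hc, hX]
      ring
    exact Nat.eq_of_mul_eq_mul_right (by norm_num) h1
  rw [hk]
  rw [hk, hc'] at hdvd
  by_contra hnd
  have hk3 : 3 ≤ k := by
    by_contra hlt
    push Not at hlt
    interval_cases k <;> norm_num at hnd
  have h8 : 2 ^ 3 ∣ 4 * X := (pow_dvd_pow 2 hk3).trans hdvd
  apply hXodd
  obtain ⟨t, ht⟩ := h8
  exact ⟨t, by omega⟩

/-- NOT3 -/
theorem sf_not3 {F : Type} [Field F] [Fintype F] (hF : Fintype.card F = 3) :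
    ¬ IsSimpleGroup (Matrix.ProjectiveSpecialLinearGroup (Fin 2) F) := by
  intro hs
  haveI := sf_psl2_finite (F := F)
  haveI : Fact (Nat.Prime 2) := ⟨Nat.prime_two⟩
  have hc := sf_psl2_card 1 (by rw [hF]; norm_num)
  have h12 : Nat.card (Matrix.ProjectiveSpecialLinearGroup (Fin 2) F) = 12 := by
    norm_num at hc
    omega
  have hsol := Cfsg.Agent.Helper2.isSolvable_of_card_dvd_twelve
    (G := Matrix.ProjectiveSpecialLinearGroup (Fin 2) F) (by rw [h12])
  have hcomm := IsSimpleGroup.comm_iff_isSolvable.mpr hsol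
  obtain ⟨x, hx⟩ := exists_prime_orderOf_dvd_card' (G := Matrix.ProjectiveSpecialLinearGroup (Fin 2) F) 2
    (by rw [h12]; norm_num)
  have hn : (Subgroup.zpowers x).Normal :=
    ⟨fun y hy g => by rw [hcomm g y, mul_inv_cancel_right]; exact hy⟩
  rcases hn.eq_bot_or_eq_top with h | h
  · have h1 : x = 1 := Subgroup.zpowers_eq_bot.mp h
    rw [h1, orderOf_one] at hx
    norm_num at hx
  · have hcard : Nat.card (Subgroup.zpowers x) = 2 := by rw [Nat.card_zpowers, hx]
    rw [h, Subgroup.card_top, h12] at hcard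
    norm_num at hcard

end Cfsg.Agent.Helper70
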