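import Mathlib

set_option autoImplicit false

namespace Cfsg.Agent.Helper70

open Subgroup MulAction

open Classical in
/-- Product over the fixed points of a subgroup `Z` of a `p`-group `P`, of a function that is
constant on `P`-orbits (restricted to `Z`-fixed points) and has trivial `p`-th powers: only the
`P`-fixed points contribute. -/
theorem prod_fixedPoints_eq {P X A : Type*} [Group P] [Finite P] [Fintype X] [MulAction P X]
    [CommGroup A] {p : ℕ} [Fact p.Prime] (hP : IsPGroup p P) (Z : Subgroup P) (v : X → A)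
    (ha : ∀ c : X, (∀ z ∈ Z, z • c = c) → ∀ y : P, (∀ z ∈ Z, z • (y • c) = y • c) →
      v (y • c) = v c)
    (hb : ∀ c : X, (∀ z ∈ Z, z • c = c) → (v c) ^ p = 1) :
    ∏ c ∈ Finset.univ.filter (fun c : X => ∀ z ∈ Z, z • c = c), v c =
      ∏ c ∈ Finset.univ.filter (fun c : X => ∀ y : P, y • c = c), v c := by
  have hsub : Finset.univ.filter (fun c : X => ∀ y : P, y • c = c) ⊆
      Finset.univ.filter (fun c : X => ∀ z ∈ Z, z • c = c) := by
    intro c hc
    rw [Finset.mem_filter] at hc ⊢
    exact ⟨Finset.mem_univ _, fun z _ => hc.2 z⟩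
  rw [← Finset.prod_sdiff hsub]
  suffices h : ∏ c ∈ Finset.univ.filter (fun c : X => ∀ z ∈ Z, z • c = c) \
      Finset.univ.filter (fun c : X => ∀ y : P, y • c = c), v c = 1 by
    rw [h, one_mul]
  rw [← Finset.prod_fiberwise _ (fun c => (Quotient.mk'' c : orbitRel.Quotient P X)) v]
  apply Finset.prod_eq_one
  intro O _
  set S := (Finset.univ.filter (fun c : X => ∀ z ∈ Z, z • c = c) \
      Finset.univ.filter (fun c : X => ∀ y : P, y • c = c)).filter
        (fun c => (Quotient.mk'' c : orbitRel.Quotient P X) = O) with hS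
  have hSmem : ∀ c, c ∈ S ↔ ((∀ z ∈ Z, z • c = c) ∧ ¬ (∀ y : P, y • c = c)) ∧
      (Quotient.mk'' c : orbitRel.Quotient P X) = O := by
    intro c
    simp [hS]
  rcases S.eq_empty_or_nonempty with hemp | ⟨c0, hc0⟩
  · rw [hemp, Finset.prod_empty]
  obtain ⟨⟨hc0Z, hc0P⟩, hc0O⟩ := (hSmem c0).mp hc0
  have horb : ∀ c, (Quotient.mk'' c : orbitRel.Quotient P X) = O ↔ c ∈ orbit P c0 := by
    intro c
    rw [← hc0O, Quotient.eq'']
    exact Iff.rfl
  have hconst : ∀ c ∈ S, v c = v c0 := by
    intro c hc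
    obtain ⟨⟨hcZ, _⟩, hcO⟩ := (hSmem c).mp hc
    obtain ⟨y, rfl⟩ := (horb c).mp hcO
    exact ha c0 hc0Z y hcZ
  rw [Finset.prod_eq_pow_card hconst]
  -- the cardinality of `S` is divisible by `p`
  have hdvd : p ∣ S.card := by
    have h1 := (hP.to_subgroup Z).card_modEq_card_fixedPoints (orbit P c0)
    have h2 : p ∣ Nat.card (orbit P c0) := by
      obtain ⟨n, hn⟩ := hP.card_orbit c0
      rcases Nat.eq_zero_or_pos n with h0 | h0
      · exfalso
        rw [h0, pow_zero, Nat.card_eq_one_iff_unique] at hn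
        obtain ⟨hsub', _⟩ := hn
        apply hc0P
        intro y
        have := hsub'.elim (⟨y • c0, mem_orbit c0 y⟩ : orbit P c0) ⟨c0, mem_orbit_self c0⟩
        exact congrArg Subtype.val this
      · rw [hn]; exact dvd_pow_self p (by omega)
    have h3 : Nat.card (fixedPoints Z (orbit P c0)) = S.card := by
      rw [← Nat.card_eq_finsetCard S]
      apply Nat.card_congr
      refine
        { toFun := fun x => ⟨x.1.1, ?_⟩
          invFun := fun c => ⟨⟨c.1, ?_⟩, ?_⟩
          left_inv := fun x => rfl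
          right_inv := fun c => rfl }
      · rw [hSmem]
        refine ⟨⟨?_, ?_⟩, (horb _).mpr x.1.2⟩
        · intro z hz
          have := x.2 ⟨z, hz⟩
          exact congrArg Subtype.val this
        · intro hall
          apply hc0P
          obtain ⟨y, hy⟩ := x.1.2
          intro y'
          have h5 : c0 = y⁻¹ • x.1.1 := by rw [← hy]; simp
          rw [h5, smul_smul, hall, hall]
      · exact (horb _).mp ((hSmem _).mp c.2).2
      · intro z
        apply Subtype.ext
        exact ((hSmem _).mp c.2).1.1 z.1 z.2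
    rw [h3] at h1
    exact (Nat.modEq_zero_iff_dvd.mp (h1.symm.trans (Nat.modEq_zero_iff_dvd.mpr h2)))
  obtain ⟨m, hm⟩ := hdvd
  rw [hm, pow_mul, hb c0 hc0Z, one_pow]


section Grun

variable {G : Type*} [Group G] {H : Subgroup G} {A : Type*} [CommGroup A] (ϕ : H →* A)

/-- Extension of `ϕ` by `1` outside `H`. -/
noncomputable def psi (x : G) : A := by
  classical exact if h : x ∈ H then ϕ ⟨x, h⟩ else 1

theorem psi_of_mem {x : G} (h : x ∈ H) : psi ϕ x = ϕ ⟨x, h⟩ := by
  unfold psi; exact dif_pos h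

theorem psi_mul {x y : G} (hx : x ∈ H) (hy : y ∈ H) : psi ϕ (x * y) = psi ϕ x * psi ϕ y := by
  rw [psi_of_mem ϕ hx, psi_of_mem ϕ hy, psi_of_mem ϕ (H.mul_mem hx hy), ← map_mul]
  rfl

theorem psi_pow {x : G} (hx : x ∈ H) (n : ℕ) : psi ϕ (x ^ n) = psi ϕ x ^ n := by
  rw [psi_of_mem ϕ hx, psi_of_mem ϕ (H.pow_mem hx n), ← map_pow]
  rfl

theorem psi_conj {x n : G} (hx : x ∈ H) (hn : n ∈ H) : psi ϕ (n⁻¹ * x * n) = psi ϕ x := by
  rw [psi_mul ϕ (H.mul_mem (H.inv_mem hn) hx) hn, psi_mul ϕ (H.inv_mem hn) hx,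
    psi_of_mem ϕ hn, psi_of_mem ϕ (H.inv_mem hn), mul_comm, ← mul_assoc, ← map_mul]
  have : (⟨n, hn⟩ : H) * ⟨n⁻¹, H.inv_mem hn⟩ = 1 := by
    apply Subtype.ext; simp
  rw [this, map_one, one_mul]

/-- A coset `c` is fixed by `u` iff the conjugate of `u` by a representative lies in `H`. -/
theorem smul_eq_iff_conj_mem (u : G) (c : G ⧸ H) :
    u • c = c ↔ c.out⁻¹ * u * c.out ∈ H := by
  conv_lhs => rw [← QuotientGroup.out_eq' c]
  rw [show u • ((c.out : G) : G ⧸ H) = ((u * c.out : G) : G ⧸ H) from rfl, QuotientGroup.eq]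
  constructor
  · intro h
    have := H.inv_mem h
    simpa [mul_assoc] using this
  · intro h
    have := H.inv_mem h
    simpa [mul_assoc] using this


open Classical in
/-- Transfer evaluation: if all non-fixed orbits contribute trivially, the transfer is the product
over the fixed cosets. -/
theorem transfer_eq_prod_fixed [Finite G] [Fintype (G ⧸ H)] (u : G)
    (hone : ∀ c : G ⧸ H, Function.minimalPeriod (u • ·) c ≠ 1 →
      psi ϕ (c.out⁻¹ * u ^ Function.minimalPeriod (u • ·) c * c.out) = 1) :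
    MonoidHom.transfer ϕ u =
      ∏ c ∈ Finset.univ.filter (fun c : G ⧸ H => u • c = c), psi ϕ (c.out⁻¹ * u * c.out) := by
  have : Fintype (Quotient (orbitRel (zpowers u) (G ⧸ H))) := Fintype.ofFinite _
  rw [MonoidHom.transfer_eq_prod_quotient_orbitRel_zpowers_quot]
  have h1 : ∀ q : Quotient (orbitRel (zpowers u) (G ⧸ H)),
      ϕ ⟨q.out.out⁻¹ * u ^ Function.minimalPeriod (u • ·) q.out * q.out.out,
        QuotientGroup.out_conj_pow_minimalPeriod_mem H u q.out⟩ =
      if Function.minimalPeriod (u • ·) q.out = 1 then psi ϕ (q.out.out⁻¹ * u * q.out.out)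
      else 1 := by
    intro q
    rw [← psi_of_mem]
    split_ifs with h
    · rw [h, pow_one]
    · exact hone q.out h
  rw [Finset.prod_congr rfl (fun q _ => h1 q), Finset.prod_ite, Finset.prod_const_one, mul_one]
  apply Finset.prod_bij (fun q _ => q.out)
  · intro q hq
    rw [Finset.mem_filter] at hq ⊢
    exact ⟨Finset.mem_univ _, Function.minimalPeriod_eq_one_iff_isFixedPt.mp hq.2⟩
  · intro q1 _ q2 _ h
    exact Quotient.out_injective h
  · intro c hc
    rw [Finset.mem_filter] at hc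
    have hout : (Quotient.mk'' c : Quotient (orbitRel (zpowers u) (G ⧸ H))).out = c := by
      have h2 := Quotient.mk_out (s := orbitRel (zpowers u) (G ⧸ H)) c
      obtain ⟨z, hz⟩ := h2
      have h3 : zpowers u ≤ stabilizer G c := by
        rw [zpowers_le]; exact hc.2
      have h4 : (z : G) • c = c := h3 z.2
      rw [← hz]
      exact h4
    refine ⟨Quotient.mk'' c, ?_, hout⟩
    rw [Finset.mem_filter]
    refine ⟨Finset.mem_univ _, ?_⟩
    rw [hout]
    exact Function.minimalPeriod_eq_one_iff_isFixedPt.mpr hc.2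
  · intro q _
    rfl

end Grun


open scoped commutatorElement in
open Classical in
/-- The inductive core of Grün's first theorem, for an arbitrary homomorphism `ϕ` from a Sylow
`p`-subgroup to an abelian group that kills `P ∩ N_G(P)'` and `P ∩ (P')^z`. -/
theorem grun_aux {G : Type*} [Group G] [Finite G] {p : ℕ} [Fact p.Prime] (P : Sylow p G)
    {A : Type*} [CommGroup A] (ϕ : ↥(P : Subgroup G) →* A)
    (hD1 : ∀ x ∈ (P : Subgroup G), x ∈ ⁅normalizer ((P : Subgroup G) : Set G),
      normalizer ((P : Subgroup G) : Set G)⁆ → psi ϕ x = 1)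
    (hD2 : ∀ (z x : G), x ∈ (P : Subgroup G) →
      x ∈ (⁅(P : Subgroup G), (P : Subgroup G)⁆).map (MulAut.conj z).toMonoidHom → psi ϕ x = 1) :
    ∀ (n : ℕ) (u : G), u ∈ (P : Subgroup G) → u ∈ commutator G → orderOf u = n →
      psi ϕ u = 1 := by
  intro n
  induction n using Nat.strong_induction_on with
  | _ n IH =>
  intro u hu hu' hn
  have hp : p.Prime := Fact.out
  by_cases hu1 : u = 1
  · rw [hu1, psi_of_mem ϕ (one_mem _)]
    exact map_one ϕ
  have IH' : ∀ y, y ∈ (P : Subgroup G) → y ∈ commutator G → orderOf y < orderOf u →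
      psi ϕ y = 1 := fun y hy hy' hlt => IH (orderOf y) (hn ▸ hlt) y hy hy' rfl
  have : Fintype (G ⧸ (P : Subgroup G)) := Fintype.ofFinite _
  have hordpos : 0 < orderOf u := orderOf_pos u
  -- the order of `u` is a power of `p`
  obtain ⟨j, hj⟩ : ∃ j, orderOf u = p ^ j := by
    obtain ⟨k, hk⟩ := P.isPGroup' ⟨u, hu⟩
    have h1 : u ^ p ^ k = 1 := by
      have := congrArg Subtype.val hk
      simpa using this
    obtain ⟨j, -, hj⟩ := (Nat.dvd_prime_pow hp).mp (orderOf_dvd_of_pow_eq_one h1)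
    exact ⟨j, hj⟩
  have hj0 : j ≠ 0 := by
    intro h0
    rw [h0, pow_zero, orderOf_eq_one_iff] at hj
    exact hu1 hj
  have hnormal : ∀ (k y : G), y ∈ commutator G → k⁻¹ * y * k ∈ commutator G := by
    intro k y hy
    have := (inferInstance : (commutator G).Normal).conj_mem y hy k⁻¹
    simpa using this
  have hordconj : ∀ (k y : G), orderOf (k⁻¹ * y * k) = orderOf y := by
    intro k y
    have h1 : SemiconjBy k⁻¹ y (k⁻¹ * y * k) := by
      simp [SemiconjBy, mul_assoc]
    exact h1.orderOf_eq.symm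
  have hlow : ∀ (k : G) (f : ℕ), f ∣ orderOf u → f ≠ 1 → k⁻¹ * u ^ f * k ∈ (P : Subgroup G) →
      psi ϕ (k⁻¹ * u ^ f * k) = 1 := by
    intro k f hf hf1 hmem
    apply IH' _ hmem (hnormal k _ (pow_mem hu' f))
    rw [hordconj, orderOf_pow, Nat.gcd_eq_right hf]
    have hf0 : f ≠ 0 := by
      rintro rfl
      rw [zero_dvd_iff] at hf
      omega
    exact Nat.div_lt_self hordpos (by omega)
  -- Step A: the transfer is the product over fixed cosets
  have hA := transfer_eq_prod_fixed ϕ u (by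
    intro c hc
    apply hlow c.out _ _ hc (QuotientGroup.out_conj_pow_minimalPeriod_mem _ u c)
    rw [← MulAction.period_eq_minimalPeriod]
    exact MulAction.period_dvd_orderOf u c)
  -- Step B: only cosets fixed by `P` contribute
  have hfix : ∀ c : G ⧸ (P : Subgroup G),
      (∀ z ∈ zpowers (⟨u, hu⟩ : (P : Subgroup G)), z • c = c) ↔ u • c = c := by
    intro c
    constructor
    · intro h
      exact h ⟨u, hu⟩ (mem_zpowers _)
    · intro h z hz
      have h3 : zpowers (⟨u, hu⟩ : (P : Subgroup G)) ≤ stabilizer (P : Subgroup G) c := by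
        rw [zpowers_le]; exact h
      exact h3 hz
  have hB := prod_fixedPoints_eq P.isPGroup' (zpowers (⟨u, hu⟩ : (P : Subgroup G)))
    (fun c : G ⧸ (P : Subgroup G) => psi ϕ (c.out⁻¹ * u * c.out))
    (by
      intro c hc y hyc
      rw [hfix] at hc hyc
      have hb' : c.out⁻¹ * u * c.out ∈ (P : Subgroup G) := (smul_eq_iff_conj_mem u c).mp hc
      have hk' : (y • c).out⁻¹ * u * (y • c).out ∈ (P : Subgroup G) :=
        (smul_eq_iff_conj_mem u (y • c)).mp hyc
      -- `(y • c).out = y * c.out * n` with `n ∈ P`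
      have hn : ((y : G) * c.out)⁻¹ * (y • c).out ∈ (P : Subgroup G) := by
        rw [← QuotientGroup.eq, QuotientGroup.out_eq']
        show ((y : G) • ((c.out : G) : G ⧸ (P : Subgroup G))) = y • c
        rw [QuotientGroup.out_eq']
        rfl
      set n := ((y : G) * c.out)⁻¹ * (y • c).out with hndef
      have hk'eq : (y • c).out = (y : G) * c.out * n := by
        rw [hndef]; group
      set a := c.out⁻¹ * ((y : G)⁻¹ * u * y) * c.out with hadef
      have ha1 : (y • c).out⁻¹ * u * (y • c).out = n⁻¹ * a * n := by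
        rw [hk'eq, hadef]; group
      have haP : a ∈ (P : Subgroup G) := by
        have h5 : a = n * ((y • c).out⁻¹ * u * (y • c).out) * n⁻¹ := by
          rw [ha1]; group
        rw [h5]
        exact mul_mem (mul_mem hn hk') (inv_mem hn)
      show psi ϕ ((y • c).out⁻¹ * u * (y • c).out) = psi ϕ (c.out⁻¹ * u * c.out)
      rw [ha1, psi_conj ϕ haP hn]
      set b := c.out⁻¹ * u * c.out with hbdef
      have hab : a = b * (b⁻¹ * a) := by group
      have hbaP : b⁻¹ * a ∈ (P : Subgroup G) := mul_mem (inv_mem hb') haP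
      rw [hab, psi_mul ϕ hb' hbaP]
      have hba1 : psi ϕ (b⁻¹ * a) = 1 := by
        apply hD2 c.out⁻¹ _ hbaP
        refine ⟨⁅u⁻¹, (y : G)⁻¹⁆, commutator_mem_commutator (inv_mem hu) (inv_mem y.2), ?_⟩
        rw [hbdef, hadef]
        simp only [MulEquiv.toMonoidHom_eq_coe, MonoidHom.coe_coe, MulAut.conj_apply,
          commutatorElement_def, inv_inv]
        group
      rw [hba1, mul_one])
    (by
      intro c hc
      rw [hfix] at hc
      have hb' : c.out⁻¹ * u * c.out ∈ (P : Subgroup G) := (smul_eq_iff_conj_mem u c).mp hc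
      show psi ϕ (c.out⁻¹ * u * c.out) ^ p = 1
      rw [← psi_pow ϕ hb']
      have h6 : (c.out⁻¹ * u * c.out) ^ p = c.out⁻¹ * u ^ p * c.out := by
        rw [show c.out⁻¹ * u * c.out = c.out⁻¹ * u * c.out⁻¹⁻¹ by simp, conj_pow]; simp
      rw [h6]
      apply hlow c.out p
      · rw [hj]; exact dvd_pow_self p hj0
      · exact hp.one_lt.ne'
      · rw [← h6]; exact pow_mem hb' p)
  have hfilter : Finset.univ.filter (fun c : G ⧸ (P : Subgroup G) =>
      ∀ z ∈ zpowers (⟨u, hu⟩ : (P : Subgroup G)), z • c = c) =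
      Finset.univ.filter (fun c : G ⧸ (P : Subgroup G) => u • c = c) :=
    Finset.filter_congr (fun c _ => hfix c)
  rw [hfilter] at hB
  -- Step C: the cosets fixed by `P` each contribute `psi ϕ u`
  have hC : ∀ c ∈ Finset.univ.filter (fun c : G ⧸ (P : Subgroup G) =>
      ∀ y : (P : Subgroup G), y • c = c),
      psi ϕ (c.out⁻¹ * u * c.out) = psi ϕ u := by
    intro c hc
    rw [Finset.mem_filter] at hc
    have hcfix : ((c.out : G) : G ⧸ (P : Subgroup G)) ∈
        MulAction.fixedPoints (P : Subgroup G) (G ⧸ (P : Subgroup G)) := by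
      rw [QuotientGroup.out_eq']
      exact hc.2
    have hkN : c.out ∈ normalizer ((P : Subgroup G) : Set G) :=
      Sylow.mem_fixedPoints_mul_left_cosets_iff_mem_normalizer.mp hcfix
    have hb' : c.out⁻¹ * u * c.out ∈ (P : Subgroup G) :=
      (smul_eq_iff_conj_mem u c).mp (hc.2 ⟨u, hu⟩)
    have h7 : c.out⁻¹ * u * c.out = u * ⁅u⁻¹, c.out⁻¹⁆ := by
      simp only [commutatorElement_def, inv_inv]; group
    have h8 : ⁅u⁻¹, c.out⁻¹⁆ ∈ (P : Subgroup G) := by
      have h9 : ⁅u⁻¹, c.out⁻¹⁆ = u⁻¹ * (c.out⁻¹ * u * c.out) := by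
        simp only [commutatorElement_def, inv_inv]; group
      rw [h9]
      exact mul_mem (inv_mem hu) hb'
    rw [h7, psi_mul ϕ hu h8, hD1 _ h8 (commutator_mem_commutator
      (inv_mem (le_normalizer hu)) (inv_mem hkN)), mul_one]
  rw [Finset.prod_eq_pow_card hC] at hB
  -- the number of `P`-fixed cosets is prime to `p`
  set m := (Finset.univ.filter (fun c : G ⧸ (P : Subgroup G) =>
      ∀ y : (P : Subgroup G), y • c = c)).card with hm
  have hmcop : Nat.Coprime m (p ^ j) := by
    apply Nat.Coprime.pow_right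
    rw [Nat.coprime_comm, Nat.Prime.coprime_iff_not_dvd hp]
    intro hdvd
    have h10 := P.isPGroup'.card_modEq_card_fixedPoints (G ⧸ (P : Subgroup G))
    have h11 : Nat.card (MulAction.fixedPoints (P : Subgroup G) (G ⧸ (P : Subgroup G))) = m := by
      rw [hm, ← Nat.card_eq_finsetCard]
      apply Nat.card_congr
      exact Equiv.subtypeEquivRight (fun c => by simp [MulAction.mem_fixedPoints])
    rw [h11, ← Subgroup.index_eq_card] at h10
    have h12 : p ∣ (P : Subgroup G).index :=
      (Nat.modEq_zero_iff_dvd.mp (h10.trans (Nat.modEq_zero_iff_dvd.mpr hdvd)))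
    exact P.not_dvd_index h12
  -- conclusion
  have htr : MonoidHom.transfer ϕ u = 1 :=
    MonoidHom.mem_ker.mp (Abelianization.commutator_subset_ker (MonoidHom.transfer ϕ) hu')
  rw [hA, hB] at htr
  have hpj : psi ϕ u ^ p ^ j = 1 := by
    rw [← psi_pow ϕ hu, ← hj, pow_orderOf_eq_one, psi_of_mem ϕ (one_mem _)]
    exact map_one ϕ
  have := pow_gcd_eq_one.mpr ⟨htr, hpj⟩
  rwa [Nat.Coprime.gcd_eq_one hmcop, pow_one] at this

end Cfsg.Agent.Helper70
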