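import Mathlib
import Cfsg.Prelude.Def_GeometricClasses
import Cfsg.Agent.Helper69.E4Def

set_option autoImplicit false

/-!
# Piece CENTER of CALL S6000 (helper70): central elements of an absolutely irreducible
subgroup of `GL_4(F)` are scalar; with exponent 4 and a centre of order 4 a square root of `-1`
occurs as a scalar of the group.
-/

namespace Cfsg.Agent.Helper70
open Cfsg.Agent.Helper69
open scoped Matrix

theorem e4_center {F : Type*} [Field F] (R : Subgroup (GL (Fin 4) F))
    (hirr : Cfsg.Geo.ActsAbsolutelyIrreducibly (Cfsg.Geo.matrixSet R))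
    (hexp : Monoid.exponent R = 4) (hZ : Nat.card (Subgroup.center R) = 4) :
    (∀ g : R, g ∈ Subgroup.center R →
      ∃ c : F, ((g : GL (Fin 4) F) : Matrix (Fin 4) (Fin 4) F) = c • (1 : Matrix (Fin 4) (Fin 4) F)) ∧
    ∃ (ι : F) (g : GL (Fin 4) F), ι ^ 2 = -1 ∧ g ∈ R ∧
      (g : Matrix (Fin 4) (Fin 4) F) = ι • (1 : Matrix (Fin 4) (Fin 4) F) := by
  have h1 : ∀ g : R, g ∈ Subgroup.center R →
      ∃ c : F, ((g : GL (Fin 4) F) : Matrix (Fin 4) (Fin 4) F) =
        c • (1 : Matrix (Fin 4) (Fin 4) F) := by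
    intro g hg
    apply hirr.2
    rintro s ⟨h, hh, rfl⟩
    have h0 := Subgroup.mem_center_iff.mp hg ⟨h, hh⟩
    have h0' := congrArg (fun x : R => ((x : GL (Fin 4) F) : Matrix (Fin 4) (Fin 4) F)) h0
    simpa using h0'.symm
  refine ⟨h1, ?_⟩
  have h3 : ∃ g : R, g ∈ Subgroup.center R ∧
      ((g : GL (Fin 4) F) : Matrix (Fin 4) (Fin 4) F) ≠ 1 ∧
      ((g : GL (Fin 4) F) : Matrix (Fin 4) (Fin 4) F) ≠ -1 := by
    by_contra hcon
    push Not at hcon
    have hle : Nat.card (Subgroup.center R) ≤ Nat.card Bool := by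
      classical
      refine Nat.card_le_card_of_injective
        (fun z => decide ((((z : R) : GL (Fin 4) F) : Matrix (Fin 4) (Fin 4) F) = 1)) ?_
      intro a b hab
      simp only [decide_eq_decide] at hab
      apply Subtype.ext; apply Subtype.ext; apply Units.ext
      by_cases ha : (((a : R) : GL (Fin 4) F) : Matrix (Fin 4) (Fin 4) F) = 1
      · rw [ha, hab.mp ha]
      · have hb : ¬ (((b : R) : GL (Fin 4) F) : Matrix (Fin 4) (Fin 4) F) = 1 :=
          fun hb => ha (hab.mpr hb)
        rw [hcon a a.2 ha, hcon b b.2 hb]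
    rw [hZ] at hle
    simp at hle
  obtain ⟨g, hgc, hg1, hg2⟩ := h3
  obtain ⟨c, hc⟩ := h1 g hgc
  have hg4 : g ^ 4 = 1 := by
    have h9 := Monoid.pow_exponent_eq_one g
    rwa [hexp] at h9
  have hc4 : c ^ 4 = 1 := by
    have h5 := congrArg (fun x : R => ((x : GL (Fin 4) F) : Matrix (Fin 4) (Fin 4) F)) hg4
    simp only [SubmonoidClass.coe_pow, Units.val_pow_eq_pow_val, hc, smul_pow, one_pow,
      OneMemClass.coe_one, Units.val_one] at h5
    have h6 := congrFun (congrFun h5 0) 0
    simpa using h6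
  refine ⟨c, g, ?_, g.2, hc⟩
  have h7 : (c ^ 2 - 1) * (c ^ 2 + 1) = 0 := by linear_combination hc4
  rcases mul_eq_zero.mp h7 with h | h
  · have h8 : (c - 1) * (c + 1) = 0 := by linear_combination h
    rcases mul_eq_zero.mp h8 with h | h
    · exact absurd (by rw [hc, sub_eq_zero.mp h, one_smul]) hg1
    · exact absurd (by rw [hc, eq_neg_of_add_eq_zero_left h, neg_smul, one_smul]) hg2
  · linear_combination h

end Cfsg.Agent.Helper70
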