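import Mathlib
import Cfsg.Prelude.Def_GeometricClasses
import Cfsg.Agent.Helper69.E4Def

set_option autoImplicit false

/-!
# Piece PAULI of CALL S6000 (helper70): a Pauli basis `x1, z1, x2, z2` inside a group of order 64
whose elements square to `± 1`, commute or anticommute, and whose centre consists of scalars.
The argument is carried out in an arbitrary non-trivial algebra over a field.
-/

namespace Cfsg.Agent.Helper70
open Cfsg.Agent.Helper69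
open scoped Matrix

theorem e4p_cc {A : Type*} [Ring A] {a b x : A} (ha : a * x = x * a) (hb : b * x = x * b) :
    (a * b) * x = x * (a * b) := by
  rw [mul_assoc, hb, ← mul_assoc, ha, mul_assoc]

theorem e4p_aa {A : Type*} [Ring A] {a b x : A} (ha : a * x = -(x * a)) (hb : b * x = -(x * b)) :
    (a * b) * x = x * (a * b) := by
  rw [mul_assoc, hb, mul_neg, ← mul_assoc, ha, neg_mul, neg_neg, mul_assoc]

theorem e4p_ca {A : Type*} [Ring A] {a b x : A} (ha : a * x = x * a) (hb : b * x = -(x * b)) :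
    (a * b) * x = -(x * (a * b)) := by
  rw [mul_assoc, hb, mul_neg, ← mul_assoc, ha, mul_assoc]

theorem e4p_ac {A : Type*} [Ring A] {a b x : A} (ha : a * x = -(x * a)) (hb : b * x = x * b) :
    (a * b) * x = -(x * (a * b)) := by
  rw [mul_assoc, hb, ← mul_assoc, ha, neg_mul, mul_assoc]

theorem e4p_card_le {A : Type*} [Ring A] (R : Subgroup Aˣ) {T : Type*} [Finite T] (φ : T → A)
    (h : ∀ g ∈ R, ∃ t, φ t = ((g : Aˣ) : A)) : Nat.card R ≤ Nat.card T := by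
  choose f hf using fun g : R => h g.1 g.2
  refine Nat.card_le_card_of_injective f ?_
  intro a b hab
  have h1 : ((a : Aˣ) : A) = ((b : Aˣ) : A) := by rw [← hf a, ← hf b, hab]
  exact Subtype.ext (Units.ext h1)

theorem e4p_gen {F : Type*} [Field F] {A : Type*} [Ring A] [Algebra F A] [Nontrivial A]
    (R : Subgroup Aˣ)
    (hcard : Nat.card R = 64) (ι : F) (hι : ι ^ 2 = -1)
    (hιR : ∃ g ∈ R, ((g : Aˣ) : A) = ι • (1 : A))
    (hsq : ∀ g ∈ R, ((g : Aˣ) : A) ^ 2 = 1 ∨ ((g : Aˣ) : A) ^ 2 = -1)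
    (hcomm : ∀ g ∈ R, ∀ h ∈ R,
      ((g : Aˣ) : A) * ((h : Aˣ) : A) = ((h : Aˣ) : A) * ((g : Aˣ) : A) ∨
      ((g : Aˣ) : A) * ((h : Aˣ) : A) = -(((h : Aˣ) : A) * ((g : Aˣ) : A)))
    (hnc : ∀ g ∈ R, (∀ h ∈ R, g * h = h * g) → ∃ c : F, ((g : Aˣ) : A) = c • (1 : A)) :
    ∃ x1 z1 x2 z2 : Aˣ, x1 ∈ R ∧ z1 ∈ R ∧ x2 ∈ R ∧ z2 ∈ R ∧
      ((x1 : Aˣ) : A) ^ 2 = 1 ∧ ((z1 : Aˣ) : A) ^ 2 = 1 ∧
      ((x2 : Aˣ) : A) ^ 2 = 1 ∧ ((z2 : Aˣ) : A) ^ 2 = 1 ∧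
      ((x1 : Aˣ) : A) * ((z1 : Aˣ) : A) = -(((z1 : Aˣ) : A) * ((x1 : Aˣ) : A)) ∧
      ((x2 : Aˣ) : A) * ((z2 : Aˣ) : A) = -(((z2 : Aˣ) : A) * ((x2 : Aˣ) : A)) ∧
      ((x1 : Aˣ) : A) * ((x2 : Aˣ) : A) = ((x2 : Aˣ) : A) * ((x1 : Aˣ) : A) ∧
      ((x1 : Aˣ) : A) * ((z2 : Aˣ) : A) = ((z2 : Aˣ) : A) * ((x1 : Aˣ) : A) ∧
      ((z1 : Aˣ) : A) * ((x2 : Aˣ) : A) = ((x2 : Aˣ) : A) * ((z1 : Aˣ) : A) ∧
      ((z1 : Aˣ) : A) * ((z2 : Aˣ) : A) = ((z2 : Aˣ) : A) * ((z1 : Aˣ) : A) := by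
  obtain ⟨j, hjR, hj⟩ := hιR
  have hι0 : ι ≠ 0 := by
    rintro rfl
    have h0 : (1 : F) = 0 := by 
      have h00 : (0 : F) ^ 2 = 0 := by norm_num
      rw [h00] at hι
      linear_combination hι
    exact one_ne_zero h0
  have hinj : ∀ c d : F, c • (1 : A) = d • (1 : A) → c = d := by
    intro c d h
    apply FaithfulSMul.algebraMap_injective F A
    rw [Algebra.algebraMap_eq_smul_one, Algebra.algebraMap_eq_smul_one, h]
  -- normalisation to square one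
  have hnorm : ∀ g ∈ R, ∃ g' ∈ R, ∃ u : F, u ≠ 0 ∧ ((g' : Aˣ) : A) = u • ((g : Aˣ) : A) ∧
      ((g' : Aˣ) : A) ^ 2 = 1 := by
    intro g hg
    rcases hsq g hg with h | h
    · exact ⟨g, hg, 1, one_ne_zero, (one_smul _ _).symm, h⟩
    · refine ⟨j * g, R.mul_mem hjR hg, ι, hι0, ?_, ?_⟩
      · rw [Units.val_mul, hj, smul_mul_assoc, one_mul]
      · rw [Units.val_mul, hj, smul_mul_assoc, one_mul, smul_pow, h, hι]
        simp
  -- the scalars of R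
  have hscal : ∀ g ∈ R, ∀ c : F, ((g : Aˣ) : A) = c • (1 : A) →
      c = 1 ∨ c = -1 ∨ c = ι ∨ c = -ι := by
    intro g hg c hc
    rcases hsq g hg with h | h
    · rw [hc, smul_pow, one_pow] at h
      have h3 : c ^ 2 = 1 := hinj _ _ (by rw [h, one_smul])
      have h4 : (c - 1) * (c + 1) = 0 := by linear_combination h3
      rcases mul_eq_zero.mp h4 with h | h
      · left; linear_combination h
      · right; left; linear_combination h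
    · rw [hc, smul_pow, one_pow] at h
      have h3 : c ^ 2 = -1 := hinj _ _ (by rw [h, neg_smul, one_smul])
      have h4 : (c - ι) * (c + ι) = 0 := by linear_combination h3 - hι
      rcases mul_eq_zero.mp h4 with h | h
      · right; right; left; linear_combination h
      · right; right; right; linear_combination h
  have hS : ∀ c : F, (c = 1 ∨ c = -1 ∨ c = ι ∨ c = -ι) →
      ∃ a : Fin 4, (![1, -1, ι, -ι] a : F) = c := by
    intro c hc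
    rcases hc with h | h | h | h
    · exact ⟨0, by simp [h]⟩
    · exact ⟨1, by simp [h]⟩
    · exact ⟨2, by simp [h]⟩
    · exact ⟨3, by simp [h]⟩
  -- a non-scalar element
  have hns : ∃ g ∈ R, ∀ c : F, ((g : Aˣ) : A) ≠ c • (1 : A) := by
    by_contra hcon
    push Not at hcon
    have hle : Nat.card R ≤ Nat.card (Fin 4) := by
      refine e4p_card_le R (fun t : Fin 4 => (![1, -1, ι, -ι] t : F) • (1 : A)) ?_
      intro g hg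
      obtain ⟨c, hc⟩ := hcon g hg
      obtain ⟨a, ha⟩ := hS c (hscal g hg c hc)
      exact ⟨a, by simp only [ha, hc]⟩
    rw [hcard] at hle
    simp at hle
  have hnsT : ∀ g g' : Aˣ, ∀ u : F, u ≠ 0 → ((g' : Aˣ) : A) = u • ((g : Aˣ) : A) →
      (∀ c : F, ((g : Aˣ) : A) ≠ c • (1 : A)) → ∀ c : F, ((g' : Aˣ) : A) ≠ c • (1 : A) := by
    intro g g' u hu hgg hg c hc
    apply hg (u⁻¹ * c)
    rw [hgg] at hc
    rw [mul_smul, ← hc, smul_smul, inv_mul_cancel₀ hu, one_smul]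
  -- anticommuting partner
  have hanti : ∀ x ∈ R, (∀ c : F, ((x : Aˣ) : A) ≠ c • (1 : A)) →
      ∃ h ∈ R, ((h : Aˣ) : A) * ((x : Aˣ) : A) = -(((x : Aˣ) : A) * ((h : Aˣ) : A)) := by
    intro x hx hxns
    by_contra hcon
    push Not at hcon
    obtain ⟨c, hc⟩ := hnc x hx (fun h hh => by
      rcases hcomm h hh x hx with h1 | h1
      · apply Units.ext
        rw [Units.val_mul, Units.val_mul, h1]
      · exact absurd h1 (hcon h hh))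
    exact hxns c hc
  obtain ⟨g0, hg0R, hg0⟩ := hns
  obtain ⟨x1, hx1R, u1, hu1, hx1g, hx1sq⟩ := hnorm g0 hg0R
  have hx1ns : ∀ c : F, ((x1 : Aˣ) : A) ≠ c • (1 : A) := hnsT g0 x1 u1 hu1 hx1g hg0
  obtain ⟨k1, hk1R, hk1⟩ := hanti x1 hx1R hx1ns
  obtain ⟨z1, hz1R, v1, hv1, hz1h, hz1sq⟩ := hnorm k1 hk1R
  have hz1x1 : ((z1 : Aˣ) : A) * ((x1 : Aˣ) : A) = -(((x1 : Aˣ) : A) * ((z1 : Aˣ) : A)) := by
    rw [hz1h, smul_mul_assoc, hk1, mul_smul_comm, smul_neg]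
  have hx1z1 : ((x1 : Aˣ) : A) * ((z1 : Aˣ) : A) = -(((z1 : Aˣ) : A) * ((x1 : Aˣ) : A)) := by
    rw [hz1x1, neg_neg]
  have hxx : ((x1 : Aˣ) : A) * ((x1 : Aˣ) : A) = 1 := by rw [← sq]; exact hx1sq
  have hzz : ((z1 : Aˣ) : A) * ((z1 : Aˣ) : A) = 1 := by rw [← sq]; exact hz1sq
  -- adjusting an element so that it commutes with x1 and z1
  have hadj : ∀ g ∈ R, ∃ m ∈ R, ∃ m' : A, ((m : Aˣ) : A) * m' = 1 ∧
      (m' = 1 ∨ m' = ((z1 : Aˣ) : A) ∨ m' = ((x1 : Aˣ) : A) ∨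
        m' = ((x1 : Aˣ) : A) * ((z1 : Aˣ) : A)) ∧
      (∀ y : A, y * ((x1 : Aˣ) : A) = ((x1 : Aˣ) : A) * y →
        y * ((z1 : Aˣ) : A) = ((z1 : Aˣ) : A) * y → ((m : Aˣ) : A) * y = y * ((m : Aˣ) : A)) ∧
      (((g : Aˣ) : A) * ((m : Aˣ) : A)) * ((x1 : Aˣ) : A) =
        ((x1 : Aˣ) : A) * (((g : Aˣ) : A) * ((m : Aˣ) : A)) ∧
      (((g : Aˣ) : A) * ((m : Aˣ) : A)) * ((z1 : Aˣ) : A) =
        ((z1 : Aˣ) : A) * (((g : Aˣ) : A) * ((m : Aˣ) : A)) := by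
    intro g hg
    rcases hcomm g hg x1 hx1R with hgx | hgx <;> rcases hcomm g hg z1 hz1R with hgz | hgz
    · refine ⟨1, R.one_mem, 1, by simp, Or.inl rfl, fun y _ _ => by simp, ?_, ?_⟩
      · simpa using hgx
      · simpa using hgz
    · exact ⟨x1, hx1R, x1, hxx, Or.inr (Or.inr (Or.inl rfl)), fun y h _ => h.symm,
        e4p_cc hgx rfl, e4p_aa hgz hx1z1⟩
    · exact ⟨z1, hz1R, z1, hzz, Or.inr (Or.inl rfl), fun y _ h => h.symm,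
        e4p_aa hgx hz1x1, e4p_cc hgz rfl⟩
    · refine ⟨z1 * x1, R.mul_mem hz1R hx1R, ((x1 : Aˣ) : A) * ((z1 : Aˣ) : A), ?_,
        Or.inr (Or.inr (Or.inr rfl)), ?_, ?_, ?_⟩
      · rw [Units.val_mul, mul_assoc, ← mul_assoc ((x1 : Aˣ) : A), hxx, one_mul, hzz]
      · intro y hyx hyz
        rw [Units.val_mul, mul_assoc, ← hyx, ← mul_assoc, ← hyz, mul_assoc]
      · rw [Units.val_mul]
        exact e4p_aa hgx (e4p_ac hz1x1 rfl)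
      · rw [Units.val_mul]
        exact e4p_aa hgz (e4p_ca rfl hx1z1)
  -- a non-scalar element commuting with x1 and z1
  have hC : ∃ g ∈ R, ((g : Aˣ) : A) * ((x1 : Aˣ) : A) = ((x1 : Aˣ) : A) * ((g : Aˣ) : A) ∧
      ((g : Aˣ) : A) * ((z1 : Aˣ) : A) = ((z1 : Aˣ) : A) * ((g : Aˣ) : A) ∧
      ∀ c : F, ((g : Aˣ) : A) ≠ c • (1 : A) := by
    by_contra hcon
    push Not at hcon
    have hle : Nat.card R ≤ Nat.card (Fin 4 × Fin 4) := by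
      refine e4p_card_le R (fun t : Fin 4 × Fin 4 => (![1, -1, ι, -ι] t.1 : F) •
        (![1, ((z1 : Aˣ) : A), ((x1 : Aˣ) : A), ((x1 : Aˣ) : A) * ((z1 : Aˣ) : A)] t.2 : A)) ?_
      intro g hg
      obtain ⟨m, hmR, m', hmm', hm', -, hcx, hcz⟩ := hadj g hg
      have hgm : ((g * m : Aˣ) : A) = ((g : Aˣ) : A) * ((m : Aˣ) : A) := Units.val_mul g m
      obtain ⟨c, hc⟩ := hcon (g * m) (R.mul_mem hg hmR) (by rw [hgm]; exact hcx)
        (by rw [hgm]; exact hcz)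
      have hg' : ((g : Aˣ) : A) = c • m' := by
        calc ((g : Aˣ) : A) = ((g : Aˣ) : A) * (((m : Aˣ) : A) * m') := by rw [hmm', mul_one]
          _ = (((g : Aˣ) : A) * ((m : Aˣ) : A)) * m' := (mul_assoc _ _ _).symm
          _ = c • m' := by rw [← hgm, hc, smul_mul_assoc, one_mul]
      obtain ⟨a, ha⟩ := hS c (hscal (g * m) (R.mul_mem hg hmR) c hc)
      have hb : ∃ b : Fin 4, (![1, ((z1 : Aˣ) : A), ((x1 : Aˣ) : A),
          ((x1 : Aˣ) : A) * ((z1 : Aˣ) : A)] b : A) = m' := by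
        rcases hm' with h | h | h | h
        · exact ⟨0, by simp [h]⟩
        · exact ⟨1, by simp [h]⟩
        · exact ⟨2, by simp [h]⟩
        · exact ⟨3, by simp [h]⟩
      obtain ⟨b, hb⟩ := hb
      exact ⟨(a, b), by simp only [ha, hb, hg']⟩
    rw [hcard] at hle
    simp at hle
  obtain ⟨g2, hg2R, hg2x, hg2z, hg2ns⟩ := hC
  obtain ⟨x2, hx2R, u2, hu2, hx2g, hx2sq⟩ := hnorm g2 hg2R
  have hx2ns : ∀ c : F, ((x2 : Aˣ) : A) ≠ c • (1 : A) := hnsT g2 x2 u2 hu2 hx2g hg2ns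
  have hx2x1 : ((x2 : Aˣ) : A) * ((x1 : Aˣ) : A) = ((x1 : Aˣ) : A) * ((x2 : Aˣ) : A) := by
    rw [hx2g, smul_mul_assoc, hg2x, mul_smul_comm]
  have hx2z1 : ((x2 : Aˣ) : A) * ((z1 : Aˣ) : A) = ((z1 : Aˣ) : A) * ((x2 : Aˣ) : A) := by
    rw [hx2g, smul_mul_assoc, hg2z, mul_smul_comm]
  obtain ⟨k2, hk2R, hk2⟩ := hanti x2 hx2R hx2ns
  obtain ⟨m, hmR, m', -, -, hmy, hcx, hcz⟩ := hadj k2 hk2R
  have hmx2 : ((m : Aˣ) : A) * ((x2 : Aˣ) : A) = ((x2 : Aˣ) : A) * ((m : Aˣ) : A) :=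
    hmy _ hx2x1 hx2z1
  have hk : (((k2 : Aˣ) : A) * ((m : Aˣ) : A)) * ((x2 : Aˣ) : A) =
      -(((x2 : Aˣ) : A) * (((k2 : Aˣ) : A) * ((m : Aˣ) : A))) := e4p_ac hk2 hmx2
  obtain ⟨z2, hz2R, v2, hv2, hz2h, hz2sq⟩ := hnorm (k2 * m) (R.mul_mem hk2R hmR)
  rw [Units.val_mul] at hz2h
  refine ⟨x1, z1, x2, z2, hx1R, hz1R, hx2R, hz2R, hx1sq, hz1sq, hx2sq, hz2sq, hx1z1, ?_,
    hx2x1.symm, ?_, hx2z1.symm, ?_⟩
  · rw [hz2h, smul_mul_assoc, hk, mul_smul_comm, smul_neg, neg_neg]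
  · rw [hz2h, smul_mul_assoc, hcx, mul_smul_comm]
  · rw [hz2h, smul_mul_assoc, hcz, mul_smul_comm]

theorem e4_exists_pauli {F : Type*} [Field F] (h2 : (2 : F) ≠ 0) (R : Subgroup (GL (Fin 4) F))
    (hcard : Nat.card R = 64) (ι : F) (hι : ι ^ 2 = -1)
    (hιR : ∃ g ∈ R, (g : Matrix (Fin 4) (Fin 4) F) = ι • (1 : Matrix (Fin 4) (Fin 4) F))
    (hsq : ∀ g ∈ R, (g : Matrix (Fin 4) (Fin 4) F) ^ 2 = 1 ∨ (g : Matrix (Fin 4) (Fin 4) F) ^ 2 = -1)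
    (hcomm : ∀ g ∈ R, ∀ h ∈ R,
      (g : Matrix (Fin 4) (Fin 4) F) * (h : Matrix (Fin 4) (Fin 4) F) =
        (h : Matrix (Fin 4) (Fin 4) F) * (g : Matrix (Fin 4) (Fin 4) F) ∨
      (g : Matrix (Fin 4) (Fin 4) F) * (h : Matrix (Fin 4) (Fin 4) F) =
        -((h : Matrix (Fin 4) (Fin 4) F) * (g : Matrix (Fin 4) (Fin 4) F)))
    (hnc : ∀ g ∈ R, (∀ h ∈ R, g * h = h * g) →
      ∃ c : F, (g : Matrix (Fin 4) (Fin 4) F) = c • (1 : Matrix (Fin 4) (Fin 4) F)) :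
    ∃ x1 z1 x2 z2 : GL (Fin 4) F, x1 ∈ R ∧ z1 ∈ R ∧ x2 ∈ R ∧ z2 ∈ R ∧
      (x1 : Matrix (Fin 4) (Fin 4) F) ^ 2 = 1 ∧ (z1 : Matrix (Fin 4) (Fin 4) F) ^ 2 = 1 ∧
      (x2 : Matrix (Fin 4) (Fin 4) F) ^ 2 = 1 ∧ (z2 : Matrix (Fin 4) (Fin 4) F) ^ 2 = 1 ∧
      (x1 : Matrix (Fin 4) (Fin 4) F) * (z1 : Matrix (Fin 4) (Fin 4) F) =
        -((z1 : Matrix (Fin 4) (Fin 4) F) * (x1 : Matrix (Fin 4) (Fin 4) F)) ∧
      (x2 : Matrix (Fin 4) (Fin 4) F) * (z2 : Matrix (Fin 4) (Fin 4) F) =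
        -((z2 : Matrix (Fin 4) (Fin 4) F) * (x2 : Matrix (Fin 4) (Fin 4) F)) ∧
      (x1 : Matrix (Fin 4) (Fin 4) F) * (x2 : Matrix (Fin 4) (Fin 4) F) =
        (x2 : Matrix (Fin 4) (Fin 4) F) * (x1 : Matrix (Fin 4) (Fin 4) F) ∧
      (x1 : Matrix (Fin 4) (Fin 4) F) * (z2 : Matrix (Fin 4) (Fin 4) F) =
        (z2 : Matrix (Fin 4) (Fin 4) F) * (x1 : Matrix (Fin 4) (Fin 4) F) ∧
      (z1 : Matrix (Fin 4) (Fin 4) F) * (x2 : Matrix (Fin 4) (Fin 4) F) =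
        (x2 : Matrix (Fin 4) (Fin 4) F) * (z1 : Matrix (Fin 4) (Fin 4) F) ∧
      (z1 : Matrix (Fin 4) (Fin 4) F) * (z2 : Matrix (Fin 4) (Fin 4) F) =
        (z2 : Matrix (Fin 4) (Fin 4) F) * (z1 : Matrix (Fin 4) (Fin 4) F) := by
  exact e4p_gen (A := Matrix (Fin 4) (Fin 4) F) R hcard ι hι hιR hsq hcomm hnc

end Cfsg.Agent.Helper70
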