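import Mathlib
import Cfsg.Prelude.Def_GeometricClasses
import Cfsg.Prelude.Def_LieClassical
import Cfsg.Agent.Helper69.E4Def
import Cfsg.Agent.Helper69.E4UDef
import Cfsg.Agent.Helper97.UForm

set_option autoImplicit false

/-!
# Piece CANON of S6001 (helper70): two unitary matrices with the same canonical data `(D, J)`
are conjugate by a unitary matrix of determinant one.
-/

namespace Cfsg.Agent.Helper70
open Cfsg.Agent.Helper69 Cfsg.Agent.Helper97
open scoped Matrix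

theorem e4u_canon {F : Type*} [Field F] (σ : F ≃+* F) (D J : Matrix (Fin 4) (Fin 4) F)
    (hJ : J.det ≠ 0)
    (hadj : ∀ δ : F, δ * σ δ = 1 → ∃ n₀ : Matrix (Fin 4) (Fin 4) F,
      n₀ * D = D * n₀ ∧ n₀ᵀ * J * n₀.map σ = J ∧ n₀.det = δ)
    (y y' B B' : Matrix (Fin 4) (Fin 4) F) (hy : y * B = B * D) (hB : Bᵀ * B.map σ = J)
    (hy' : y' * B' = B' * D) (hB' : B'ᵀ * B'.map σ = J) :
    ∃ g : Matrix (Fin 4) (Fin 4) F, gᵀ * g.map σ = 1 ∧ g.det = 1 ∧ y * g = g * y' := by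
  have e : ∀ M : Matrix (Fin 4) (Fin 4) F, M.map σ = (σ : F →+* F).mapMatrix M := fun M => rfl
  have hdetmap : ∀ M : Matrix (Fin 4) (Fin 4) F, (M.map σ).det = σ M.det := by
    intro M
    rw [e, ← RingHom.map_det]
    rfl
  have hJB : J.det = B.det * σ B.det := by
    rw [← hB, Matrix.det_mul, Matrix.det_transpose, hdetmap]
  have hJB' : J.det = B'.det * σ B'.det := by
    rw [← hB', Matrix.det_mul, Matrix.det_transpose, hdetmap]
  have hBd : B.det ≠ 0 := by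
    intro h; apply hJ; rw [hJB, h, zero_mul]
  have hB'd : B'.det ≠ 0 := by
    intro h; apply hJ; rw [hJB', h, zero_mul]
  have hσB'd : σ B'.det ≠ 0 := by
    intro h; apply hJ; rw [hJB', h, mul_zero]
  have hδ : (B'.det * (B.det)⁻¹) * σ (B'.det * (B.det)⁻¹) = 1 := by
    rw [map_mul, map_inv₀]
    have h1 : B'.det * (B.det)⁻¹ * (σ B'.det * (σ B.det)⁻¹) =
        (B'.det * σ B'.det) * (B.det * σ B.det)⁻¹ := by
      rw [mul_inv]; ring
    rw [h1, ← hJB', ← hJB, mul_inv_cancel₀ hJ]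
  obtain ⟨n₀, hc, hn, hd⟩ := hadj _ hδ
  have hu' : IsUnit B'.det := isUnit_iff_ne_zero.2 hB'd
  have hinv1 : B'⁻¹ * B' = 1 := Matrix.nonsing_inv_mul _ hu'
  have hinv2 : B' * B'⁻¹ = 1 := Matrix.mul_nonsing_inv _ hu'
  have hgB : (B * n₀ * B'⁻¹) * B' = B * n₀ := by
    rw [Matrix.mul_assoc, hinv1, Matrix.mul_one]
  refine ⟨B * n₀ * B'⁻¹, ?_, ?_, ?_⟩
  · have h1 : ((B * n₀ * B'⁻¹) * B')ᵀ * ((B * n₀ * B'⁻¹) * B').map σ = B'ᵀ * B'.map σ := by
      rw [hgB, e, map_mul, ← e, ← e, Matrix.transpose_mul, hB']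
      calc n₀ᵀ * Bᵀ * (B.map σ * n₀.map σ) = n₀ᵀ * (Bᵀ * B.map σ) * n₀.map σ := by
            simp only [Matrix.mul_assoc]
        _ = J := by rw [hB, hn]
    rw [Matrix.transpose_mul, e ((B * n₀ * B'⁻¹) * B'), map_mul, ← e, ← e] at h1
    have huT : IsUnit B'ᵀ := by
      rw [Matrix.isUnit_iff_isUnit_det, Matrix.det_transpose]; exact hu'
    have huS : IsUnit (B'.map σ) := by
      rw [Matrix.isUnit_iff_isUnit_det, hdetmap]
      exact isUnit_iff_ne_zero.2 hσB'd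
    have h2 : B'ᵀ * ((B * n₀ * B'⁻¹)ᵀ * (B * n₀ * B'⁻¹).map σ) * B'.map σ =
        B'ᵀ * 1 * B'.map σ := by
      rw [Matrix.mul_one, ← h1]
      simp only [Matrix.mul_assoc]
    exact huT.mul_left_cancel (huS.mul_right_cancel h2)
  · have h1 : (B * n₀ * B'⁻¹).det * B'.det = B.det * n₀.det := by
      rw [← Matrix.det_mul, hgB, Matrix.det_mul]
    rw [hd] at h1
    have h2 : B.det * (B'.det * (B.det)⁻¹) = B'.det := by field_simp
    rw [h2] at h1
    exact mul_right_cancel₀ hB'd (h1.trans (one_mul _).symm)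
  · have h3 : B'⁻¹ * y' = D * B'⁻¹ := by
      calc B'⁻¹ * y' = B'⁻¹ * (y' * B') * B'⁻¹ := by
            rw [Matrix.mul_assoc, Matrix.mul_assoc, hinv2, Matrix.mul_one]
        _ = (B'⁻¹ * B') * D * B'⁻¹ := by rw [hy']; simp only [Matrix.mul_assoc]
        _ = D * B'⁻¹ := by rw [hinv1, Matrix.one_mul]
    calc y * (B * n₀ * B'⁻¹) = (y * B) * n₀ * B'⁻¹ := by simp only [Matrix.mul_assoc]
      _ = B * (D * n₀) * B'⁻¹ := by rw [hy]; simp only [Matrix.mul_assoc]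
      _ = B * (n₀ * D) * B'⁻¹ := by rw [hc]
      _ = B * n₀ * (D * B'⁻¹) := by simp only [Matrix.mul_assoc]
      _ = B * n₀ * B'⁻¹ * y' := by rw [← h3]; simp only [Matrix.mul_assoc]

end Cfsg.Agent.Helper70
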