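/-
CALL S1366 (owner helper2), piece EPS.
-/
import Cfsg.Prelude.Def_OddOrderLocal

set_option autoImplicit false

namespace Cfsg.Agent.Helper70

open Cfsg Subgroup

universe u

variable {G : Type u} [Group G] [Finite G]

/-- E5 (PURE). A nontrivial subgroup contains a subgroup of prime order. -/
theorem bg147_exists_prime_sub {K : Subgroup G} (hK1 : K ≠ ⊥) :
    ∃ X : Subgroup G, X ≤ K ∧ (Nat.card X).Prime := by
  have hc : Nat.card K ≠ 1 := fun h => hK1 (Subgroup.eq_bot_of_card_eq K h)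
  obtain ⟨p, hp, hpd⟩ := Nat.exists_prime_and_dvd hc
  have : Fact p.Prime := ⟨hp⟩
  obtain ⟨x, hx⟩ := exists_prime_orderOf_dvd_card' p hpd
  refine ⟨Subgroup.zpowers (x : G), ?_, ?_⟩
  · rw [Subgroup.zpowers_le]; exact x.2
  · rw [Nat.card_zpowers, Subgroup.orderOf_coe, hx]; exact hp

end Cfsg.Agent.Helper70
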