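/-
CALL S1366 (owner helper2), piece PSUB.
-/
import Cfsg.Prelude.Def_OddOrderLocal
import Cfsg.Agent.Helper23.Trans

set_option autoImplicit false

namespace Cfsg.Agent.Helper70

open Cfsg Subgroup

universe u

variable {G : Type u} [Group G] [Finite G]

/-- C7. A subgroup of prime order of `Z = K K*` lies in `K` or in `K*`. -/
theorem bg147_prime_sub {M K Q : Subgroup G} (hK : IsPiHallOf (kappa M) K M)
    (hQ : Q ≤ K ⊔ (sigmaCore M ⊓ centralizer (K : Set G))) (hQp : (Nat.card Q).Prime) :
    Q ≤ K ∨ Q ≤ sigmaCore M ⊓ centralizer (K : Set G) := by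
  obtain ⟨hKM, hKπ, _⟩ := hK
  have hcop : ∀ a ∈ K, ∀ b ∈ sigmaCore M ⊓ centralizer (K : Set G),
      (orderOf a).Coprime (orderOf b) := by
    intro a ha b hb
    apply Nat.coprime_of_dvd
    intro p hp hpa hpb
    have h1 : p ∈ kappa M := hKπ p hp (hpa.trans (Subgroup.orderOf_dvd_natCard K ha))
    have h2 : p ∈ sigma M :=
      Cfsg.Agent.Helper23.mem_of_dvd_card_piCoreOf (sigma M) M hp
        (hpb.trans (Subgroup.orderOf_dvd_natCard (sigmaCore M) hb.1))
    exact h1.2.2.1 h2
  have hQne : Q ≠ ⊥ := by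
    rintro rfl
    rw [Subgroup.card_bot] at hQp
    exact Nat.not_prime_one hQp
  obtain ⟨v, hvQ, hv1⟩ : ∃ v ∈ Q, v ≠ 1 := by
    by_contra hcon
    push Not at hcon
    exact hQne ((Subgroup.eq_bot_iff_forall Q).mpr hcon)
  have hKsn : sigmaCore M ⊓ centralizer (K : Set G) ≤ normalizer (K : Set G) := by
    intro y hy
    rw [Subgroup.mem_normalizer_iff]
    have hyc := Subgroup.mem_centralizer_iff.mp hy.2
    intro x
    constructor
    · intro hx
      have e : y * x * y⁻¹ = x := by
        rw [← hyc x hx, mul_inv_cancel_right]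
      rw [e]; exact hx
    · intro hx
      have h2 := hyc (y * x * y⁻¹) hx
      have e : x = y * x * y⁻¹ := by
        have h3 : y * x = y * x * y⁻¹ * y := by rw [inv_mul_cancel_right]
        rw [h2] at h3
        exact mul_left_cancel h3
      rw [e]; exact hx
  obtain ⟨a, ha, b, hb, hvab⟩ :=
    Cfsg.Agent.Helper35.exists_mul_of_mem_sup_of_le_normalizer hKsn (hQ hvQ)
  have hcomm : Commute a b := (Subgroup.mem_centralizer_iff.mp hb.2) a ha
  have hord : orderOf v = orderOf a * orderOf b := by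
    rw [hvab]
    exact hcomm.orderOf_mul_eq_mul_orderOf_of_coprime (hcop a ha b hb)
  have hvq : orderOf v = Nat.card Q := by
    have h1 : orderOf v ∣ Nat.card Q := Subgroup.orderOf_dvd_natCard Q hvQ
    rcases (Nat.dvd_prime hQp).mp h1 with h | h
    · exact absurd (orderOf_eq_one_iff.mp h) hv1
    · exact h
  have hQz : Subgroup.zpowers v = Q := by
    apply Subgroup.eq_of_le_of_card_ge (Subgroup.zpowers_le.mpr hvQ)
    rw [Nat.card_zpowers, hvq]
  have hpr : (orderOf a * orderOf b).Prime := by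
    rw [← hord, hvq]; exact hQp
  rcases Nat.prime_mul_iff.mp hpr with ⟨_, hb1⟩ | ⟨_, ha1⟩
  · left
    rw [← hQz, Subgroup.zpowers_le, hvab, orderOf_eq_one_iff.mp hb1, mul_one]
    exact ha
  · right
    rw [← hQz, Subgroup.zpowers_le, hvab, orderOf_eq_one_iff.mp ha1, one_mul]
    exact hb

end Cfsg.Agent.Helper70
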