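/-
CALL S1366 (owner helper2), piece SOB.
-/
import Cfsg.Prelude.Def_OddOrderLocal
import Cfsg.Agent.Helper23.Trans

set_option autoImplicit false

namespace Cfsg.Agent.Helper70

open Cfsg Subgroup

universe u

variable {G : Type u} [Group G] [Finite G]

/-- C3. If `U = 1` then `M = M_σ K`. -/
theorem bg147_sup_of_bot {M K U : Subgroup G} (hKU : IsSigmaDecomposition M K U)
    (hU : U = ⊥) : ∀ m ∈ M, ∃ n ∈ sigmaCore M, ∃ k ∈ K, m = n * k := by
  intro m hm
  obtain ⟨hUM, hKsM, hinf, hprod⟩ := hKU.compl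
  obtain ⟨a, ha, b, hb, rfl⟩ := hprod m hm
  rw [hU, Subgroup.mem_bot] at ha
  subst ha
  rw [one_mul]
  have hKn : K ≤ normalizer ((sigmaCore M : Subgroup G) : Set G) :=
    hKU.hall.1.trans (Cfsg.Agent.Helper23.le_normalizer_piCoreOf (sigma M) M)
  have hb' : b ∈ sigmaCore M ⊔ K := by rw [sup_comm]; exact hb
  exact Cfsg.Agent.Helper35.exists_mul_of_mem_sup_of_le_normalizer hKn hb'

end Cfsg.Agent.Helper70
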