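import Mathlib
import Cfsg.Prelude.Def_OddOrderLocal

set_option autoImplicit false

namespace Cfsg.Agent.Helper70

open Cfsg Subgroup

universe u

variable {G : Type u} [Group G] [Finite G]

/-- TFX (pure packaging). The subgroup `U₀ := <u>` read inside `↥L`. -/
theorem bg17_typeF_U0 {L U S : Subgroup G} (hUL : U ≤ L) (u : ↥U)
    (hu : orderOf u = Monoid.exponent ↥U)
    (hfpf : ∀ c ∈ zpowers (u : G), c ≠ 1 → ∀ x ∈ S, c * x = x * c → x = 1) :
    ∃ U₀ : Subgroup ↥L, U₀ ≤ U.subgroupOf L ∧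
      Monoid.exponent ↥U₀ = Monoid.exponent ↥(U.subgroupOf L) ∧
      ∀ c ∈ U₀, c ≠ 1 → ∀ x ∈ S.subgroupOf L, c * x = x * c → x = 1 := by
  classical
  refine ⟨zpowers (⟨(u : G), hUL u.2⟩ : ↥L), ?_, ?_, ?_⟩
  · rw [zpowers_le, Subgroup.mem_subgroupOf]
    exact u.2
  · rw [IsCyclic.exponent_eq_card, Nat.card_zpowers,
      Monoid.exponent_eq_of_mulEquiv (Subgroup.subgroupOfEquivOfLe hUL), ← hu]
    rw [← Subgroup.orderOf_coe u, ← Subgroup.orderOf_coe (⟨(u : G), hUL u.2⟩ : ↥L)]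
  · intro c hc hc1 x hx hcx
    obtain ⟨k, rfl⟩ := Subgroup.mem_zpowers_iff.mp hc
    have h1 : (((⟨(u : G), hUL u.2⟩ : ↥L) ^ k : ↥L) : G) = (u : G) ^ k := by
      rw [Subgroup.coe_zpow]
    have h2 : ((u : G) ^ k) ≠ 1 := by
      intro h3
      apply hc1
      apply Subtype.ext
      rw [h1, h3]
      rfl
    have h4 : (u : G) ^ k * (x : G) = (x : G) * (u : G) ^ k := by
      have := congrArg Subtype.val hcx
      rw [Subgroup.coe_mul, Subgroup.coe_mul, h1] at this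
      exact this
    have h5 := hfpf ((u : G) ^ k) (Subgroup.zpow_mem_zpowers _ k) h2 (x : G)
      (Subgroup.mem_subgroupOf.mp hx) h4
    apply Subtype.ext
    rw [h5]
    rfl

end Cfsg.Agent.Helper70
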