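/-
CALL S1351B (owner helper62), piece CYC: a subgroup of prime order `r` acting nontrivially on a
cyclic `q`-group (`q ≠ r`) has no nontrivial fixed point.
-/
import Cfsg.Prelude.Def_OddOrderLocal
import Cfsg.Agent.Helper35.CoprimeAbelian

set_option autoImplicit false
open Cfsg Subgroup

namespace Cfsg.Agent.Helper70

universe u

variable {G : Type u} [Group G] [Finite G]

/-- A nontrivial subgroup of a `q`-group contains an element of order `q`. -/
theorem bg51cyc_exists_order {A Q : Subgroup G} {q : ℕ} (hq : q.Prime) (hQ : IsPGroup q Q)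
    (hle : A ≤ Q) (hA : A ≠ ⊥) : ∃ a ∈ A, orderOf a = q := by
  haveI : Fact q.Prime := ⟨hq⟩
  have hAq : IsPGroup q A := hQ.to_le hle
  obtain ⟨k, hk⟩ := (IsPGroup.iff_card).mp hAq
  have hk0 : k ≠ 0 := by
    rintro rfl
    exact hA (Subgroup.eq_bot_of_card_eq A (by simpa using hk))
  have hdvd : q ∣ Nat.card A := by
    rw [hk]; exact dvd_pow_self q hk0
  obtain ⟨a, ha⟩ := exists_prime_orderOf_dvd_card' q hdvd
  exact ⟨(a : G), a.2, by rw [Subgroup.orderOf_coe]; exact ha⟩

/-- In a finite cyclic group, any two elements of the same prime order generate the same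
subgroup. -/
theorem bg51cyc_mem_zpowers {C : Type u} [Group C] [Finite C] [IsCyclic C] {q : ℕ}
    (hq : q.Prime) (a b : C) (ha : orderOf a = q) (hb : orderOf b = q) :
    b ∈ Subgroup.zpowers a := by
  classical
  letI : Fintype C := Fintype.ofFinite C
  have hF : (Finset.univ.filter (fun x : C => x ^ q = 1)).card ≤ q :=
    IsCyclic.card_pow_eq_one_le hq.pos
  have hsub : (Finset.univ.filter (fun x : C => x ∈ Subgroup.zpowers a)) ⊆
      (Finset.univ.filter (fun x : C => x ^ q = 1)) := by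
    intro x hx
    simp only [Finset.mem_filter, Finset.mem_univ, true_and] at hx ⊢
    obtain ⟨i, rfl⟩ := Subgroup.mem_zpowers_iff.mp hx
    rw [← zpow_natCast, ← zpow_mul, mul_comm, zpow_mul, zpow_natCast, ← ha, pow_orderOf_eq_one,
      one_zpow]
  have hcard : (Finset.univ.filter (fun x : C => x ∈ Subgroup.zpowers a)).card = q := by
    rw [← ha, ← Nat.card_zpowers]
    exact (Nat.subtype_card _ (by simp)).symm
  have heq := Finset.eq_of_subset_of_card_le hsub (by rw [hcard]; exact hF)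
  have hb' : b ∈ Finset.univ.filter (fun x : C => x ^ q = 1) := by
    simp only [Finset.mem_filter, Finset.mem_univ, true_and]
    rw [← hb]; exact pow_orderOf_eq_one b
  rw [← heq] at hb'
  simpa using hb'

/-- PIECE CYC: a subgroup `R` of prime order `r` acting nontrivially on a cyclic `q`-group `Q`
(`q ≠ r`) has no nontrivial fixed point on `Q`. -/
theorem bg51_fpf_cyclic {Q R : Subgroup G} {q r : ℕ} (hq : q.Prime) (hQ : IsPGroup q Q)
    (hQc : IsCyclic Q) (hr : r.Prime) (hR : Nat.card R = r) (hqr : q ≠ r)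
    (hRQ : R ≤ normalizer (Q : Set G)) (hne : ¬ R ≤ centralizer (Q : Set G)) :
    Q ⊓ centralizer (R : Set G) = ⊥ := by
  classical
  have hcomm : ∀ x ∈ Q, ∀ y ∈ Q, x * y = y * x := by
    intro x hx y hy
    obtain ⟨g, hg⟩ := hQc.exists_generator
    obtain ⟨i, hi⟩ := Subgroup.mem_zpowers_iff.mp (hg ⟨x, hx⟩)
    obtain ⟨j, hj⟩ := Subgroup.mem_zpowers_iff.mp (hg ⟨y, hy⟩)
    have hx' : x = (g : G) ^ i := by
      have := congrArg Subtype.val hi
      simpa using this.symm
    have hy' : y = (g : G) ^ j := by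
      have := congrArg Subtype.val hj
      simpa using this.symm
    rw [hx', hy', ← zpow_add, ← zpow_add, add_comm]
  have hcop : (Nat.card R).Coprime (Nat.card Q) := by
    haveI : Fact q.Prime := ⟨hq⟩
    obtain ⟨k, hk⟩ := (IsPGroup.iff_card).mp hQ
    rw [hR, hk]
    exact Nat.Coprime.pow_right k ((Nat.coprime_primes hr hq).mpr (Ne.symm hqr))
  have h1 := Cfsg.Agent.Helper35.commutator_inf_centralizer_eq_bot_of_comm hRQ hcop hcomm
  have hle : (⁅Q, R⁆ : Subgroup G) ≤ Q := by
    rw [Subgroup.commutator_le]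
    intro x hx y hy
    have h2 : y * x⁻¹ * y⁻¹ ∈ Q :=
      (Subgroup.mem_normalizer_iff.mp (hRQ hy) x⁻¹).mp (Q.inv_mem hx)
    rw [commutatorElement_def]
    have e : x * y * x⁻¹ * y⁻¹ = x * (y * x⁻¹ * y⁻¹) := by group
    rw [e]; exact Q.mul_mem hx h2
  have hne' : (⁅Q, R⁆ : Subgroup G) ≠ ⊥ := by
    intro h
    apply hne
    rw [Subgroup.commutator_comm, Subgroup.commutator_eq_bot_iff_le_centralizer] at h
    exact h
  by_contra hB
  obtain ⟨a, haA, hao⟩ := bg51cyc_exists_order hq hQ hle hne'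
  obtain ⟨b, hbB, hbo⟩ := bg51cyc_exists_order hq hQ (inf_le_left) hB
  have hbQ : b ∈ Q := hbB.1
  haveI := hQc
  have hmem := bg51cyc_mem_zpowers hq (⟨a, hle haA⟩ : ↥Q) ⟨b, hbQ⟩
    (by rw [Subgroup.orderOf_mk]; exact hao) (by rw [Subgroup.orderOf_mk]; exact hbo)
  obtain ⟨i, hi⟩ := Subgroup.mem_zpowers_iff.mp hmem
  have hb' : b = a ^ i := by
    have := congrArg Subtype.val hi
    simpa using this.symm
  have hbA : b ∈ (⁅Q, R⁆ : Subgroup G) := by
    rw [hb']; exact Subgroup.zpow_mem _ haA i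
  have hb1 : b ∈ (⊥ : Subgroup G) := by
    rw [← h1]; exact ⟨hbA, hbB.2⟩
  rw [Subgroup.mem_bot] at hb1
  rw [hb1, orderOf_one] at hbo
  exact hq.one_lt.ne hbo

end Cfsg.Agent.Helper70
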