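/-
CALL S1351B (owner helper62), piece NPC: if `S` has a normal `q`-complement, a Sylow
`q`-subgroup of `S` contained in the commutator subgroup of `S` is trivial.
-/
import Cfsg.Prelude.Def_OddOrderLocal

set_option autoImplicit false
open Cfsg Subgroup

namespace Cfsg.Agent.Helper70

universe u

variable {G : Type u} [Group G] [Finite G]

/-- PIECE NPC: if `S` has a normal `q`-complement, a Sylow `q`-subgroup `T` of `S` contained in
`S'` is trivial. -/
theorem bg51_npc_sylow {S T : Subgroup G} {q : ℕ} [Fact q.Prime]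
    (hnpc : Cfsg.HasNormalPComplement q ↥S) (hTS : T ≤ S) (hTq : IsPGroup q T)
    (hidx : ¬ q ∣ T.relIndex S) (hT : T ≤ ⁅S, S⁆) : T = ⊥ := by
  classical
  have hqp : q.Prime := Fact.out
  obtain ⟨P, N, hN, hcompl⟩ := hnpc
  have := hN
  have hidxN : N.index = Nat.card (P : Subgroup ↥S) := hcompl.symm.index_eq_card
  have hidxP : (P : Subgroup ↥S).index = Nat.card N := hcompl.index_eq_card
  obtain ⟨k, hk⟩ := (IsPGroup.iff_card).mp P.isPGroup'
  -- the image of `T` in `S ⧸ N` is everything
  have hsup : (T.subgroupOf S ⊔ N).index = 1 := by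
    have h1 : (T.subgroupOf S ⊔ N).index ∣ (T.subgroupOf S).index :=
      Subgroup.index_dvd_of_le le_sup_left
    have h2 : (T.subgroupOf S ⊔ N).index ∣ q ^ k := by
      have := Subgroup.index_dvd_of_le (le_sup_right : N ≤ T.subgroupOf S ⊔ N)
      rwa [hidxN, hk] at this
    obtain ⟨j, hj, hj'⟩ := (Nat.dvd_prime_pow hqp).mp h2
    rcases Nat.eq_zero_or_pos j with rfl | hjpos
    · simpa using hj'
    · exfalso
      apply hidx
      have : q ∣ (T.subgroupOf S ⊔ N).index := by
        rw [hj']; exact dvd_pow_self q hjpos.ne'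
      exact this.trans h1
  have hsup' : T.subgroupOf S ⊔ N = ⊤ := Subgroup.index_eq_one.mp hsup
  have hTcomm : T.subgroupOf S ≤ _root_.commutator ↥S := by
    intro x hx
    have hx' : (x : G) ∈ (⁅S, S⁆ : Subgroup G) := hT (Subgroup.mem_subgroupOf.mp hx)
    rw [← Subgroup.map_subtype_commutator] at hx'
    obtain ⟨y, hy, hyx⟩ := hx'
    have : y = x := Subtype.ext hyx
    rwa [← this]
  have hcommtop : _root_.commutator (↥S ⧸ N) = ⊤ := by
    rw [eq_top_iff]
    intro y _
    obtain ⟨x, rfl⟩ := QuotientGroup.mk'_surjective N y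
    have hx : x ∈ T.subgroupOf S ⊔ N := by rw [hsup']; trivial
    have hx2 : x ∈ ((T.subgroupOf S ⊔ N : Subgroup ↥S) : Set ↥S) := hx
    rw [Subgroup.mul_normal] at hx2
    obtain ⟨t, ht, n, hn, rfl⟩ := Set.mem_mul.mp hx2
    have hmap : (QuotientGroup.mk' N) (t * n) = (QuotientGroup.mk' N) t := by
      rw [map_mul]
      have : (QuotientGroup.mk' N) n = 1 := by
        rw [QuotientGroup.mk'_apply, QuotientGroup.eq_one_iff]; exact hn
      rw [this, mul_one]
    rw [hmap]
    have h3 : (QuotientGroup.mk' N) t ∈ Subgroup.map (QuotientGroup.mk' N) (_root_.commutator ↥S) :=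
      ⟨t, hTcomm ht, rfl⟩
    have h4 : Subgroup.map (QuotientGroup.mk' N) (_root_.commutator ↥S) ≤ _root_.commutator (↥S ⧸ N) := by
      rw [commutator_def, Subgroup.map_commutator, commutator_def]
      exact Subgroup.commutator_mono le_top le_top
    exact h4 h3
  -- `S ⧸ N` is a `q`-group, hence solvable, hence trivial
  have hQq : IsPGroup q (↥S ⧸ N) := by
    apply IsPGroup.of_card (n := k)
    rw [← Subgroup.index_eq_card, hidxN, hk]
  have hnil : Group.IsNilpotent (↥S ⧸ N) := hQq.isNilpotent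
  have hsub : Subsingleton (↥S ⧸ N) := by
    by_contra hns
    rw [not_subsingleton_iff_nontrivial] at hns
    have := hns
    exact (Group.IsSolvable.commutator_lt_top_of_nontrivial (↥S ⧸ N)).ne hcommtop
  have hNidx1 : N.index = 1 := by
    rw [Subgroup.index_eq_card]
    exact Nat.card_of_subsingleton (1 : ↥S ⧸ N)
  have hPcard : Nat.card (P : Subgroup ↥S) = 1 := by rw [← hidxN, hNidx1]
  -- `q` does not divide `|S|`
  have hqS : ¬ q ∣ Nat.card S := by
    intro hdvd
    have hmul := (P : Subgroup ↥S).card_mul_index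
    rw [hPcard, one_mul] at hmul
    rw [← hmul] at hdvd
    exact P.not_dvd_index hdvd
  obtain ⟨j, hj⟩ := (IsPGroup.iff_card).mp hTq
  have hdvdT : Nat.card T ∣ Nat.card S := Subgroup.card_dvd_of_le hTS
  rcases Nat.eq_zero_or_pos j with rfl | hjpos
  · exact Subgroup.eq_bot_of_card_eq T (by simpa using hj)
  · exfalso
    apply hqS
    have : q ∣ Nat.card T := by rw [hj]; exact dvd_pow_self q hjpos.ne'
    exact this.trans hdvdT

end Cfsg.Agent.Helper70
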