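import Cfsg.Agent.Helper85.CEDefs
import Cfsg.Agent.Helper84.FusionSat2
import Cfsg.Agent.Helper86.NormInd

set_option autoImplicit false
set_option maxHeartbeats 1000000

/-! # S5155 piece EXTA: a `p'`-automorphism of `Y` in a subsystem of `C_F(T)` extends to a
`p'`-automorphism of `C_S(Y) Y` in `F` fixing `T`. -/

namespace Cfsg.Agent.Helper70.CEEXTA

open Cfsg Cfsg.FusionSystem Cfsg.Agent.Helper85 Cfsg.Agent.Helper88

variable {Ω : Type*} [Group Ω] {S : Subgroup Ω}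

theorem exta_pow {Y T : Subgroup Ω} {a : MulAut Y} {β : MulAut ↥(centralizerIn S Y ⊔ Y)}
    (hTC : T ≤ centralizerIn S Y) (hβY : ∀ y ∈ Y, autFun β y = autFun a y)
    (hβT : ∀ t ∈ T, autFun β t = t) (j : ℕ) :
    (∀ y ∈ Y, autFun (β ^ j) y = autFun (a ^ j) y) ∧ ∀ t ∈ T, autFun (β ^ j) t = t := by
  induction j with
  | zero =>
    refine ⟨fun y hy => ?_, fun t ht => ?_⟩
    · rw [pow_zero, pow_zero, autFun_one hy, autFun_one (Subgroup.mem_sup_right hy)]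
    · rw [pow_zero, autFun_one (Subgroup.mem_sup_left (hTC ht))]
  | succ j ih =>
    obtain ⟨ih1, ih2⟩ := ih
    refine ⟨fun y hy => ?_, fun t ht => ?_⟩
    · rw [pow_succ, pow_succ, autFun_mul _ _ (Subgroup.mem_sup_right hy), hβY y hy,
        ih1 _ (autFun_mem a hy), autFun_mul _ _ hy]
    · rw [pow_succ, autFun_mul _ _ (Subgroup.mem_sup_left (hTC ht)), hβT t ht, ih2 t ht]

theorem ce_exta [Finite S] {p : ℕ} [Fact p.Prime] (hS : IsPGroup p S) {F : FusionSystem S}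
    (hF : F.IsSaturated p) {T : Subgroup Ω} (hTS : T ≤ S) (hT : F.StronglyClosed T)
    {Y : Subgroup Ω} (hY : F.StronglyClosed Y) (hYT : Y ≤ centralizerIn S T) (D : FusionSystem Y)
    (hsub : D.IsSubsystemOf (centralizerSystem F T hTS)) {a : MulAut Y} (ha : a ∈ D.autGroup Y)
    {m : ℕ} (ham : a ^ m = 1) (hmp : m.Coprime p) :
    ∃ β ∈ F.autGroup (centralizerIn S Y ⊔ Y), ∃ b : ℕ, b.Coprime p ∧ β ^ b = 1 ∧
      (∀ y ∈ Y, autFun β y = autFun a y) ∧ ∀ t ∈ T, autFun β t = t := by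
  have hYS : Y ≤ S := hYT.trans inf_le_left
  have hfY : Finite Y := Helper88.finite_of_le hYS
  have hYTS : Y ⊔ T ≤ S := sup_le hYS hTS
  have hfYT : Finite ↥(Y ⊔ T) := Helper88.finite_of_le hYTS
  have hQS : centralizerIn S Y ⊔ Y ≤ S := sup_le inf_le_left hYS
  have hfinQ : Finite ↥(centralizerIn S Y ⊔ Y) := Helper88.finite_of_le hQS
  have haC : IsCMap F T Y (autFun a) :=
    (isMap_centSys_iff F hTS).1
      (isMap_of_isSubsystemOf hsub ((mem_autGroup_iff D le_rfl a).1 ha))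
  obtain ⟨haF, -, -, a', ha', ha'Y, ha'T⟩ := haC
  have hmaps : ∀ x ∈ Y ⊔ T, a' x ∈ Y ⊔ T :=
    ha'.mapsTo_sup (fun y hy => Subgroup.mem_sup_left (by rw [ha'Y y hy]; exact autFun_mem a hy))
      (fun t ht => Subgroup.mem_sup_right (by rw [ha'T t ht]; exact ht))
  have himg : img (Y ⊔ T) a' = Y ⊔ T := ha'.img_eq_of_mapsTo hmaps
  have hYn : ∀ s ∈ S, ∀ y ∈ Y, s * y * s⁻¹ ∈ Y := fun s hs y hy =>
    sc_apply_mem hY (isMap_conj F hYS hs) hy hy
  have hTn : ∀ s ∈ S, ∀ t ∈ T, s * t * s⁻¹ ∈ T := fun s hs t ht =>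
    sc_apply_mem hT (isMap_conj F hTS hs) ht ht
  have hnorm : S ≤ Subgroup.normalizer ((Y ⊔ T : Subgroup Ω) : Set Ω) := by
    intro s hs
    refine mem_normalizer_of_conj_mem (fun x hx => ?_)
    exact (isMap_conj F hYTS hs).mapsTo_sup
      (fun y hy => Subgroup.mem_sup_left (hYn s hs y hy))
      (fun t ht => Subgroup.mem_sup_right (hTn s hs t ht)) x hx
  have hfn := Cfsg.Agent.Helper86.fullyNormalized_of_le_normalizer F hYTS hnorm
  have hrec := (Cfsg.Agent.Helper84.saturated_fullyNormalized hS F hF hfn).2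
  have hTC : T ≤ centralizerIn S Y := by
    intro t ht
    refine mem_centralizerIn_iff.2 ⟨hTS ht, fun y hy => ?_⟩
    exact ((mem_centralizerIn_iff.1 (hYT hy)).2 t ht).symm
  obtain ⟨b₀, hb₀, hb₀v⟩ := receptive_extend (N := centralizerIn S Y) hrec ha' himg (by
    intro g hg
    have hgS : g ∈ S := (mem_centralizerIn_iff.1 hg).1
    refine ⟨hgS, hnorm hgS, g, hgS, ?_⟩
    have hcg : IsMap F (Y ⊔ T) (fun x => g * x * g⁻¹) := isMap_conj F hYTS hgS
    have h1 : IsMap F (Y ⊔ T) (a' ∘ fun x => g * x * g⁻¹) :=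
      hcg.comp ha' (fun x hx => conj_mem_of_mem_normalizer (hnorm hgS) hx)
    have h2 : IsMap F (Y ⊔ T) ((fun x => g * x * g⁻¹) ∘ a') := ha'.comp hcg hmaps
    exact h1.eqOn_sup h2
      (fun y hy => by
        show a' (g * y * g⁻¹) = g * a' y * g⁻¹
        rw [conj_eq_of_mem_centralizerIn hg hy, ha'Y y hy,
          conj_eq_of_mem_centralizerIn hg (autFun_mem a hy)])
      (fun t ht => by
        show a' (g * t * g⁻¹) = g * a' t * g⁻¹
        rw [ha'T _ (hTn g hgS t ht), ha'T t ht]))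
  have heq : centralizerIn S Y ⊔ (Y ⊔ T) = centralizerIn S Y ⊔ Y :=
    le_antisymm (sup_le le_sup_left (sup_le le_sup_right (hTC.trans le_sup_left)))
      (sup_le le_sup_left (le_sup_left.trans le_sup_right))
  rw [heq] at hb₀
  have hb₀Y : ∀ y ∈ Y, b₀ y = autFun a y := fun y hy =>
    (hb₀v y (Subgroup.mem_sup_left hy)).trans (ha'Y y hy)
  have hb₀T : ∀ t ∈ T, b₀ t = t := fun t ht =>
    (hb₀v t (Subgroup.mem_sup_right ht)).trans (ha'T t ht)
  have hmaps2 := cs_mapsTo hb₀ hb₀Y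
  obtain ⟨β₀, hβ₀, hβ₀v⟩ := hb₀.exists_aut (hb₀.img_eq_of_mapsTo hmaps2)
  have hβ₀Y : ∀ y ∈ Y, autFun β₀ y = autFun a y := fun y hy =>
    (hβ₀v y (Subgroup.mem_sup_right hy)).trans (hb₀Y y hy)
  have hβ₀T : ∀ t ∈ T, autFun β₀ t = t := fun t ht =>
    (hβ₀v t (Subgroup.mem_sup_left (hTC ht))).trans (hb₀T t ht)
  obtain ⟨N, b, hbp, hNb, hNm⟩ := exists_pprime_pow p β₀ hmp
  obtain ⟨hβY, hβT⟩ := exta_pow hTC hβ₀Y hβ₀T N
  rw [pow_eq_self_of_mod ham hNm] at hβY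
  exact ⟨β₀ ^ N, Subgroup.pow_mem _ hβ₀ N, b, hbp, hNb, hβY, hβT⟩

end Cfsg.Agent.Helper70.CEEXTA
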