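import Cfsg.Agent.Helper85.CEDefs

set_option autoImplicit false
set_option maxHeartbeats 1000000

/-! # S5155 piece FRAT: the Frattini condition for a subsystem over `Y` invariant in `C_F(T)`. -/

namespace Cfsg.Agent.Helper70.CEFRAT

open Cfsg Cfsg.FusionSystem Cfsg.Agent.Helper85 Cfsg.Agent.Helper88

variable {Ω : Type*} [Group Ω] {S : Subgroup Ω}

theorem ce_frat [Finite S] {p : ℕ} [Fact p.Prime] (hS : IsPGroup p S) {F : FusionSystem S}
    {T : Subgroup Ω} (hTS : T ≤ S) (hT : F.StronglyClosed T) {Y : Subgroup Ω}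
    (hY : F.StronglyClosed Y) (hYT : Y ≤ centralizerIn S T) (D : FusionSystem Y)
    (hinv₁ : D.IsInvariantIn (centralizerSystem F T hTS)) (hah : CXAhat F T Y)
    (hext : CXExtT F T Y) {P : Subgroup Ω} (hPY : P ≤ Y) {f : Ω → Ω} (hf : IsMap F P f) :
    ∃ α ∈ F.autGroup Y, ∃ f₀, IsMap D P f₀ ∧ ∀ x ∈ P, f x = autFun α (f₀ x) := by
  have hYS : Y ≤ S := hYT.trans inf_le_left
  have hfY : Finite Y := Helper88.finite_of_le hYS
  obtain ⟨f', hf', hf'P⟩ := hext P f hf hPY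
  obtain ⟨ah, hah1, hahT, hahimg, hahY⟩ := hah f' (hf'.restrict le_sup_left)
  obtain ⟨bh, hbh, hbh1, hbh2, -⟩ := hah1.exists_inv
  rw [hahimg] at hbh hbh2
  have hYle : Y ≤ T ⊔ centralizerIn S T := hYT.trans le_sup_right
  have hahYm : IsMap F Y ah := hah1.restrict hYle
  have himgY : img Y ah = Y := hahYm.img_eq_of_mapsTo hahY
  have hbhY : ∀ y ∈ Y, bh y ∈ Y := by
    intro y hy
    rw [← himgY] at hy
    obtain ⟨x, hx, rfl⟩ := hahYm.mem_img.mp hy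
    rw [hbh1 x (hYle hx)]
    exact hx
  have hf'T : ∀ t ∈ T, f' t ∈ T := fun t ht => sc_apply_mem hT hf' (Subgroup.mem_sup_left ht) ht
  have hf'Y : ∀ x ∈ P, f' x ∈ Y := fun x hx => by
    rw [hf'P x hx]; exact sc_apply_mem hY hf hx (hPY hx)
  have hf'maps : ∀ x ∈ T ⊔ P, f' x ∈ T ⊔ centralizerIn S T :=
    hf'.mapsTo_sup (fun t ht => Subgroup.mem_sup_left (hf'T t ht))
      (fun x hx => hYle (hf'Y x hx))
  have hδ : IsMap F (T ⊔ P) (bh ∘ f') := hf'.comp hbh hf'maps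
  have hδT : ∀ t ∈ T, (bh ∘ f') t = t := fun t ht => by
    show bh (f' t) = t
    rw [← hahT t ht]
    exact hbh1 t (Subgroup.mem_sup_left ht)
  have hδY : ∀ x ∈ P, (bh ∘ f') x ∈ Y := fun x hx => hbhY _ (hf'Y x hx)
  have hδ' : IsMap F (P ⊔ T) (bh ∘ f') := by rw [sup_comm]; exact hδ
  have hδC : IsCMap F T P (bh ∘ f') :=
    ⟨hδ.restrict le_sup_right, hPY.trans hYT, fun x hx => hYT (hδY x hx), bh ∘ f', hδ',
      fun _ _ => rfl, hδT⟩
  obtain ⟨α₁, hα₁, f₀, hf₀, hδf₀⟩ :=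
    invariant_frattini hinv₁ hPY ((isMap_centSys_iff F hTS).2 hδC)
  have hα₁m : IsMap F Y (autFun α₁) :=
    ((isMap_centSys_iff F hTS).1
      ((mem_autGroup_iff (centralizerSystem F T hTS) hYT α₁).1 hα₁)).1
  have hcomp : IsMap F Y (ah ∘ autFun α₁) := hα₁m.comp hahYm (fun y hy => autFun_mem α₁ hy)
  have hmapsY : ∀ y ∈ Y, (ah ∘ autFun α₁) y ∈ Y := fun y hy => hahY _ (autFun_mem α₁ hy)
  obtain ⟨α, hα, hαv⟩ := hcomp.exists_aut (hcomp.img_eq_of_mapsTo hmapsY)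
  refine ⟨α, hα, f₀, hf₀, fun x hx => ?_⟩
  have hf₀Y : f₀ x ∈ Y := hf₀.mem hx
  rw [hαv _ hf₀Y]
  show f x = ah (autFun α₁ (f₀ x))
  rw [← hδf₀ x hx]
  show f x = ah (bh (f' x))
  rw [(hbh2 _ (hf'maps x (Subgroup.mem_sup_right hx))).2, hf'P x hx]

end Cfsg.Agent.Helper70.CEFRAT
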