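import Mathlib
import Cfsg.Prelude.Def_GeometricClasses
import Cfsg.Prelude.Def_LieClassical
import Cfsg.Agent.Helper69.E4Def
import Cfsg.Agent.Helper69.E4UDef
import Cfsg.Agent.Helper97.UForm
import Cfsg.Agent.Helper40.SemisimpleMat

set_option autoImplicit false

/-!
# Piece DICH5 of S6001 (helper70): a unitary element of order 5 of `GL_4(F_{p²})`,
`p ≡ ±2 (mod 5)`, is conjugate to the block companion matrix `e4uM0 τ`.
-/

namespace Cfsg.Agent.Helper70
open Cfsg.Agent.Helper69 Cfsg.Agent.Helper97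
open scoped Matrix
open Polynomial

theorem e4ud5_five_ne_zero {F : Type*} [Field F] {p : ℕ} [Fact p.Prime] [CharP F p]
    (hord : p % 5 = 2 ∨ p % 5 = 3) : (5 : F) ≠ 0 := by
  intro h
  have h1 : ((5 : ℕ) : F) = 0 := by exact_mod_cast h
  rw [CharP.cast_eq_zero_iff F p] at h1
  have hp : p.Prime := Fact.out
  have h2 := (Nat.prime_dvd_prime_iff_eq hp (by norm_num)).1 h1
  omega

/-- no element of order 5 in `F_{p²}`, `p ≡ ±2 (mod 5)` -/
theorem e4ud5_no_root {F : Type*} [Field F] [Fintype F] {p : ℕ} [Fact p.Prime] [CharP F p]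
    (hF : Fintype.card F = p ^ 2) (hord : p % 5 = 2 ∨ p % 5 = 3) (c : F)
    (hc5 : c ^ 5 = 1) : c = 1 := by
  by_contra hc1
  have : Fact (Nat.Prime 5) := ⟨by norm_num⟩
  have hc0 : c ≠ 0 := by
    rintro rfl
    norm_num at hc5
  have ho : orderOf c = 5 := orderOf_eq_prime hc5 hc1
  have hpow : c ^ (p ^ 2 - 1) = 1 := by
    rw [← hF]
    exact FiniteField.pow_card_sub_one_eq_one c hc0
  have hdvd : 5 ∣ p ^ 2 - 1 := by
    rw [← ho]
    exact orderOf_dvd_of_pow_eq_one hpow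
  have hp : p.Prime := Fact.out
  have h1 : p ^ 2 % 5 = 4 := by
    rw [Nat.pow_mod]
    rcases hord with h | h <;> rw [h]
  have h2 : 1 ≤ p ^ 2 := Nat.one_le_pow _ _ hp.pos
  omega

theorem e4ud5_aeval {F : Type*} [Field F] {n : ℕ} (A : Matrix (Fin n) (Fin n) F) (a : F) :
    aeval A (X ^ 2 + C a * X + 1 : F[X]) = A * A + a • A + 1 := by
  rw [map_add, map_add, map_mul, map_pow, aeval_X, aeval_C, map_one,
    Algebra.algebraMap_eq_smul_one, smul_mul_assoc, one_mul, pow_two]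

theorem e4ud5_quad_dvd {F : Type*} [Field F] {n : ℕ} (A : Matrix (Fin n) (Fin n) F) (a : F)
    (hirr : Irreducible (X ^ 2 + C a * X + 1 : F[X])) (hdet : (A * A + a • A + 1).det = 0) :
    (X ^ 2 + C a * X + 1 : F[X]) ∣ A.charpoly := by
  by_contra hnd
  obtain ⟨u, v, huv⟩ := (hirr.coprime_iff_not_dvd).2 hnd
  have h1 := congrArg (aeval A) huv
  rw [map_add, map_mul, map_mul, Matrix.aeval_self_charpoly, mul_zero, add_zero, map_one,
    e4ud5_aeval] at h1
  have h2 := congrArg Matrix.det h1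
  rw [Matrix.det_mul, hdet, mul_zero, Matrix.det_one] at h2
  exact zero_ne_one h2

theorem e4ud5_irr {F : Type*} [Field F] (h5 : (5 : F) ≠ 0) (hroot : ∀ c : F, c ^ 5 = 1 → c = 1)
    (a : F) (ha : a ^ 2 - a - 1 = 0) : Irreducible (X ^ 2 + C a * X + 1 : F[X]) := by
  have hdeg : (X ^ 2 + C a * X + 1 : F[X]).natDegree = 2 := by compute_degree!
  apply Polynomial.irreducible_of_degree_le_three_of_not_isRoot
  · rw [hdeg]; decide
  · intro c hc
    have h : c ^ 2 + a * c + 1 = 0 := by simpa [Polynomial.IsRoot] using hc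
    have hc5 : c ^ 5 = 1 := by
      linear_combination (c - 1) * (c ^ 2 + (1 - a) * c + 1) * h + (c - 1) * c ^ 2 * ha
    have hc1 := hroot c hc5
    subst hc1
    apply h5
    linear_combination ha - (a - 3) * h

theorem e4ud5_coprime {F : Type*} [Field F] (h5 : (5 : F) ≠ 0) (a : F) (ha : a ^ 2 - a - 1 = 0) :
    IsCoprime (X ^ 2 + C a * X + 1 : F[X]) (X ^ 2 + C (1 - a) * X + 1) := by
  have hne : (1 - 2 * a) ≠ 0 := by
    intro h
    apply h5
    linear_combination (1 - 2 * a) * h - 4 * ha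
  refine ⟨C (1 - 2 * a)⁻¹ * (X + C (1 - a)), -(C (1 - 2 * a)⁻¹ * (X + C a)), ?_⟩
  have h1 : (X + C (1 - a)) * (X ^ 2 + C a * X + 1) -
      (X + C a) * (X ^ 2 + C (1 - a) * X + 1) = C (1 - 2 * a) := by
    simp only [map_sub, map_one, map_mul, map_ofNat]
    ring
  calc C (1 - 2 * a)⁻¹ * (X + C (1 - a)) * (X ^ 2 + C a * X + 1) +
        -(C (1 - 2 * a)⁻¹ * (X + C a)) * (X ^ 2 + C (1 - a) * X + 1)
      = C (1 - 2 * a)⁻¹ * ((X + C (1 - a)) * (X ^ 2 + C a * X + 1) -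
          (X + C a) * (X ^ 2 + C (1 - a) * X + 1)) := by ring
    _ = 1 := by rw [h1, ← C_mul, inv_mul_cancel₀ hne, C_1]

theorem e4ud5_charpoly {F : Type*} [Field F] (h5 : (5 : F) ≠ 0)
    (hroot : ∀ c : F, c ^ 5 = 1 → c = 1) (a : F) (ha : a ^ 2 - a - 1 = 0)
    (A : Matrix (Fin 4) (Fin 4) F) (h1 : (A * A + a • A + 1).det = 0)
    (h2 : (A * A + (1 - a) • A + 1).det = 0) :
    A.charpoly = (X ^ 2 + C a * X + 1) * (X ^ 2 + C (1 - a) * X + 1) := by
  have ha' : (1 - a) ^ 2 - (1 - a) - 1 = 0 := by linear_combination ha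
  have hd1 := e4ud5_quad_dvd A a (e4ud5_irr h5 hroot a ha) h1
  have hd2 := e4ud5_quad_dvd A (1 - a) (e4ud5_irr h5 hroot (1 - a) ha') h2
  have hdvd := (e4ud5_coprime h5 a ha).mul_dvd hd1 hd2
  have hm1 : (X ^ 2 + C a * X + 1 : F[X]).Monic := by monicity!
  have hm2 : (X ^ 2 + C (1 - a) * X + 1 : F[X]).Monic := by monicity!
  have hdg1 : (X ^ 2 + C a * X + 1 : F[X]).natDegree = 2 := by compute_degree!
  have hdg2 : (X ^ 2 + C (1 - a) * X + 1 : F[X]).natDegree = 2 := by compute_degree!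
  apply Polynomial.eq_of_monic_of_dvd_of_natDegree_le (hm1.mul hm2) (Matrix.charpoly_monic A) hdvd
  rw [Matrix.charpoly_natDegree_eq_dim, Fintype.card_fin, hm1.natDegree_mul hm2, hdg1, hdg2]

theorem e4ud5_pow_five {F : Type*} [Field F] (a : F) (ha : a ^ 2 - a - 1 = 0)
    (A : Matrix (Fin 4) (Fin 4) F)
    (hc : A.charpoly = (X ^ 2 + C a * X + 1) * (X ^ 2 + C (1 - a) * X + 1)) : A ^ 5 = 1 := by
  have ha' : (C a : F[X]) ^ 2 - C a - 1 = 0 := by
    rw [← C_pow, ← C_sub, ← C_1, ← C_sub, ha, C_0]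
  have hpoly : (X ^ 5 - 1 : F[X]) =
      (X - 1) * ((X ^ 2 + C a * X + 1) * (X ^ 2 + C (1 - a) * X + 1)) := by
    simp only [map_sub, map_one]
    linear_combination (X - 1) * X ^ 2 * ha'
  have h := Matrix.aeval_self_charpoly A
  rw [hc] at h
  have h2 := congrArg (aeval A) hpoly
  rw [map_mul, h, mul_zero, map_sub, map_pow, aeval_X, map_one] at h2
  exact sub_eq_zero.mp h2

/-- if `y ^ 5 = 1`, `y ≠ 1`, one of the two quadratic factors is singular at `y` -/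
theorem e4ud5_det_or {F : Type*} [Field F] (a : F) (ha : a ^ 2 - a - 1 = 0)
    (y : Matrix (Fin 4) (Fin 4) F) (hy : y ^ 5 = 1) (hy1 : y ≠ 1) :
    (y * y + a • y + 1).det = 0 ∨ (y * y + (1 - a) • y + 1).det = 0 := by
  by_contra hcon
  rw [not_or] at hcon
  obtain ⟨hd1, hd2⟩ := hcon
  have ha' : (C a : F[X]) ^ 2 - C a - 1 = 0 := by
    rw [← C_pow, ← C_sub, ← C_1, ← C_sub, ha, C_0]
  have hpoly : (X ^ 5 - 1 : F[X]) =
      (X - 1) * ((X ^ 2 + C a * X + 1) * (X ^ 2 + C (1 - a) * X + 1)) := by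
    simp only [map_sub, map_one]
    linear_combination (X - 1) * X ^ 2 * ha'
  have h2 := congrArg (aeval y) hpoly
  rw [map_mul, map_mul, e4ud5_aeval, e4ud5_aeval, map_sub, map_pow, aeval_X, map_one, hy,
    sub_self] at h2
  have hu : IsUnit ((y * y + a • y + 1) * (y * y + (1 - a) • y + 1)) := by
    rw [Matrix.isUnit_iff_isUnit_det, Matrix.det_mul]
    exact isUnit_iff_ne_zero.2 (mul_ne_zero hd1 hd2)
  have h3 := (hu.mul_left_eq_zero).1 h2.symm
  rw [map_sub, aeval_X, map_one] at h3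
  exact hy1 (sub_eq_zero.mp h3)

/-- the unitary symmetry of the quadratic factors -/
theorem e4ud5_det_symm {F : Type*} [Field F] (σ : F ≃+* F) (y : Matrix (Fin 4) (Fin 4) F)
    (hU : yᵀ * y.map σ = 1) (a : F) (h : (y * y + a • y + 1).det = 0) :
    (y * y + σ a • y + 1).det = 0 := by
  have hw : (y.map σ)ᵀ * y = 1 := by
    have := congrArg Matrix.transpose hU
    rwa [Matrix.transpose_mul, Matrix.transpose_transpose, Matrix.transpose_one] at this
  have e : ∀ M : Matrix (Fin 4) (Fin 4) F, M.map σ = (σ : F →+* F).mapMatrix M := fun M => rfl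
  have hsm : (σ : F →+* F).mapMatrix (a • y) = σ a • (σ : F →+* F).mapMatrix y := by
    ext i j
    simp
  have hmap : (y * y + a • y + 1).map σ = y.map σ * y.map σ + σ a • y.map σ + 1 := by
    rw [e, e, map_add, map_add, map_mul, map_one, hsm]
  have hkey : ((y * y + a • y + 1).map σ)ᵀ * (y * y) = y * y + σ a • y + 1 := by
    have t1 : (y.map σ)ᵀ * (y.map σ)ᵀ * (y * y) = 1 := by
      rw [Matrix.mul_assoc, ← Matrix.mul_assoc _ y y, hw, one_mul, hw]
    have t2 : (y.map σ)ᵀ * (y * y) = y := by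
      rw [← Matrix.mul_assoc, hw, one_mul]
    rw [hmap, Matrix.transpose_add, Matrix.transpose_add, Matrix.transpose_mul,
      Matrix.transpose_smul, Matrix.transpose_one, add_mul, add_mul, one_mul, Matrix.smul_mul,
      t1, t2]
    abel
  rw [← hkey, Matrix.det_mul, Matrix.det_transpose, e, ← RingHom.map_det, h, map_zero, zero_mul]

theorem e4ud5_M0_det1 {F : Type*} [Field F] (τ : F) (hτ : τ ^ 2 + τ - 1 = 0) :
    (e4uM0 τ * e4uM0 τ + (-τ) • e4uM0 τ + 1).det = 0 := by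
  apply Matrix.det_eq_zero_of_row_eq_zero 0
  intro j
  fin_cases j <;> simp [e4uM0, Matrix.mul_apply, Fin.sum_univ_four]

theorem e4ud5_M0_det2 {F : Type*} [Field F] (τ : F) (hτ : τ ^ 2 + τ - 1 = 0) :
    (e4uM0 τ * e4uM0 τ + (1 - (-τ)) • e4uM0 τ + 1).det = 0 := by
  apply Matrix.det_eq_zero_of_row_eq_zero 2
  intro j
  fin_cases j <;> simp [e4uM0, Matrix.mul_apply, Fin.sum_univ_four] <;> ring

theorem e4u_order_five_split {F : Type*} [Field F] [Fintype F] {p : ℕ} [Fact p.Prime]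
    [CharP F p] (hF : Fintype.card F = p ^ 2) (hord : p % 5 = 2 ∨ p % 5 = 3) (h2 : (2 : F) ≠ 0)
    (σ : F ≃+* F) (hσ : IsSigma p σ) (τ : F) (hτ : τ ^ 2 + τ - 1 = 0) (hστ : σ τ = -1 - τ)
    (y : Matrix (Fin 4) (Fin 4) F) (hU : yᵀ * y.map σ = 1) (hy : y ^ 5 = 1) (hy1 : y ≠ 1) :
    ∃ B₀ : Matrix (Fin 4) (Fin 4) F, B₀.det ≠ 0 ∧ y * B₀ = B₀ * e4uM0 τ := by
  have hp : p.Prime := Fact.out
  have h5 : (5 : F) ≠ 0 := e4ud5_five_ne_zero hord
  have hroot : ∀ c : F, c ^ 5 = 1 → c = 1 := fun c hc => e4ud5_no_root hF hord c hc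
  have ha : (-τ) ^ 2 - (-τ) - 1 = 0 := by linear_combination hτ
  have hcop : Nat.Coprime 5 p := by
    rw [Nat.coprime_primes (by norm_num) hp]
    intro h
    omega
  have hM := e4ud5_charpoly h5 hroot (-τ) ha (e4uM0 τ) (e4ud5_M0_det1 τ hτ) (e4ud5_M0_det2 τ hτ)
  have hM5 := e4ud5_pow_five (-τ) ha _ hM
  have hσa : σ (-τ) = 1 - (-τ) := by rw [map_neg, hστ]; ring
  have hσb : σ (1 - (-τ)) = -τ := by rw [map_sub, map_one, map_neg, hστ]; ring
  have hdets : (y * y + (-τ) • y + 1).det = 0 ∧ (y * y + (1 - (-τ)) • y + 1).det = 0 := by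
    rcases e4ud5_det_or (-τ) ha y hy hy1 with h | h
    · refine ⟨h, ?_⟩
      have := e4ud5_det_symm σ y hU _ h
      rwa [hσa] at this
    · refine ⟨?_, h⟩
      have := e4ud5_det_symm σ y hU _ h
      rwa [hσb] at this
  have hY := e4ud5_charpoly h5 hroot (-τ) ha y hdets.1 hdets.2
  obtain ⟨P, hP, hPe⟩ := Cfsg.Agent.Helper40.exists_conj_matrix p hcop hcop (e4uM0 τ) y hM5 hy
    (hM.trans hY.symm)
  exact ⟨P, by rw [hP]; exact one_ne_zero, hPe.symm⟩

end Cfsg.Agent.Helper70
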