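import Mathlib
import Cfsg.Agent.Helper96.OHDefs
import Cfsg.Agent.Helper31.OHOPERP

/-!
# helper70: generic "orbit–stabiliser + Cauchy" step for isometry groups (all characteristics)

`el_cauchy_fix`: if the isometries fixing `K^⊥` pointwise act transitively on the subspaces
`W ≤ K` with an isometry-invariant property `Pr`, at least one such `W` exists, and `r` divides
their number, then some isometry `y ≠ 1` with `y ^ r = 1` fixes `K^⊥` pointwise, and
`range (y - 1) ≤ K`.  `el_iso_invariants`: a bijective isometry preserves dimension,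
nondegeneracy and plus type of subspaces.
-/

set_option autoImplicit false
set_option linter.unusedSectionVars false
set_option linter.unusedVariables false
set_option linter.style.haveILetI false

namespace Cfsg.Agent.Helper70.EL

open Module Polynomial Cfsg Cfsg.Geo
open Cfsg.Agent.Helper13.TIu Cfsg.Agent.Helper96.OH

variable {ι : Type} [Fintype ι] [DecidableEq ι] {F : Type*} [Field F] (Q : (ι → F) → F)

/-- the group of linear isometries of `Q` fixing the perp of `K` pointwise -/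
def elFixPerp (K : Submodule F (ι → F)) : Subgroup ((ι → F) ≃ₗ[F] (ι → F)) where
  carrier := {g | (∀ v, Q (g v) = Q v) ∧
    ∀ v, (∀ u ∈ K, QuadraticMap.polar Q u v = 0) → g v = v}
  mul_mem' := by
    intro g h hg hh
    refine ⟨fun v => ?_, fun v hv => ?_⟩
    · rw [LinearEquiv.mul_apply, hg.1, hh.1]
    · rw [LinearEquiv.mul_apply, hh.2 v hv, hg.2 v hv]
  one_mem' := ⟨fun v => rfl, fun v _ => rfl⟩
  inv_mem' := by
    intro g hg
    refine ⟨fun v => ?_, fun v hv => ?_⟩
    · show Q (g.symm v) = Q v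
      have h1 := hg.1 (g.symm v)
      rw [LinearEquiv.apply_symm_apply] at h1
      exact h1.symm
    · show g.symm v = v
      have h1 := hg.2 v hv
      conv_lhs => rw [← h1]
      exact LinearEquiv.symm_apply_apply g v

/-- an isometry preserves the polar form -/
theorem el_polar_pres (g : Module.End F (ι → F)) (hg : OPres Q g) (u v : ι → F) :
    QuadraticMap.polar Q (g u) (g v) = QuadraticMap.polar Q u v := by
  unfold QuadraticMap.polar
  rw [← map_add, hg, hg, hg]

/-- one direction of the invariance of dimension, nondegeneracy and plus type -/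
theorem el_iso_invariants_aux (g : Module.End F (ι → F)) (hg : OPres Q g)
    (hbij : Function.Bijective g) (W : Submodule F (ι → F)) :
    finrank F (W.map g) = finrank F W ∧ (ONd Q W → ONd Q (W.map g)) ∧
      (OPl Q W → OPl Q (W.map g)) := by
  have hfr : ∀ U : Submodule F (ι → F), finrank F (U.map g) = finrank F U := fun U =>
    (Submodule.equivMapOfInjective g hbij.1 U).symm.finrank_eq
  refine ⟨hfr W, ?_, ?_⟩
  · rintro hW _ ⟨w, hw, rfl⟩ hw0
    have hw0' : w ≠ 0 := by
      rintro rfl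
      exact hw0 (map_zero _)
    obtain ⟨⟨x, hx, hx1⟩, ⟨x', hx', hx2⟩⟩ := hW w hw hw0'
    refine ⟨⟨g x, Submodule.mem_map_of_mem hx, ?_⟩, ⟨g x', Submodule.mem_map_of_mem hx', ?_⟩⟩
    · rw [el_polar_pres Q g hg]; exact hx1
    · rw [el_polar_pres Q g hg]; exact hx2
  · rintro ⟨U, hUW, hts, hd⟩
    refine ⟨U.map g, Submodule.map_mono hUW, ?_, ?_⟩
    · rintro _ ⟨u, hu, rfl⟩
      rw [hg]; exact hts u hu
    · rw [hfr, hfr]; exact hd

/-- a bijective isometry preserves dimension, nondegeneracy and plus type of subspaces -/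
theorem el_iso_invariants (g : Module.End F (ι → F)) (hg : OPres Q g)
    (hbij : Function.Bijective g) (W : Submodule F (ι → F)) :
    finrank F (W.map g) = finrank F W ∧ (ONd Q (W.map g) ↔ ONd Q W) ∧
      (OPl Q (W.map g) ↔ OPl Q W) := by
  obtain ⟨h1, h2, h3⟩ := el_iso_invariants_aux Q g hg hbij W
  -- the inverse isometry
  let e : (ι → F) ≃ₗ[F] (ι → F) := LinearEquiv.ofBijective g hbij
  have he : ∀ v, e v = g v := fun v => rfl
  have hsymm : ∀ v, g (e.symm v) = v := fun v => by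
    rw [← he]; exact LinearEquiv.apply_symm_apply e v
  have hg' : OPres Q (e.symm : (ι → F) →ₗ[F] (ι → F)) := by
    intro v
    have h := hg (e.symm v)
    rw [hsymm] at h
    exact h.symm
  have hbij' : Function.Bijective (e.symm : (ι → F) →ₗ[F] (ι → F)) := e.symm.bijective
  obtain ⟨-, h2', h3'⟩ := el_iso_invariants_aux Q (e.symm : (ι → F) →ₗ[F] (ι → F)) hg' hbij'
    (W.map g)
  have hback : (W.map g).map (e.symm : (ι → F) →ₗ[F] (ι → F)) = W := by
    ext v
    constructor
    · rintro ⟨_, ⟨w, hw, rfl⟩, rfl⟩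
      have : (e.symm : (ι → F) →ₗ[F] (ι → F)) (g w) = w := by
        show e.symm (g w) = w
        rw [← he]; exact LinearEquiv.symm_apply_apply e w
      rw [this]; exact hw
    · intro hv
      refine ⟨g v, Submodule.mem_map_of_mem hv, ?_⟩
      show e.symm (g v) = v
      rw [← he]; exact LinearEquiv.symm_apply_apply e v
  rw [hback] at h2' h3'
  exact ⟨h1, ⟨h2', h2⟩, ⟨h3', h3⟩⟩

/-- generic orbit–stabiliser + Cauchy step. -/
theorem el_cauchy_fix [Fintype F] (hQ : IsNondegenerateQuadraticForm Q) (r : ℕ) [Fact r.Prime]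
    (K : Submodule F (ι → F)) (hK : ONd Q K) (Pr : Submodule F (ι → F) → Prop)
    (hPr : ∀ g : Module.End F (ι → F), OPres Q g → Function.Bijective g →
      ∀ W, Pr W → Pr (W.map g))
    (htrans : ∀ W W' : Submodule F (ι → F), Pr W → Pr W' → W ≤ K → W' ≤ K →
      ∃ g : Module.End F (ι → F), OPres Q g ∧ Function.Bijective g ∧ W.map g = W' ∧
        ∀ v, (∀ u ∈ K, QuadraticMap.polar Q u v = 0) → g v = v)
    (W₀ : Submodule F (ι → F)) (hW₀ : Pr W₀ ∧ W₀ ≤ K)
    (hr : r ∣ Nat.card {W : Submodule F (ι → F) // Pr W ∧ W ≤ K}) :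
    ∃ y : Module.End F (ι → F), OPres Q y ∧ y ^ r = 1 ∧ y ≠ 1 ∧
      (∀ v, (∀ u ∈ K, QuadraticMap.polar Q u v = 0) → y v = v) ∧
      LinearMap.range (y - 1) ≤ K := by
  classical
  have hrpr : r.Prime := Fact.out
  have : Finite ((ι → F) ≃ₗ[F] (ι → F)) :=
    Finite.of_injective (fun g : (ι → F) ≃ₗ[F] (ι → F) => (g : (ι → F) → (ι → F)))
      DFunLike.coe_injective
  have hpol : ∀ g : (ι → F) ≃ₗ[F] (ι → F), (∀ v, Q (g v) = Q v) → ∀ u v,
      QuadraticMap.polar Q (g u) (g v) = QuadraticMap.polar Q u v := by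
    intro g hg u v
    unfold QuadraticMap.polar
    rw [← map_add, hg, hg, hg]
  have hpl_add : ∀ x y z : ι → F, QuadraticMap.polar Q (x + y) z =
      QuadraticMap.polar Q x z + QuadraticMap.polar Q y z :=
    fun x y z => (pB Q hQ).map_add₂ x y z
  have hpl_sub : ∀ x y z : ι → F, QuadraticMap.polar Q (x - y) z =
      QuadraticMap.polar Q x z - QuadraticMap.polar Q y z :=
    fun x y z => (pB Q hQ).map_sub₂ x y z
  -- the complement of K
  obtain ⟨P, -, -, hPnd, hdisj, hsup, hKP, hPdim⟩ :=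
    Cfsg.Agent.Helper31.OH5992.o_perp Q hQ (1 : Module.End F (ι → F)) (opres_one Q) 1 one_pos
      (pow_one 1) ⊤ K (ond_top Q hQ) hK le_top le_top
      (by rw [Module.End.one_eq_id, Submodule.map_id])
  have hfixP : ∀ g ∈ elFixPerp Q K, ∀ y ∈ P, g y = y :=
    fun g hg y hy => hg.2 y (fun u hu => hKP u hu y hy)
  have hKinv : ∀ g ∈ elFixPerp Q K, ∀ w ∈ K, g w ∈ K := by
    intro g hg w hw
    have h1 : g w ∈ K ⊔ P := by rw [hsup]; exact Submodule.mem_top
    obtain ⟨k, hk, y, hy, hky⟩ := Submodule.mem_sup.mp h1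
    have hy0 : y = 0 := by
      by_contra hy0
      obtain ⟨-, y', hy', hne⟩ := hPnd y hy hy0
      apply hne
      have h3 : QuadraticMap.polar Q (g w) y' = 0 := by
        rw [← hfixP g hg y' hy', hpol g hg.1]
        exact hKP w hw y' hy'
      rw [← hky, hpl_add, hKP k hk y' hy', zero_add] at h3
      exact h3
    rw [hy0, add_zero] at hky
    rw [← hky]; exact hk
  have hpres : ∀ g ∈ elFixPerp Q K, ∀ W : Submodule F (ι → F), (Pr W ∧ W ≤ K) →
      (Pr (W.map (g : (ι → F) →ₗ[F] (ι → F))) ∧ W.map (g : (ι → F) →ₗ[F] (ι → F)) ≤ K) := by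
    rintro g hg W ⟨hW1, hW4⟩
    refine ⟨hPr (g : (ι → F) →ₗ[F] (ι → F)) (fun v => hg.1 v) g.bijective W hW1, ?_⟩
    rintro _ ⟨w, hw, rfl⟩
    exact hKinv g hg w (hW4 hw)
  letI inst : MulAction (elFixPerp Q K) {W : Submodule F (ι → F) // Pr W ∧ W ≤ K} :=
    { smul := fun g W => ⟨W.1.map ((g.1 : (ι → F) ≃ₗ[F] (ι → F)) : (ι → F) →ₗ[F] (ι → F)),
        hpres g.1 g.2 W.1 W.2⟩
      one_smul := by
        intro W
        apply Subtype.ext
        show W.1.map (((1 : (ι → F) ≃ₗ[F] (ι → F))) : (ι → F) →ₗ[F] (ι → F)) = W.1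
        exact Submodule.map_id _
      mul_smul := by
        intro g h W
        apply Subtype.ext
        show W.1.map (((g.1 * h.1 : (ι → F) ≃ₗ[F] (ι → F))) : (ι → F) →ₗ[F] (ι → F)) =
          (W.1.map (h.1 : (ι → F) →ₗ[F] (ι → F))).map (g.1 : (ι → F) →ₗ[F] (ι → F))
        rw [← Submodule.map_comp]
        rfl }
  haveI : MulAction.IsPretransitive (elFixPerp Q K)
      {W : Submodule F (ι → F) // Pr W ∧ W ≤ K} := by
    refine ⟨fun W W' => ?_⟩
    obtain ⟨g, hg1, hg2, hg3, hg4⟩ := htrans W.1 W'.1 W.2.1 W'.2.1 W.2.2 W'.2.2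
    refine ⟨⟨LinearEquiv.ofBijective g hg2, ⟨fun v => hg1 v, fun v hv => hg4 v hv⟩⟩,
      Subtype.ext ?_⟩
    exact hg3
  have hdvd : Nat.card {W : Submodule F (ι → F) // Pr W ∧ W ≤ K} ∣
      Nat.card (elFixPerp Q K) := by
    rw [← MulAction.index_stabilizer_of_transitive (G := elFixPerp Q K)
      (x := (⟨W₀, hW₀⟩ : {W : Submodule F (ι → F) // Pr W ∧ W ≤ K}))]
    exact Subgroup.index_dvd_card _
  have hr' : r ∣ Nat.card (elFixPerp Q K) := dvd_trans hr hdvd
  obtain ⟨g, hg⟩ := exists_prime_orderOf_dvd_card' r hr'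
  obtain ⟨T, hTdef⟩ : ∃ T : Module.End F (ι → F),
      T = ((g.1 : (ι → F) ≃ₗ[F] (ι → F)) : (ι → F) →ₗ[F] (ι → F)) := ⟨_, rfl⟩
  have hTapp : ∀ v, T v = g.1 v := fun v => by rw [hTdef]; rfl
  have hTpow : ∀ n : ℕ, ∀ v, (T ^ n) v = (g.1 ^ n) v := by
    intro n
    induction n with
    | zero => intro v; rfl
    | succ n ih =>
      intro v
      rw [pow_succ, pow_succ, Module.End.mul_apply, LinearEquiv.mul_apply, ih, hTapp]
  have hgr : g.1 ^ r = 1 := by
    have h1 : g ^ r = 1 := by rw [← hg]; exact pow_orderOf_eq_one g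
    have h3 := congrArg Subtype.val h1
    simpa using h3
  have hTr : T ^ r = 1 := by
    apply LinearMap.ext
    intro v
    rw [hTpow, hgr]
    rfl
  have hT : OPres Q T := fun v => by rw [hTapp]; exact g.2.1 v
  have hT1 : T ≠ 1 := by
    intro h9
    have h10 : g = 1 := by
      apply Subtype.ext
      apply LinearEquiv.ext
      intro v
      rw [← hTapp, h9]
      rfl
    rw [h10, orderOf_one] at hg
    exact hrpr.ne_one hg.symm
  refine ⟨T, hT, hTr, hT1, fun v hv => by rw [hTapp]; exact g.2.2 v hv, ?_⟩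
  rintro _ ⟨v, rfl⟩
  have h1 : (T - 1) v ∈ K ⊔ P := by rw [hsup]; exact Submodule.mem_top
  obtain ⟨k, hk, y, hy, hky⟩ := Submodule.mem_sup.mp h1
  have hy0 : y = 0 := by
    by_contra hy0
    obtain ⟨-, y', hy', hne⟩ := hPnd y hy hy0
    apply hne
    have h3 : QuadraticMap.polar Q ((T - 1) v) y' = 0 := by
      rw [LinearMap.sub_apply, Module.End.one_apply, hpl_sub]
      have h4 : QuadraticMap.polar Q (T v) y' = QuadraticMap.polar Q v y' := by
        have h5 := hpol g.1 g.2.1 v y'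
        rw [hfixP g.1 g.2 y' hy', ← hTapp] at h5
        exact h5
      rw [h4, sub_self]
    rw [← hky, hpl_add, hKP k hk y' hy', zero_add] at h3
    exact h3
  rw [hy0, add_zero] at hky
  rw [← hky]; exact hk

end Cfsg.Agent.Helper70.EL
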