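import Mathlib
import Cfsg.Agent.Helper96.OHDefs
import Cfsg.Agent.Helper31.OHOFIX
import Cfsg.Agent.Helper37.OHOFIXCONGR
import Cfsg.Agent.Helper66.OHOTRANSFIX
import Cfsg.Agent.Helper84.OEETRANSFIXCore
import Cfsg.Agent.Helper43.OrthPlane
import Cfsg.Agent.Helper70.ELCauchy

/-!
# helper70: the counting stage (CNT) for elliptic subspaces, ALL characteristics

* `el_iso_all`: nondegenerate subspaces of the same even dimension and the same type are isometric
  (no hypothesis on the characteristic).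
* `el_trans_fix_all`: Witt transitivity inside `K`, fixing `K^⊥` pointwise (all characteristics).
* `el_cnt`: if every `T`-invariant elliptic `m`-space lies in `ker (T - 1)`, one exists, and `r`
  divides the number of elliptic `m`-spaces, then some isometry `y ≠ 1` with `y ^ r = 1` has
  `range (y - 1) ≤ ker (T - 1)`.
-/

set_option autoImplicit false
set_option linter.unusedSectionVars false
set_option linter.unusedVariables false
set_option linter.style.haveILetI false

namespace Cfsg.Agent.Helper70.EL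

open Module Polynomial Cfsg Cfsg.Geo
open Cfsg.Agent.Helper13.TIu Cfsg.Agent.Helper96.OH

variable {ι : Type} [Fintype ι] [DecidableEq ι] {F : Type*} [Field F] (Q : (ι → F) → F)

/-- two nondegenerate subspaces of the same even dimension and the same type are isometric
(all characteristics). -/
theorem el_iso_all [Fintype F] (hQ : IsNondegenerateQuadraticForm Q)
    (W W' : Submodule F (ι → F)) (hW : ONd Q W) (hW' : ONd Q W')
    (hdim : finrank F W = finrank F W') (hev : Even (finrank F W))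
    (hty : OPl Q W ↔ OPl Q W') : AreIsometricFor Q W W' := by
  classical
  rcases Nat.eq_zero_or_pos (finrank F W) with h0 | hpos
  · have hWb : W = ⊥ := Submodule.finrank_eq_zero.1 h0
    have hW'b : W' = ⊥ := Submodule.finrank_eq_zero.1 (by rw [← hdim]; exact h0)
    have heq : W = W' := by rw [hWb, hW'b]
    exact ⟨LinearEquiv.ofEq W W' heq, fun w => rfl⟩
  · by_cases hpl : OPl Q W
    · exact Cfsg.Agent.Helper66.OH5992.otransfix_iso Q hQ W W' hW hW' hdim hpl (hty.1 hpl) hpos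
    · have hpl' : ¬ OPl Q W' := fun h => hpl (hty.2 h)
      obtain ⟨m, hm⟩ := hev
      have hd : finrank F W = 2 * m := by omega
      have hd' : finrank F W' = 2 * m := by omega
      have hm1 : 1 ≤ m := by omega
      have hTS : ¬ Cfsg.Agent.Helper43.OrthEven.HasTS (Cfsg.Agent.Helper33.OType.restr Q hQ W) m :=
        fun h => hpl ((Cfsg.Agent.Helper33.OType.plus_iff_hasTS Q hQ W hW hd).2 h)
      have hTS' : ¬ Cfsg.Agent.Helper43.OrthEven.HasTS
          (Cfsg.Agent.Helper33.OType.restr Q hQ W') m :=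
        fun h => hpl' ((Cfsg.Agent.Helper33.OType.plus_iff_hasTS Q hQ W' hW' hd').2 h)
      obtain ⟨ζ, hζ, Ψ, hΨ⟩ := Cfsg.Agent.Helper43.OrthEven.exists_minus_of_not_hasTS hm1 hd
        (Cfsg.Agent.Helper33.OType.restr Q hQ W)
        (Cfsg.Agent.Helper33.OType.polarNondeg_restr Q hQ W hW) hTS
      obtain ⟨Ψ', hΨ'⟩ := Cfsg.Agent.Helper43.OrthEven.exists_minus_of_not_hasTS' hm1 hd'
        (Cfsg.Agent.Helper33.OType.restr Q hQ W')
        (Cfsg.Agent.Helper33.OType.polarNondeg_restr Q hQ W' hW') hTS' 1 ζ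
        (fun a b h => Cfsg.Agent.S2617.aniso ζ hζ a b h)
      refine ⟨Ψ.symm.trans Ψ', fun w => ?_⟩
      have h1 := hΨ' (Ψ.symm w)
      have h3 := hΨ (Ψ.symm w)
      rw [LinearEquiv.apply_symm_apply] at h3
      rw [Cfsg.Agent.Helper33.OType.restr_apply] at h1 h3
      rw [LinearEquiv.trans_apply, h1, ← h3]

/-- Witt transitivity inside `K` fixing `K^⊥` pointwise (all characteristics, both types). -/
theorem el_trans_fix_all [Fintype F] (hQ : IsNondegenerateQuadraticForm Q)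
    (K W W' : Submodule F (ι → F)) (hK : ONd Q K) (hW : ONd Q W) (hW' : ONd Q W') (hWK : W ≤ K)
    (hW'K : W' ≤ K) (hdim : finrank F W = finrank F W') (hev : Even (finrank F W))
    (hty : OPl Q W ↔ OPl Q W') :
    ∃ g : Module.End F (ι → F), OPres Q g ∧ Function.Bijective g ∧ W.map g = W' ∧
      ∀ v, (∀ u ∈ K, QuadraticMap.polar Q u v = 0) → g v = v :=
  Cfsg.Agent.Helper84.OE5993.oetransfix_core Q hQ K W W' hK hW hW' hWK hW'K
    (el_iso_all Q hQ W W' hW hW' hdim hev hty)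

/-- CNT for elliptic `m`-spaces, all characteristics (`r ≠ p`). -/
theorem el_cnt [Fintype F] (hQ : IsNondegenerateQuadraticForm Q) (T : Module.End F (ι → F))
    (hT : OPres Q T) (r : ℕ) [Fact r.Prime] (hrF : (r : F) ≠ 0) (hTr : T ^ r = 1) (m : ℕ)
    (hme : Even m)
    (hin : ∀ W : Submodule F (ι → F), (finrank F W = m ∧ ONd Q W ∧ ¬ OPl Q W) →
      W.map T ≤ W → W ≤ LinearMap.ker (T - 1))
    (hex : ∃ W : Submodule F (ι → F), (finrank F W = m ∧ ONd Q W ∧ ¬ OPl Q W) ∧ W.map T ≤ W)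
    (hr : r ∣ Nat.card {W : Submodule F (ι → F) // finrank F W = m ∧ ONd Q W ∧ ¬ OPl Q W}) :
    ∃ y : Module.End F (ι → F), OPres Q y ∧ y ^ r = 1 ∧ y ≠ 1 ∧
      LinearMap.range (y - 1) ≤ LinearMap.ker (T - 1) := by
  classical
  have hr0 : 0 < r := (Fact.out : r.Prime).pos
  have hTS : T ^ (r - 1) * T = 1 := by rw [← pow_succ, Nat.sub_add_cancel hr0, hTr]
  have hST : T * T ^ (r - 1) = 1 := by rw [← pow_succ', Nat.sub_add_cancel hr0, hTr]
  have hbij : Function.Bijective T := by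
    constructor
    · intro a b hab
      have h := congrArg (T ^ (r - 1)) hab
      rw [← Module.End.mul_apply, ← Module.End.mul_apply, hTS] at h
      exact h
    · intro v
      refine ⟨(T ^ (r - 1)) v, ?_⟩
      rw [← Module.End.mul_apply, hST]
      rfl
  obtain ⟨K, hKdef⟩ : ∃ K : Submodule F (ι → F), K = LinearMap.ker (T - 1) := ⟨_, rfl⟩
  have hKnd : ONd Q K := by
    have h := (Cfsg.Agent.Helper31.OH5992.o_fix Q hQ T hT r hr0 hrF hTr ⊤ le_top
      (ond_top Q hQ)).1
    rw [top_inf_eq] at h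
    rw [hKdef]
    exact h
  have hKfix : ∀ w ∈ K, T w = w := by
    intro w hw
    rw [hKdef, LinearMap.mem_ker, LinearMap.sub_apply, Module.End.one_apply, sub_eq_zero] at hw
    exact hw
  have hPr : ∀ g : Module.End F (ι → F), OPres Q g → Function.Bijective g →
      ∀ W : Submodule F (ι → F), (finrank F W = m ∧ ONd Q W ∧ ¬ OPl Q W) →
        (finrank F (W.map g) = m ∧ ONd Q (W.map g) ∧ ¬ OPl Q (W.map g)) := by
    rintro g hg hgb W ⟨h1, h2, h3⟩
    obtain ⟨i1, i2, i3⟩ := el_iso_invariants Q g hg hgb W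
    exact ⟨by rw [i1, h1], i2.mpr h2, fun h => h3 (i3.mp h)⟩
  have hcongr := Cfsg.Agent.Helper37.OH5992.o_fix_congr T r hTr
    (fun W : Submodule F (ι → F) => finrank F W = m ∧ ONd Q W ∧ ¬ OPl Q W)
    (fun W hW => hPr T hT hbij W hW)
  have hr2 : r ∣ Nat.card {W : Submodule F (ι → F) //
      (finrank F W = m ∧ ONd Q W ∧ ¬ OPl Q W) ∧ W.map T ≤ W} :=
    Nat.modEq_zero_iff_dvd.mp (hcongr.symm.trans (Nat.modEq_zero_iff_dvd.mpr hr))
  have hiff : ∀ W : Submodule F (ι → F),
      ((finrank F W = m ∧ ONd Q W ∧ ¬ OPl Q W) ∧ W.map T ≤ W) ↔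
      ((finrank F W = m ∧ ONd Q W ∧ ¬ OPl Q W) ∧ W ≤ K) := by
    intro W
    constructor
    · rintro ⟨h1, h2⟩
      exact ⟨h1, by rw [hKdef]; exact hin W h1 h2⟩
    · rintro ⟨h1, h2⟩
      refine ⟨h1, ?_⟩
      rintro _ ⟨w, hw, rfl⟩
      rw [hKfix w (h2 hw)]
      exact hw
  have hr3 : r ∣ Nat.card {W : Submodule F (ι → F) //
      (finrank F W = m ∧ ONd Q W ∧ ¬ OPl Q W) ∧ W ≤ K} := by
    rw [← Nat.card_congr (Equiv.subtypeEquivRight hiff)]
    exact hr2
  obtain ⟨W₀, hW₀, hW₀T⟩ := hex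
  have hW₀K : W₀ ≤ K := by rw [hKdef]; exact hin W₀ hW₀ hW₀T
  obtain ⟨y, hy1, hy2, hy3, -, hy5⟩ := el_cauchy_fix Q hQ r K hKnd
    (fun W : Submodule F (ι → F) => finrank F W = m ∧ ONd Q W ∧ ¬ OPl Q W) hPr
    (fun W W' hW hW' hWK hW'K => el_trans_fix_all Q hQ K W W' hKnd hW.2.1 hW'.2.1 hWK hW'K
      (by rw [hW.1, hW'.1]) (by rw [hW.1]; exact hme)
      ⟨fun h => absurd h hW.2.2, fun h => absurd h hW'.2.2⟩)
    W₀ ⟨hW₀, hW₀K⟩ hr3
  exact ⟨y, hy1, hy2, hy3, by rw [← hKdef]; exact hy5⟩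

end Cfsg.Agent.Helper70.EL
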