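import Mathlib

set_option autoImplicit false

namespace Cfsg.Agent.Helper70

open Polynomial

/-- Roots (in an algebraically closed field of characteristic `p`) of a polynomial over `ZMod p`
are stable under Frobenius, with multiplicities. -/
theorem count_aroots_frob {p : ℕ} [Fact p.Prime] (K : Type*) [Field K] [CharP K p]
    [Algebra (ZMod p) K] [IsAlgClosed K] [DecidableEq K] (f : (ZMod p)[X]) (x : K) :
    (f.aroots K).count (x ^ p) = (f.aroots K).count x := by
  have h1 : ((f.map (algebraMap (ZMod p) K)).roots).map (frobenius K p) =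
      ((f.map (algebraMap (ZMod p) K)).map (frobenius K p)).roots := by
    apply Polynomial.roots_map_of_injective_of_card_eq_natDegree (frobenius_inj K p)
    exact (IsAlgClosed.splits _).natDegree_eq_card_roots.symm
  have h2 : (f.map (algebraMap (ZMod p) K)).map (frobenius K p) = f.map (algebraMap (ZMod p) K) := by
    rw [Polynomial.map_map]
    congr 1
    exact RingHom.ext_zmod _ _
  rw [h2] at h1
  have h3 : (f.aroots K) = (f.map (algebraMap (ZMod p) K)).roots := rfl
  rw [h3]
  conv_lhs => rw [← h1]
  have := Multiset.count_map_eq_count' (frobenius K p) (f.map (algebraMap (ZMod p) K)).roots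
    (frobenius_inj K p) x
  simpa [frobenius_def] using this

theorem reverse_X_sub_C_pow {K : Type*} [Field K] (x : K) (m : ℕ) :
    ((X - C x : K[X]) ^ m).reverse = (1 - C x * X) ^ m := by
  induction m with
  | zero => rw [pow_zero, pow_zero, ← C_1, reverse_C]
  | succ m ih =>
    rw [pow_succ, Polynomial.reverse_mul_of_domain, ih, pow_succ]
    congr 1
    have : (X - C x : K[X]) = X + C (-x) := by simp [sub_eq_add_neg]
    rw [this, Polynomial.reverse_add_C]
    have h1 : (X : K[X]).reverse = 1 := by
      have : (X : K[X]) = (C (1 : K) : K[X]) * X := by simp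
      rw [this, reverse_mul_X, reverse_C, C_1]
    rw [h1]
    simp [sub_eq_add_neg]

/-- If `f` is a nonzero scalar multiple of its reverse, the multiplicity of a nonzero root `x`
is at most that of `x⁻¹`. -/
theorem count_roots_inv_le {K : Type*} [Field K] [DecidableEq K] (f : K[X]) (hf : f ≠ 0) (c : K)
    (hc : f = C c * f.reverse) (x : K) (hx : x ≠ 0) :
    f.roots.count x ≤ f.roots.count x⁻¹ := by
  rw [Polynomial.count_roots, Polynomial.count_roots]
  obtain ⟨m, hm⟩ : ∃ m, m = rootMultiplicity x f := ⟨_, rfl⟩
  rw [← hm]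
  have hc0 : c ≠ 0 := by
    rintro rfl
    simp at hc
    exact hf hc
  have hrev : f.reverse ≠ 0 := by
    rw [Ne, Polynomial.reverse_eq_zero]; exact hf
  have h1 : (X - C x) ^ m ∣ f := hm ▸ Polynomial.pow_rootMultiplicity_dvd f x
  obtain ⟨g, hg⟩ := h1
  have h2 : f.reverse = (1 - C x * X) ^ m * g.reverse := by
    conv_lhs => rw [hg]
    rw [Polynomial.reverse_mul_of_domain, reverse_X_sub_C_pow]
  have h3 : (1 - C x * X : K[X]) = C (-x) * (X - C x⁻¹) := by
    rw [mul_sub, ← C_mul]
    simp [hx]
    ring
  rw [Polynomial.le_rootMultiplicity_iff hf]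
  have h4 : f = (C c * C (-x) ^ m * g.reverse) * (X - C x⁻¹) ^ m := by
    conv_lhs => rw [hc, h2, h3, mul_pow]
    ring
  exact Dvd.intro_left _ h4.symm

end Cfsg.Agent.Helper70
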