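import Mathlib
import Cfsg.Agent.Helper70.ExtraCycA

set_option autoImplicit false

namespace Cfsg.Agent.Helper70

open Polynomial

section Act

variable {K : Type*} [Field K] [DecidableEq K] {h : ℕ} (s : Multiset K)

theorem pow_val_mul {x : K} (hx : x ^ h = 1) (a b : ZMod h) :
    x ^ (a * b).val = (x ^ b.val) ^ a.val := by
  rw [ZMod.val_mul, ← pow_eq_pow_mod _ hx, ← pow_mul, mul_comm]

/-- The action of a group mapping to `(ZMod h)ˣ` on the enumerated roots. -/
noncomputable def enumAct [Fact (1 < h)] (hs : ∀ x ∈ s, orderOf x = h) {Γ : Type*} [Group Γ]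
    (ψ : Γ →* (ZMod h)ˣ)
    (hinv : ∀ γ : Γ, ∀ x : K, x ^ h = 1 → s.count (x ^ ((ψ γ : ZMod h).val)) = s.count x) :
    MulAction Γ s.toEnumFinset where
  smul γ t := ⟨(t.1.1 ^ ((ψ γ : ZMod h).val), t.1.2), by
    have ht := t.2
    rw [Multiset.mem_toEnumFinset] at ht ⊢
    have hx : t.1.1 ∈ s := Multiset.count_pos.mp (lt_of_le_of_lt (Nat.zero_le _) ht)
    have hx1 : t.1.1 ^ h = 1 := by
      have := hs _ hx
      rw [← this]; exact pow_orderOf_eq_one _
    show t.1.2 < s.count (t.1.1 ^ ((ψ γ : ZMod h).val))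
    rw [hinv γ _ hx1]; exact ht⟩
  one_smul t := by
    apply Subtype.ext
    show (t.1.1 ^ ((ψ 1 : ZMod h).val), t.1.2) = t.1
    rw [map_one, Units.val_one, ZMod.val_one, pow_one]
  mul_smul γ γ' t := by
    apply Subtype.ext
    have ht := t.2
    rw [Multiset.mem_toEnumFinset] at ht
    have hx : t.1.1 ∈ s := Multiset.count_pos.mp (lt_of_le_of_lt (Nat.zero_le _) ht)
    have hx1 : t.1.1 ^ h = 1 := by
      have := hs _ hx
      rw [← this]; exact pow_orderOf_eq_one _
    show (t.1.1 ^ ((ψ (γ * γ') : ZMod h).val), t.1.2) =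
      ((t.1.1 ^ ((ψ γ' : ZMod h).val)) ^ ((ψ γ : ZMod h).val), t.1.2)
    rw [map_mul, Units.val_mul, pow_val_mul hx1]

theorem card_dvd_of_stable [Fact (1 < h)] (hs : ∀ x ∈ s, orderOf x = h) {Γ : Type*} [Group Γ]
    [Finite Γ] (ψ : Γ →* (ZMod h)ˣ) (hψ : Function.Injective ψ)
    (hinv : ∀ γ : Γ, ∀ x : K, x ^ h = 1 → s.count (x ^ ((ψ γ : ZMod h).val)) = s.count x) :
    Nat.card Γ ∣ Multiset.card s := by
  classical
  letI := enumAct s hs ψ hinv
  letI : Fintype Γ := Fintype.ofFinite Γ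
  letI : Fintype (Quotient (MulAction.orbitRel Γ s.toEnumFinset)) := Fintype.ofFinite _
  have hB := MulAction.sum_card_fixedBy_eq_card_orbits_mul_card_group Γ s.toEnumFinset
  have h1 : ∀ γ : Γ, γ ≠ 1 → Fintype.card (MulAction.fixedBy s.toEnumFinset γ) = 0 := by
    intro γ hγ
    rw [Fintype.card_eq_zero_iff]
    constructor
    rintro ⟨t, ht⟩
    apply hγ
    rw [MulAction.mem_fixedBy] at ht
    have ht2 := t.2
    rw [Multiset.mem_toEnumFinset] at ht2
    have hx : t.1.1 ∈ s := Multiset.count_pos.mp (lt_of_le_of_lt (Nat.zero_le _) ht2)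
    have ht' : t.1.1 ^ ((ψ γ : ZMod h).val) = t.1.1 := by
      have := congrArg (fun u : s.toEnumFinset => u.1.1) ht
      exact this
    have hord := hs _ hx
    have hx0 : t.1.1 ≠ 0 := by
      intro h0
      rw [h0] at hord
      have h1lt : 1 < h := Fact.out
      rw [orderOf_eq_zero_iff.mpr (by
        intro hfin
        obtain ⟨k, hk, hk1⟩ := hfin.exists_pow_eq_one
        rw [zero_pow hk.ne'] at hk1
        exact zero_ne_one hk1)] at hord
      omega
    have h3 : ((ψ γ : ZMod h).val) = 1 := by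
      have hlt : (ψ γ : ZMod h).val < h := ZMod.val_lt _
      have h1lt : 1 < h := Fact.out
      rcases Nat.eq_zero_or_pos (ψ γ : ZMod h).val with h0 | hpos
      · rw [h0, pow_zero] at ht'
        rw [← ht', orderOf_one] at hord
        omega
      · have h6 : t.1.1 ^ ((ψ γ : ZMod h).val - 1) = 1 := by
          have h7 : t.1.1 ^ ((ψ γ : ZMod h).val - 1) * t.1.1 = 1 * t.1.1 := by
            rw [← pow_succ, Nat.sub_add_cancel hpos, ht', one_mul]
          exact mul_right_cancel₀ hx0 h7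
        have h8 := orderOf_dvd_of_pow_eq_one h6
        rw [hord] at h8
        have h9 := Nat.eq_zero_of_dvd_of_lt h8 (by omega)
        omega
    have h5 : (ψ γ : ZMod h) = 1 := by
      apply ZMod.val_injective
      rw [h3, ZMod.val_one]
    apply hψ
    rw [map_one]
    exact Units.ext h5
  have h2 : Fintype.card (MulAction.fixedBy s.toEnumFinset (1 : Γ)) = Multiset.card s := by
    rw [← Multiset.card_toEnumFinset, ← Fintype.card_coe]
    apply Fintype.card_congr
    exact ⟨fun t => t.1, fun t => ⟨t, by rw [MulAction.mem_fixedBy, one_smul]⟩, fun t => rfl,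
      fun t => rfl⟩
  rw [Finset.sum_eq_single (1 : Γ) (fun γ _ hγ => h1 γ hγ) (fun hh => absurd (Finset.mem_univ _) hh),
    h2] at hB
  rw [hB, Nat.card_eq_fintype_card]
  exact Dvd.intro_left _ rfl

end Act

end Cfsg.Agent.Helper70
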