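import Mathlib
import Cfsg.Agent.Helper70.ExtraCycB

set_option autoImplicit false

namespace Cfsg.Agent.Helper70

open Polynomial

section Arith

variable {K : Type*} [Field K] [DecidableEq K] {h p : ℕ}

theorem count_stable_closure [Fact (1 < h)] (hcop : p.Coprime h) (s : Multiset K)
    (hF : ∀ x : K, s.count (x ^ p) = s.count x) (hI : ∀ x : K, x ≠ 0 → s.count x⁻¹ = s.count x)
    (a : (ZMod h)ˣ)
    (ha : a ∈ Subgroup.closure ({ZMod.unitOfCoprime p hcop, -1} : Set (ZMod h)ˣ)) :
    ∀ x : K, x ^ h = 1 → s.count (x ^ ((a : ZMod h).val)) = s.count x := by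
  have h1lt : 1 < h := Fact.out
  induction ha using Subgroup.closure_induction with
  | mem a ha =>
    intro x hx
    rcases ha with rfl | ha
    · rw [ZMod.coe_unitOfCoprime, ZMod.val_natCast, ← pow_eq_pow_mod _ hx]
      exact hF x
    · rw [Set.mem_singleton_iff] at ha
      subst ha
      have hx0 : x ≠ 0 := by
        rintro rfl
        rw [zero_pow (by omega)] at hx
        exact zero_ne_one hx
      obtain ⟨k, rfl⟩ : ∃ k, h = k + 1 := ⟨h - 1, by omega⟩
      have h2 : x ^ ((-1 : ZMod (k + 1)).val) = x⁻¹ := by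
        rw [ZMod.val_neg_one]
        apply eq_inv_of_mul_eq_one_left
        rw [← pow_succ]; exact hx
      rw [Units.val_neg, Units.val_one, h2]
      exact hI x hx0
  | one =>
    intro x hx
    rw [Units.val_one, ZMod.val_one, pow_one]
  | mul a b _ _ iha ihb =>
    intro x hx
    rw [Units.val_mul, pow_val_mul hx]
    have hx' : (x ^ (b : ZMod h).val) ^ h = 1 := by
      rw [← pow_mul, mul_comm, pow_mul, hx, one_pow]
    rw [iha _ hx', ihb _ hx]
  | inv a _ iha =>
    intro x hx
    have hx' : (x ^ ((a⁻¹ : (ZMod h)ˣ) : ZMod h).val) ^ h = 1 := by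
      rw [← pow_mul, mul_comm, pow_mul, hx, one_pow]
    rw [← iha _ hx', ← pow_val_mul hx]
    have : (a : ZMod h) * ((a⁻¹ : (ZMod h)ˣ) : ZMod h) = 1 := by
      rw [← Units.val_mul, mul_inv_cancel, Units.val_one]
    rw [this, ZMod.val_one, pow_one]

theorem dvd_of_roots {n : ℕ} (h3 : 2 < h) (hcop : p.Coprime h) (s : Multiset K)
    (hcard : Multiset.card s = 2 * n) (hs : ∀ x ∈ s, orderOf x = h)
    (hF : ∀ x : K, s.count (x ^ p) = s.count x)
    (hI : ∀ x : K, x ≠ 0 → s.count x⁻¹ = s.count x) :
    h ∣ p ^ n + 1 ∨ h ∣ p ^ n - 1 := by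
  classical
  haveI : Fact (1 < h) := ⟨by omega⟩
  haveI : Fact (2 < h) := ⟨h3⟩
  haveI : NeZero h := ⟨by omega⟩
  set u : (ZMod h)ˣ := ZMod.unitOfCoprime p hcop with hu
  have key : ∀ {Γ : Type} [Group Γ] [Finite Γ] (ψ : Γ →* (ZMod h)ˣ), Function.Injective ψ →
      (∀ γ, ψ γ ∈ Subgroup.closure ({u, -1} : Set (ZMod h)ˣ)) → Nat.card Γ ∣ 2 * n := by
    intro Γ _ _ ψ hψ hmem
    rw [← hcard]
    exact card_dvd_of_stable s hs ψ hψ
      (fun γ x hx => count_stable_closure hcop s hF hI (ψ γ) (hmem γ) x hx)
  have hDle : Subgroup.zpowers u ≤ Subgroup.closure ({u, -1} : Set (ZMod h)ˣ) := by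
    rw [Subgroup.zpowers_le]
    exact Subgroup.subset_closure (by simp)
  have hneg1 : (-1 : (ZMod h)ˣ) ∈ Subgroup.closure ({u, -1} : Set (ZMod h)ˣ) :=
    Subgroup.subset_closure (by simp)
  have hD : orderOf u ∣ 2 * n := by
    have := key (Subgroup.zpowers u).subtype Subtype.coe_injective (fun γ => hDle γ.2)
    rwa [Nat.card_zpowers] at this
  have hne : (-1 : (ZMod h)ˣ) ≠ 1 := by
    intro h1
    have := congrArg (fun a : (ZMod h)ˣ => (a : ZMod h)) h1
    simp only [Units.val_neg, Units.val_one] at this
    exact ZMod.neg_one_ne_one this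
  have hun : u ^ n = 1 ∨ u ^ n = -1 := by
    by_cases hneg : (-1 : (ZMod h)ˣ) ∈ Subgroup.zpowers u
    · by_contra hcon
      push Not at hcon
      have hsq : (u ^ n) ^ 2 = 1 := by
        rw [← pow_mul, mul_comm]
        exact orderOf_dvd_iff_pow_eq_one.mp hD
      have hle := IsCyclic.card_pow_eq_one_le (α := Subgroup.zpowers u) (n := 2) (by norm_num)
      have hsub : ({1, ⟨-1, hneg⟩, ⟨u ^ n, Subgroup.pow_mem _ (Subgroup.mem_zpowers u) n⟩} :
          Finset (Subgroup.zpowers u)) ⊆
          Finset.univ.filter (fun a : Subgroup.zpowers u => a ^ 2 = 1) := by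
        intro a ha
        simp only [Finset.mem_insert, Finset.mem_singleton] at ha
        simp only [Finset.mem_filter, Finset.mem_univ, true_and]
        rcases ha with rfl | rfl | rfl
        · simp
        · apply Subtype.ext; simp
        · apply Subtype.ext; simpa using hsq
      have hc3 : ({1, ⟨-1, hneg⟩, ⟨u ^ n, Subgroup.pow_mem _ (Subgroup.mem_zpowers u) n⟩} :
          Finset (Subgroup.zpowers u)).card = 3 := by
        rw [Finset.card_insert_of_notMem, Finset.card_insert_of_notMem, Finset.card_singleton]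
        · simp only [Finset.mem_singleton]
          intro h1
          exact hcon.2 (congrArg Subtype.val h1).symm
        · simp only [Finset.mem_insert, Finset.mem_singleton]
          rintro (h1 | h1)
          · exact hne (congrArg Subtype.val h1).symm
          · exact hcon.1 (congrArg Subtype.val h1).symm
      have := Finset.card_le_card hsub
      omega
    · left
      let ψ : (Subgroup.zpowers u) × ℤˣ →* (ZMod h)ˣ :=
        ((Subgroup.zpowers u).subtype.comp (MonoidHom.fst _ _)) *
          ((Units.map (Int.castRingHom (ZMod h)).toMonoidHom).comp (MonoidHom.snd _ _))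
      have hψ : Function.Injective ψ := by
        rw [injective_iff_map_eq_one]
        rintro ⟨a, e⟩ hae
        have hae' : (a : (ZMod h)ˣ) * Units.map (Int.castRingHom (ZMod h)).toMonoidHom e = 1 := hae
        rcases Int.units_eq_one_or e with rfl | rfl
        · rw [map_one, mul_one] at hae'
          exact Prod.ext (Subtype.ext hae') rfl
        · exfalso
          have h2 : Units.map (Int.castRingHom (ZMod h)).toMonoidHom (-1 : ℤˣ) = -1 := by
            apply Units.ext; simp
          rw [h2] at hae'
          have h3 : (a : (ZMod h)ˣ) = -1 := by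
            have := congrArg (fun t => t * (-1 : (ZMod h)ˣ)) hae'
            simpa using this
          exact hneg (h3 ▸ a.2)
      have hmem : ∀ γ, ψ γ ∈ Subgroup.closure ({u, -1} : Set (ZMod h)ˣ) := by
        rintro ⟨a, e⟩
        have : ψ (a, e) = (a : (ZMod h)ˣ) * Units.map (Int.castRingHom (ZMod h)).toMonoidHom e :=
          rfl
        rw [this]
        apply Subgroup.mul_mem _ (hDle a.2)
        rcases Int.units_eq_one_or e with rfl | rfl
        · rw [map_one]; exact Subgroup.one_mem _
        · have h2 : Units.map (Int.castRingHom (ZMod h)).toMonoidHom (-1 : ℤˣ) = -1 := by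
            apply Units.ext; simp
          rw [h2]; exact hneg1
      have hk := key ψ hψ hmem
      rw [Nat.card_prod, Nat.card_zpowers, Nat.card_eq_fintype_card, Fintype.card_units_int] at hk
      have hdn : orderOf u ∣ n := by
        rw [mul_comm] at hk
        exact Nat.dvd_of_mul_dvd_mul_left (by norm_num) hk
      exact orderOf_dvd_iff_pow_eq_one.mp hdn
  have hpn : 1 ≤ p ^ n := Nat.one_le_pow _ _ (Nat.pos_of_ne_zero (by
    rintro rfl
    rw [Nat.coprime_zero_left] at hcop
    omega))
  rcases hun with h1 | h1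
  · right
    have h2 := congrArg (fun a : (ZMod h)ˣ => (a : ZMod h)) h1
    simp only [Units.val_pow_eq_pow_val, Units.val_one, hu, ZMod.coe_unitOfCoprime] at h2
    rw [← ZMod.natCast_eq_zero_iff, Nat.cast_sub hpn, Nat.cast_pow, h2]
    simp
  · left
    have h2 := congrArg (fun a : (ZMod h)ˣ => (a : ZMod h)) h1
    simp only [Units.val_pow_eq_pow_val, Units.val_one, Units.val_neg, hu,
      ZMod.coe_unitOfCoprime] at h2
    rw [← ZMod.natCast_eq_zero_iff, Nat.cast_add, Nat.cast_pow, h2]
    simp

end Arith

end Cfsg.Agent.Helper70
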