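import Mathlib
import Cfsg.Agent.Helper70.ExtraCycC

set_option autoImplicit false

namespace Cfsg.Agent.Helper70

open Polynomial TensorProduct

section Lin

variable {p : ℕ} [Fact p.Prime] {V : Type*} [AddCommGroup V] [Module (ZMod p) V]
  [Module.Finite (ZMod p) V]

/-- If `ψ = φ⁻¹` has the same characteristic polynomial as `φ`, then the characteristic
polynomial of `φ` is a scalar multiple of its reverse. -/
theorem charpoly_eq_C_mul_reverse (φ ψ : Module.End (ZMod p) V) (hφψ : φ * ψ = 1)
    (hdual : ψ.charpoly = φ.charpoly) :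
    ∃ c : ZMod p, φ.charpoly = C c * φ.charpoly.reverse := by
  classical
  let b := Module.Free.chooseBasis (ZMod p) V
  have hA : LinearMap.toMatrix b b φ * LinearMap.toMatrix b b ψ = 1 := by
    rw [← LinearMap.toMatrix_mul, hφψ, LinearMap.toMatrix_one]
  have hinv : (LinearMap.toMatrix b b φ)⁻¹ = LinearMap.toMatrix b b ψ := Matrix.inv_eq_right_inv hA
  have hunit : IsUnit (LinearMap.toMatrix b b φ) :=
    (Matrix.isUnit_iff_isUnit_det _).mpr (Matrix.isUnit_det_of_right_inverse hA)
  have h1 := Matrix.charpoly_inv (LinearMap.toMatrix b b φ) hunit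
  rw [hinv, LinearMap.charpoly_toMatrix, hdual, ← Matrix.reverse_charpoly,
    LinearMap.charpoly_toMatrix] at h1
  refine ⟨(-1) ^ Fintype.card (Module.Free.ChooseBasisIndex (ZMod p) V) *
    Ring.inverse (LinearMap.toMatrix b b φ).det, ?_⟩
  conv_lhs => rw [h1]
  rw [C_mul, C_pow, C_neg, C_1]

theorem cyc_linear (n h : ℕ) (hV : Module.finrank (ZMod p) V = 2 * n)
    (φ ψ : Module.End (ZMod p) V) (hφψ : φ * ψ = 1) (hh : φ ^ h = 1)
    (hfree : ∀ k, 0 < k → k < h → ∀ v, (φ ^ k) v = v → v = 0)
    (hdual : ψ.charpoly = φ.charpoly) (hcop : p.Coprime h) (h3 : 2 < h) :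
    h ∣ p ^ n + 1 ∨ h ∣ p ^ n - 1 := by
  classical
  let K := AlgebraicClosure (ZMod p)
  haveI : CharP K p := charP_of_injective_algebraMap (algebraMap (ZMod p) K).injective p
  let χ := φ.charpoly
  let s : Multiset K := χ.aroots K
  have hχ0 : χ ≠ 0 := (LinearMap.charpoly_monic φ).ne_zero
  have hχK0 : χ.map (algebraMap (ZMod p) K) ≠ 0 :=
    (Polynomial.map_ne_zero_iff (algebraMap (ZMod p) K).injective).mpr hχ0
  have hcard : Multiset.card s = 2 * n := by
    show Multiset.card (χ.map (algebraMap (ZMod p) K)).roots = 2 * n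
    rw [← (IsAlgClosed.splits _).natDegree_eq_card_roots, Polynomial.natDegree_map,
      LinearMap.charpoly_natDegree, hV]
  have hs : ∀ x ∈ s, orderOf x = h := by
    intro x hx
    have hroot : (χ.map (algebraMap (ZMod p) K)).IsRoot x := (Polynomial.mem_roots hχK0).mp hx
    rw [← LinearMap.charpoly_baseChange, ← Module.End.hasEigenvalue_iff_isRoot_charpoly] at hroot
    obtain ⟨w, hw⟩ := hroot.exists_hasEigenvector
    have hw0 : w ≠ 0 := hw.2
    have hpow : ∀ k : ℕ, ((φ ^ k).baseChange K) w = x ^ k • w := by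
      intro k
      rw [LinearMap.baseChange_pow]
      exact hw.pow_apply k
    rw [orderOf_eq_iff (by omega)]
    constructor
    · have h1 := hpow h
      rw [hh, LinearMap.baseChange_one, Module.End.one_apply] at h1
      have h2 : (fun c : K => c • w) (x ^ h) = (fun c : K => c • w) 1 := by
        show x ^ h • w = (1 : K) • w
        rw [one_smul]; exact h1.symm
      exact smul_left_injective K hw0 h2
    · intro k hk hk0 hxk
      have h1 := hpow k
      rw [hxk, one_smul] at h1
      have hinj : Function.Injective (φ ^ k - 1 : Module.End (ZMod p) V) := by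
        rw [← LinearMap.ker_eq_bot, LinearMap.ker_eq_bot']
        intro v hv
        apply hfree k hk0 hk v
        have : (φ ^ k) v - v = 0 := by simpa using hv
        exact sub_eq_zero.mp this
      obtain ⟨g, hg⟩ := LinearMap.exists_leftInverse_of_injective (φ ^ k - 1 : Module.End (ZMod p) V)
        (LinearMap.ker_eq_bot.mpr hinj)
      have h5 : (g.baseChange K) (((φ ^ k - 1 : Module.End (ZMod p) V).baseChange K) w) = w := by
        rw [← LinearMap.comp_apply, ← LinearMap.baseChange_comp, hg, LinearMap.baseChange_id]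
        rfl
      have h6 : ((φ ^ k - 1 : Module.End (ZMod p) V).baseChange K) w = 0 := by
        rw [LinearMap.baseChange_sub, LinearMap.sub_apply, h1, LinearMap.baseChange_one,
          Module.End.one_apply, sub_self]
      rw [h6, map_zero] at h5
      exact hw0 h5.symm
  have hF : ∀ x : K, s.count (x ^ p) = s.count x := fun x => count_aroots_frob K χ x
  obtain ⟨c, hc⟩ := charpoly_eq_C_mul_reverse φ ψ hφψ hdual
  have hcK : χ.map (algebraMap (ZMod p) K) =
      C (algebraMap (ZMod p) K c) * (χ.map (algebraMap (ZMod p) K)).reverse := by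
    have h1 : (χ.map (algebraMap (ZMod p) K)).reverse = (χ.reverse).map (algebraMap (ZMod p) K) := by
      rw [Polynomial.reverse, Polynomial.reverse, Polynomial.reflect_map, Polynomial.natDegree_map]
    rw [h1, ← Polynomial.map_C, ← Polynomial.map_mul]
    congr 1
  have hI : ∀ x : K, x ≠ 0 → s.count x⁻¹ = s.count x := by
    intro x hx
    apply le_antisymm
    · have := count_roots_inv_le _ hχK0 _ hcK x⁻¹ (inv_ne_zero hx)
      rwa [inv_inv] at this
    · exact count_roots_inv_le _ hχK0 _ hcK x hx
  exact dvd_of_roots h3 hcop s hcard hs hF hI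

end Lin

end Cfsg.Agent.Helper70
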