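import Mathlib
import Cfsg.Agent.Helper70.ExtraCycD

set_option autoImplicit false

namespace Cfsg.Agent.Helper70

open Polynomial
open scoped commutatorElement

section Dual

variable {F : Type*} [Field F] {V : Type*} [AddCommGroup V] [Module F V] [Module.Finite F V]

theorem charpoly_dualMap' (f : Module.End F V) :
    (f.dualMap : Module.End F (Module.Dual F V)).charpoly = f.charpoly := by
  classical
  set b := Module.Free.chooseBasis F V
  rw [← LinearMap.charpoly_toMatrix f b, ← LinearMap.charpoly_toMatrix f.dualMap b.dualBasis]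
  rw [LinearMap.dualMap_def, LinearMap.toMatrix_transpose, Matrix.charpoly_transpose]

/-- If `φ` preserves a nondegenerate pairing (with `ψ = φ⁻¹`), then `φ` and `ψ` have the same
characteristic polynomial. -/
theorem charpoly_eq_of_pairing (φ ψ : Module.End F V) (B : V →ₗ[F] Module.Dual F V)
    (hB : Function.Injective B) (hinv : ∀ u v, B (φ u) v = B u (ψ v)) :
    ψ.charpoly = φ.charpoly := by
  have hsurj : Function.Surjective B :=
    (LinearMap.injective_iff_surjective_of_finrank_eq_finrank
      (Subspace.dual_finrank_eq (K := F) (V := V)).symm).mp hB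
  let e : V ≃ₗ[F] Module.Dual F V := LinearEquiv.ofBijective B ⟨hB, hsurj⟩
  have h1 : e.conj φ = ψ.dualMap := by
    apply LinearMap.ext
    intro d
    obtain ⟨u, rfl⟩ := hsurj d
    apply LinearMap.ext
    intro v
    rw [LinearEquiv.conj_apply]
    show e (φ (e.symm (B u))) v = B u (ψ v)
    have : e.symm (B u) = u := e.symm_apply_apply u
    rw [this]
    exact hinv u v
  rw [← charpoly_dualMap' ψ, ← h1, LinearEquiv.charpoly_conj]

end Dual

section Grp

variable {P : Type*} [Group P]

theorem comm_mul_left' (hc : commutator P ≤ Subgroup.center P) (a a' b : P) :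
    ⁅a * a', b⁆ = ⁅a, b⁆ * ⁅a', b⁆ := by
  have hz : ⁅a', b⁆ ∈ Subgroup.center P :=
    hc (Subgroup.commutator_mem_commutator (Subgroup.mem_top a') (Subgroup.mem_top b))
  have h1 : ⁅a * a', b⁆ = a * ⁅a', b⁆ * a⁻¹ * ⁅a, b⁆ := by
    simp only [commutatorElement_def]; group
  rw [h1, Subgroup.mem_center_iff.mp hz a, mul_assoc ⁅a', b⁆ a, mul_inv_cancel, mul_one]
  exact (Subgroup.mem_center_iff.mp hz ⁅a, b⁆).symm

theorem comm_mul_right' (hc : commutator P ≤ Subgroup.center P) (a b b' : P) :
    ⁅a, b * b'⁆ = ⁅a, b⁆ * ⁅a, b'⁆ := by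
  have hz : ⁅a, b'⁆ ∈ Subgroup.center P :=
    hc (Subgroup.commutator_mem_commutator (Subgroup.mem_top a) (Subgroup.mem_top b'))
  have h1 : ⁅a, b * b'⁆ = ⁅a, b⁆ * (b * ⁅a, b'⁆ * b⁻¹) := by
    simp only [commutatorElement_def]; group
  rw [h1, Subgroup.mem_center_iff.mp hz b, mul_assoc ⁅a, b'⁆ b, mul_inv_cancel, mul_one]

/-- The commutator pairing into the centre, as a homomorphism in the second variable. -/
def pairHom (hc : commutator P ≤ Subgroup.center P) (a : P) : P →* Subgroup.center P where
  toFun b := ⟨⁅a, b⁆,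
    hc (Subgroup.commutator_mem_commutator (Subgroup.mem_top a) (Subgroup.mem_top b))⟩
  map_one' := by
    apply Subtype.ext
    simp
  map_mul' b b' := by
    apply Subtype.ext
    simp [comm_mul_right' hc]

theorem ab_surj (v : Additive (Abelianization P)) :
    ∃ a : P, v = Additive.ofMul (Abelianization.of a) := by
  obtain ⟨a, ha⟩ := QuotientGroup.mk_surjective (Additive.toMul v)
  exact ⟨a, congrArg Additive.ofMul ha.symm⟩

theorem exists_mulEquiv_zmod {p : ℕ} [Fact p.Prime] {Z : Type*} [Group Z]
    (hZ : Nat.card Z = p) : Nonempty (Z ≃* Multiplicative (ZMod p)) := by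
  haveI : IsCyclic Z := isCyclic_of_prime_card hZ
  subst hZ
  exact ⟨(zmodCyclicMulEquiv inferInstance).symm⟩

end Grp

end Cfsg.Agent.Helper70
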