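import Mathlib
import Cfsg.Agent.Helper70.ExtraCycE

set_option autoImplicit false

namespace Cfsg.Agent.Helper70

open scoped commutatorElement

section GrpPair

variable {P : Type*} [Group P] {p : ℕ} [Fact p.Prime]
  [Module (ZMod p) (Additive (Abelianization P))]

/-- The functional `b ↦ θ [a, b]` on the abelianization. -/
noncomputable def pairD (hc : commutator P ≤ Subgroup.center P)
    (θ : Subgroup.center P →* Multiplicative (ZMod p)) (a : P) :
    Module.Dual (ZMod p) (Additive (Abelianization P)) :=
  (MonoidHom.toAdditiveLeft (Abelianization.lift (θ.comp (pairHom hc a)))).toZModLinearMap p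

theorem pairD_apply (hc : commutator P ≤ Subgroup.center P)
    (θ : Subgroup.center P →* Multiplicative (ZMod p)) (a b : P) :
    pairD hc θ a (Additive.ofMul (Abelianization.of b)) =
      Multiplicative.toAdd (θ (pairHom hc a b)) := rfl

theorem pairHom_mul_left (hc : commutator P ≤ Subgroup.center P) (a a' b : P) :
    pairHom hc (a * a') b = pairHom hc a b * pairHom hc a' b := by
  apply Subtype.ext
  show ⁅a * a', b⁆ = ⁅a, b⁆ * ⁅a', b⁆
  exact comm_mul_left' hc a a' b

theorem pairHom_one_left (hc : commutator P ≤ Subgroup.center P) (b : P) :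
    pairHom hc 1 b = 1 := by
  apply Subtype.ext
  show ⁅(1 : P), b⁆ = 1
  simp

/-- `a ↦ (b ↦ θ [a, b])` as a homomorphism. -/
noncomputable def pairDHom (hc : commutator P ≤ Subgroup.center P)
    (θ : Subgroup.center P →* Multiplicative (ZMod p)) :
    P →* Multiplicative (Module.Dual (ZMod p) (Additive (Abelianization P))) where
  toFun a := Multiplicative.ofAdd (pairD hc θ a)
  map_one' := by
    apply congrArg Multiplicative.ofAdd
    apply LinearMap.ext
    intro v
    obtain ⟨b, rfl⟩ := ab_surj v
    rw [pairD_apply, pairHom_one_left, map_one]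
    rfl
  map_mul' a a' := by
    rw [← ofAdd_add]
    apply congrArg Multiplicative.ofAdd
    apply LinearMap.ext
    intro v
    obtain ⟨b, rfl⟩ := ab_surj v
    rw [LinearMap.add_apply, pairD_apply, pairD_apply, pairD_apply, pairHom_mul_left, map_mul]
    rfl

/-- The commutator pairing as a linear map into the dual. -/
noncomputable def pairB (hc : commutator P ≤ Subgroup.center P)
    (θ : Subgroup.center P →* Multiplicative (ZMod p)) :
    Additive (Abelianization P) →ₗ[ZMod p] Module.Dual (ZMod p) (Additive (Abelianization P)) :=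
  (MonoidHom.toAdditiveLeft (Abelianization.lift (pairDHom hc θ))).toZModLinearMap p

theorem pairB_apply (hc : commutator P ≤ Subgroup.center P)
    (θ : Subgroup.center P →* Multiplicative (ZMod p)) (a b : P) :
    pairB hc θ (Additive.ofMul (Abelianization.of a)) (Additive.ofMul (Abelianization.of b)) =
      Multiplicative.toAdd (θ (pairHom hc a b)) := rfl

end GrpPair

theorem cyc_group {P : Type*} [Group P] [Finite P] {p : ℕ} [Fact p.Prime]
    [Module (ZMod p) (Additive (Abelianization P))]
    (hcomm : commutator P = Subgroup.center P) (hZ : Nat.card (Subgroup.center P) = p)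
    (n h : ℕ) (hn : Nat.card P = p ^ (2 * n + 1)) (f g : P →* P)
    (hfg : ∀ a, f (g a) = a) (hfh : ∀ a, f^[h] a = a)
    (hfree : ∀ k, 0 < k → k < h → ∀ a, (f^[k] a) * a⁻¹ ∈ Subgroup.center P →
      a ∈ Subgroup.center P)
    (hz : ∀ z ∈ Subgroup.center P, f z = z) (hcop : p.Coprime h) (h3 : 2 < h) :
    h ∣ p ^ n + 1 ∨ h ∣ p ^ n - 1 := by
  have hc : commutator P ≤ Subgroup.center P := hcomm.le
  obtain ⟨θ⟩ := exists_mulEquiv_zmod hZ
  let φ : Module.End (ZMod p) (Additive (Abelianization P)) :=
    (MonoidHom.toAdditive (Abelianization.map f)).toZModLinearMap p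
  let ψ : Module.End (ZMod p) (Additive (Abelianization P)) :=
    (MonoidHom.toAdditive (Abelianization.map g)).toZModLinearMap p
  have hφ : ∀ a, φ (Additive.ofMul (Abelianization.of a)) =
      Additive.ofMul (Abelianization.of (f a)) := fun a => rfl
  have hψ : ∀ a, ψ (Additive.ofMul (Abelianization.of a)) =
      Additive.ofMul (Abelianization.of (g a)) := fun a => rfl
  have hφψ : φ * ψ = 1 := by
    apply LinearMap.ext
    intro v
    obtain ⟨a, rfl⟩ := ab_surj v
    rw [Module.End.mul_apply, hψ, hφ, hfg]; rfl
  have hpow : ∀ k a, (φ ^ k) (Additive.ofMul (Abelianization.of a)) =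
      Additive.ofMul (Abelianization.of (f^[k] a)) := by
    intro k
    induction k with
    | zero => intro a; rfl
    | succ k ih =>
      intro a
      rw [pow_succ, Module.End.mul_apply, hφ, ih, Function.iterate_succ_apply]
  have hh : φ ^ h = 1 := by
    apply LinearMap.ext
    intro v
    obtain ⟨a, rfl⟩ := ab_surj v
    rw [hpow, hfh]; rfl
  have hker : ∀ a : P, Abelianization.of a = 1 ↔ a ∈ Subgroup.center P := by
    intro a
    rw [← hcomm, ← Abelianization.ker_of, MonoidHom.mem_ker]
  have hfree' : ∀ k, 0 < k → k < h → ∀ v, (φ ^ k) v = v → v = 0 := by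
    intro k hk0 hk v hv
    obtain ⟨a, rfl⟩ := ab_surj v
    rw [hpow] at hv
    have h1 : Abelianization.of (f^[k] a) = Abelianization.of a := Additive.ofMul.injective hv
    have h2 : Abelianization.of (f^[k] a * a⁻¹) = 1 := by
      rw [map_mul, map_inv, h1, mul_inv_cancel]
    have h3 := hfree k hk0 hk a ((hker _).mp h2)
    have h4 := (hker a).mpr h3
    rw [h4]; rfl
  have hV : Module.finrank (ZMod p) (Additive (Abelianization P)) = 2 * n := by
    have hidx : (commutator P).index = Nat.card (Abelianization P) := Subgroup.index_eq_card _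
    have hcc : Nat.card (commutator P) = p := by rw [hcomm]; exact hZ
    have h1 := Subgroup.index_mul_card (commutator P)
    rw [hidx, hcc, hn, pow_succ] at h1
    have h2 : Nat.card (Abelianization P) = p ^ (2 * n) :=
      Nat.eq_of_mul_eq_mul_right (Fact.out : p.Prime).pos h1
    have h3 := Module.natCard_eq_pow_finrank (K := ZMod p) (V := Additive (Abelianization P))
    have h4 : Nat.card (Additive (Abelianization P)) = Nat.card (Abelianization P) := rfl
    rw [h4, h2, Nat.card_zmod] at h3
    exact (Nat.pow_right_injective (Fact.out : p.Prime).two_le h3).symm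
  have hBinj : Function.Injective (pairB hc θ.toMonoidHom) := by
    rw [← LinearMap.ker_eq_bot, LinearMap.ker_eq_bot']
    intro v hv
    obtain ⟨a, rfl⟩ := ab_surj v
    have h1 : a ∈ Subgroup.center P := by
      rw [Subgroup.mem_center_iff]
      intro b
      have h2 := congrArg (fun d => d (Additive.ofMul (Abelianization.of b))) hv
      simp only [pairB_apply, LinearMap.zero_apply] at h2
      have h3 : pairHom hc a b = 1 := by
        apply θ.injective
        rw [map_one]
        exact Multiplicative.toAdd.injective h2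
      have h4 : ⁅a, b⁆ = 1 := congrArg Subtype.val h3
      rw [commutatorElement_eq_one_iff_commute] at h4
      exact h4.eq.symm
    rw [(hker a).mpr h1]; rfl
  have hBinv : ∀ u v, pairB hc θ.toMonoidHom (φ u) v = pairB hc θ.toMonoidHom u (ψ v) := by
    intro u v
    obtain ⟨a, rfl⟩ := ab_surj u
    obtain ⟨b, rfl⟩ := ab_surj v
    rw [hφ, hψ, pairB_apply, pairB_apply]
    congr 2
    apply Subtype.ext
    show ⁅f a, b⁆ = ⁅a, g b⁆
    have h1 : ⁅f a, b⁆ = f ⁅a, g b⁆ := by rw [map_commutatorElement, hfg]
    rw [h1]
    exact hz _ (hc (Subgroup.commutator_mem_commutator (Subgroup.mem_top a)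
      (Subgroup.mem_top (g b))))
  have hdual := charpoly_eq_of_pairing φ ψ (pairB hc θ.toMonoidHom) hBinj hBinv
  exact cyc_linear n h hV φ ψ hφψ hh hfree' hdual hcop h3

end Cfsg.Agent.Helper70
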