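import Mathlib
import Cfsg.Prelude.Def_Characters
import Cfsg.Agent.Helper76.BlichC
import Cfsg.Agent.Helper79.Basic

/-!
# Helper70: PIECE ABEL of CALL S0899 (helper9)

A faithful character of degree `< p` forces abelian Sylow `p`-subgroups (Blichfeldt).
-/

set_option autoImplicit false

namespace Cfsg.Agent.Helper70

open Cfsg

universe u

variable {G : Type u} [Group G] [Finite G] {p : ℕ} [Fact p.Prime]

/-- ABEL: a faithful character of degree `< p` forces abelian Sylow `p`-subgroups
(use `Helper76.blich_pgroup_abelian`, as in `Helper76/ItoE.lean` lines 82-92). -/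
theorem ftb_ABEL (χ : G → ℂ) (hχ : IsCharacter G χ) (hfaith : ∀ g : G, χ g = χ 1 → g = 1)
    (hdeg : charDegree χ < p) (P : Sylow p G) :
    ∀ a ∈ (P : Subgroup G), ∀ b ∈ (P : Subgroup G), a * b = b * a := by
  have hp : p.Prime := Fact.out
  have hPab : ∀ a b : (P : Subgroup G), a * b = b * a := by
    apply Cfsg.Agent.Helper76.blich_pgroup_abelian p hp P.isPGroup'
      (fun y : (P : Subgroup G) => χ y) (Cfsg.Agent.Helper79.isCharacter_restrict hχ P)
    · intro g hg
      exact Subtype.ext (hfaith _ hg)
    · show charDegree χ < p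
      exact hdeg
  intro a ha b hb
  exact congrArg Subtype.val (hPab ⟨a, ha⟩ ⟨b, hb⟩)

end Cfsg.Agent.Helper70
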