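import Mathlib
import Cfsg.Prelude.Def_Characters
import Cfsg.Prelude.Def_Blocks
import Cfsg.Agent.Helper15.BergerTools
import Cfsg.Agent.Helper79.Basic

/-!
# Helper70: PIECE LIN of CALL S0899 (helper9)

A faithful character all of whose irreducible constituents are linear forces the group to be
abelian.
-/

set_option autoImplicit false
set_option linter.style.haveILetI false

namespace Cfsg.Agent.Helper70

open Cfsg

universe u

variable {G : Type u} [Group G] [Finite G] {p : ℕ} [Fact p.Prime]

/-- LIN: a faithful character all of whose irreducible constituents are linear forces the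
group to be abelian (as in `Cfsg/Agent/S0185.lean`, with `Helper15.char_decomp`). -/
theorem ftb_LIN [Fintype G] (χ : G → ℂ) (hχ : IsCharacter G χ)
    (hfaith : ∀ g : G, χ g = χ 1 → g = 1)
    (hlin : ∀ ψ : G → ℂ, IsIrrCharacter G ψ → classInner χ ψ ≠ 0 → ψ 1 = 1) :
    ∀ a b : G, a * b = b * a := by
  classical
  letI := Fintype.ofFinite (IrrCharacter G)
  obtain ⟨m, hm, hdec⟩ := Cfsg.Agent.Helper15.char_decomp χ hχ
  intro a b
  have hval : ∀ g : G, χ g = ∑ φ : IrrCharacter G, (m φ : ℂ) * (φ : G → ℂ) g := by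
    intro g
    have h1 := congrFun hdec g
    rw [h1]
    simp [Finset.sum_apply]
  have hcomm : χ (a * b * a⁻¹ * b⁻¹) = χ 1 := by
    rw [hval, hval]
    apply Finset.sum_congr rfl
    intro φ _
    by_cases hφ : m φ = 0
    · simp [hφ]
    · have h2 : (φ : G → ℂ) 1 = 1 := by
        apply hlin _ φ.2
        rw [hm φ]
        exact_mod_cast hφ
      obtain ⟨n, σ, hσ, hσχ⟩ := φ.2
      obtain ⟨f, hf⟩ := Cfsg.Agent.Helper79.isCharacter_linear (G := G) (χ := (φ : G → ℂ))
        ⟨n, σ, hσχ⟩ h2
      congr 1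
      rw [hf, hf]
      have h3 : f (a * b * a⁻¹ * b⁻¹) = f 1 := by
        rw [map_mul, map_mul, map_mul, map_inv, map_inv, map_one]
        rw [mul_comm (f a) (f b)]
        simp
      rw [h3]
  have h2 : a * b * a⁻¹ * b⁻¹ = 1 := hfaith _ hcomm
  calc a * b = (a * b * a⁻¹ * b⁻¹) * (b * a) := by group
    _ = b * a := by rw [h2, one_mul]

end Cfsg.Agent.Helper70
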