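import Cfsg.Agent.Helper70.FrobLinC

/-!
# Base change: the linear theory of Frobenius-type actions over an arbitrary field (helper70)

`frob_linear_field`: the statements of `frob_linear` over any field whose characteristic does
not divide `|G|`.
-/

set_option autoImplicit false

namespace Cfsg.Agent.Helper70

open Module TensorProduct

noncomputable section

section Compl

variable {K : Type*} [Field K] {V : Type*} [AddCommGroup V] [Module K V] [FiniteDimensional K V]

theorem finrank_range_add_compl {P : V →ₗ[K] V} (hP : P * P = P) :
    finrank K (LinearMap.range P) + finrank K (LinearMap.range (1 - P)) = finrank K V := by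
  have h := finrank_range_add_of_orthogonal hP (B := 1 - P)
    (by rw [sub_mul, one_mul, mul_sub, mul_one, hP, sub_self, sub_zero])
    (by rw [mul_sub, mul_one, hP, sub_self]) (by rw [sub_mul, one_mul, hP, sub_self])
  rw [← h, add_sub_cancel, Module.End.one_eq_id, LinearMap.range_id, finrank_top]

end Compl

section BC

variable {F : Type*} [Field F] (k : Type*) [Field k] [Algebra F k] {W : Type*} [AddCommGroup W]
  [Module F W] {G : Type*} [Group G]

/-- Base change of a representation. -/
def bcRep (σ : Representation F G W) : Representation k G (k ⊗[F] W) where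
  toFun g := (σ g).baseChange k
  map_one' := by
    rw [map_one]
    exact LinearMap.baseChange_one F W
  map_mul' g h := by
    rw [map_mul]
    exact LinearMap.baseChange_mul _ _

theorem bcRep_apply (σ : Representation F G W) (g : G) :
    bcRep k σ g = (σ g).baseChange k := rfl

theorem avgOp_bcRep (σ : Representation F G W) (B : Subgroup G) [Finite B] :
    avgOp (bcRep k σ) B = (avgOp σ B).baseChange k := by
  let _ := Fintype.ofFinite B
  rw [avgOp_eq, avgOp_eq, LinearMap.baseChange_smul]
  have h1 : (∑ b : ↥B, σ (b : G)).baseChange k = ∑ b : ↥B, (σ (b : G)).baseChange k :=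
    map_sum (LinearMap.baseChangeHom F k W W) _ _
  rw [h1, ← algebraMap_smul k ((Nat.card B : F)⁻¹), map_inv₀, map_natCast]
  rfl

theorem finrank_range_baseChange_le [FiniteDimensional F W] (f : W →ₗ[F] W) :
    finrank k (LinearMap.range (f.baseChange k)) ≤ finrank F (LinearMap.range f) := by
  have h1 : f = (LinearMap.range f).subtype ∘ₗ f.rangeRestrict := by
    ext w
    rfl
  have h2 : f.baseChange k =
      ((LinearMap.range f).subtype.baseChange k) ∘ₗ (f.rangeRestrict.baseChange k) := by
    rw [← LinearMap.baseChange_comp, ← h1]
  have h3 : LinearMap.range (f.baseChange k) ≤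
      LinearMap.range ((LinearMap.range f).subtype.baseChange k) := by
    rw [h2]
    exact LinearMap.range_comp_le_range _ _
  calc finrank k (LinearMap.range (f.baseChange k))
      ≤ finrank k (LinearMap.range ((LinearMap.range f).subtype.baseChange k)) :=
        Submodule.finrank_mono h3
    _ ≤ finrank k (k ⊗[F] ↥(LinearMap.range f)) := LinearMap.finrank_range_le _
    _ = finrank F (LinearMap.range f) := Module.finrank_baseChange

theorem finrank_range_baseChange_of_idem [FiniteDimensional F W] {P : W →ₗ[F] W}
    (hP : P * P = P) :
    finrank k (LinearMap.range (P.baseChange k)) = finrank F (LinearMap.range P) := by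
  have e1 := finrank_range_add_compl hP
  have hPk : P.baseChange k * P.baseChange k = P.baseChange k := by
    rw [← LinearMap.baseChange_mul, hP]
  have e2 := finrank_range_add_compl hPk
  have e3 : (1 : Module.End k (k ⊗[F] W)) - P.baseChange k = (1 - P).baseChange k := by
    rw [LinearMap.baseChange_sub, LinearMap.baseChange_one]
  have e4 := finrank_range_baseChange_le k P
  have e5 := finrank_range_baseChange_le k (1 - P)
  have e6 : finrank k (k ⊗[F] W) = finrank F W := Module.finrank_baseChange
  rw [e3] at e2
  omega

theorem finrank_invOf_bcRep [FiniteDimensional F W] (σ : Representation F G W) (B : Subgroup G)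
    [Finite B] (hB : (Nat.card B : F) ≠ 0) :
    finrank k (invOf (bcRep k σ) B) = finrank F (invOf σ B) := by
  have hBk : (Nat.card B : k) ≠ 0 := by
    rw [← map_natCast (algebraMap F k)]
    exact (map_ne_zero _).mpr hB
  rw [← range_avgOp _ B hBk, avgOp_bcRep, finrank_range_baseChange_of_idem k (avgOp_mul_self σ B hB),
    range_avgOp σ B hB]

end BC

section Field

variable {F : Type*} [Field F] {W : Type*} [AddCommGroup W] [Module F W] [FiniteDimensional F W]
  {G : Type*} [Group G] [Finite G]

/-- **Linear theory of Frobenius-type actions** over any field of characteristic not dividing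
`|G|`: `U ⊴ G` nilpotent, `E ≤ G` with `C_U(e) = 1` for all `e ∈ E`, `e ≠ 1`. -/
theorem frob_linear_field (σ : Representation F G W) (hG : (Nat.card G : F) ≠ 0) (U E : Subgroup G)
    [hUn : U.Normal] [hnil : Group.IsNilpotent U]
    (hfpf : ∀ e ∈ E, e ≠ 1 → ∀ u ∈ U, e * u = u * e → u = 1) :
    (finrank F W + Nat.card E * finrank F (invOf σ (U ⊔ E)) =
      finrank F (invOf σ U) + Nat.card E * finrank F (invOf σ E)) ∧
    (finrank F (invOf σ E) ≤ finrank F (invOf σ (U ⊔ E)) + 1 →
      ∀ u ∈ U, ∀ u' ∈ U, σ u * σ u' = σ u' * σ u) := by
  have hGk : (Nat.card G : AlgebraicClosure F) ≠ 0 := by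
    rw [← map_natCast (algebraMap F (AlgebraicClosure F))]
    exact (map_ne_zero _).mpr hG
  have hB : ∀ B : Subgroup G, finrank (AlgebraicClosure F) (invOf (bcRep (AlgebraicClosure F) σ) B) =
      finrank F (invOf σ B) :=
    fun B => finrank_invOf_bcRep (AlgebraicClosure F) σ B (card_subgroup_ne_zero hG B)
  obtain ⟨h1, h2⟩ := frob_linear (bcRep (AlgebraicClosure F) σ) hGk U E hfpf
  rw [← invOf_sup, hB, hB, hB, Module.finrank_baseChange] at h1
  rw [← invOf_sup, hB, hB] at h2
  refine ⟨h1, fun hle u hu u' hu' => ?_⟩
  have h3 := h2 hle u hu u' hu'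
  rw [bcRep_apply, bcRep_apply, ← LinearMap.baseChange_mul, ← LinearMap.baseChange_mul] at h3
  exact LinearMap.baseChangeHom_injective (R := F) (S := AlgebraicClosure F) (M := W) (N := W) h3

end Field

end

end Cfsg.Agent.Helper70
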