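import Mathlib

/-!
# Linear algebra lemmas for Frobenius groups acting on vector spaces (helper70)

* `invOf ρ B`: the subspace of vectors fixed by a subgroup `B`;
* `avgOp ρ B`: the averaging operator, a projection onto `invOf ρ B`;
* ranks of sums of orthogonal idempotents;
* `finrank_fixed_of_orthogonal`: if `Q` is an idempotent with `Q τ(e) Q = 0` for `e ≠ 1`, then
  `R = ∑ₑ τ(e) Q τ(e)⁻¹` has rank `|E| · rank Q`, and the `E`-fixed vectors in the range of `R`
  form a space of dimension `rank Q`;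
* `exists_transversal`: transversals for free actions.
-/

set_option autoImplicit false

namespace Cfsg.Agent.Helper70

open Module

noncomputable section

section Inv

variable {k : Type*} [Field k] {V : Type*} [AddCommGroup V] [Module k V] {G : Type*} [Group G]

/-- The subspace of vectors fixed by the subgroup `B`. -/
def invOf (ρ : Representation k G V) (B : Subgroup G) : Submodule k V where
  carrier := {v | ∀ b ∈ B, ρ b v = v}
  add_mem' := by
    intro a b ha hb g hg
    rw [map_add, ha g hg, hb g hg]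
  zero_mem' := by
    intro g _
    exact map_zero _
  smul_mem' := by
    intro c v hv g hg
    rw [map_smul, hv g hg]

theorem mem_invOf {ρ : Representation k G V} {B : Subgroup G} {v : V} :
    v ∈ invOf ρ B ↔ ∀ b ∈ B, ρ b v = v := Iff.rfl

theorem invOf_bot (ρ : Representation k G V) : invOf ρ ⊥ = ⊤ := by
  ext v
  simp only [mem_invOf, Subgroup.mem_bot, Submodule.mem_top, iff_true]
  intro b hb
  rw [hb, map_one, Module.End.one_apply]

theorem rho_inv_apply_of_fixed (ρ : Representation k G V) {g : G} {v : V} (h : ρ g v = v) :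
    ρ g⁻¹ v = v := by
  calc ρ g⁻¹ v = ρ g⁻¹ (ρ g v) := by rw [h]
    _ = (ρ g⁻¹ * ρ g) v := rfl
    _ = v := by rw [← map_mul, inv_mul_cancel, map_one, Module.End.one_apply]

theorem invOf_sup (ρ : Representation k G V) (A B : Subgroup G) :
    invOf ρ (A ⊔ B) = invOf ρ A ⊓ invOf ρ B := by
  ext v
  constructor
  · intro h
    exact ⟨fun a ha => h a (Subgroup.mem_sup_left ha), fun b hb => h b (Subgroup.mem_sup_right hb)⟩
  · rintro ⟨hA, hB⟩ g hg
    let S : Subgroup G :=
      { carrier := {g | ρ g v = v}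
        mul_mem' := by
          intro a b ha hb
          show ρ (a * b) v = v
          rw [map_mul, Module.End.mul_apply, hb, ha]
        one_mem' := by
          show ρ 1 v = v
          rw [map_one, Module.End.one_apply]
        inv_mem' := by
          intro a ha
          exact rho_inv_apply_of_fixed ρ ha }
    have hle : A ⊔ B ≤ S := sup_le hA hB
    exact hle hg

theorem invOf_anti (ρ : Representation k G V) {A B : Subgroup G} (h : A ≤ B) :
    invOf ρ B ≤ invOf ρ A := fun _ hv a ha => hv a (h ha)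

/-- The averaging operator over the subgroup `B`. -/
def avgOp (ρ : Representation k G V) (B : Subgroup G) [Finite B] : V →ₗ[k] V :=
  letI := Fintype.ofFinite B
  (Nat.card B : k)⁻¹ • ∑ b : ↥B, ρ (b : G)

theorem avgOp_eq (ρ : Representation k G V) (B : Subgroup G) [Fintype B] :
    avgOp ρ B = (Nat.card B : k)⁻¹ • ∑ b : ↥B, ρ (b : G) := by
  unfold avgOp
  congr 1
  exact @Fintype.sum_equiv ↥B ↥B _ (Fintype.ofFinite ↥B) _ _ (Equiv.refl _) (fun b => ρ (b : G))
    (fun b => ρ (b : G)) (fun _ => rfl)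

theorem rho_mul_sum (ρ : Representation k G V) (B : Subgroup G) [Fintype B] {b : G}
    (hb : b ∈ B) : ρ b * ∑ x : ↥B, ρ (x : G) = ∑ x : ↥B, ρ (x : G) := by
  rw [Finset.mul_sum]
  refine Fintype.sum_equiv (Equiv.mulLeft (⟨b, hb⟩ : B)) _ _ (fun x => ?_)
  simp [map_mul]

theorem sum_mul_rho (ρ : Representation k G V) (B : Subgroup G) [Fintype B] {b : G}
    (hb : b ∈ B) : (∑ x : ↥B, ρ (x : G)) * ρ b = ∑ x : ↥B, ρ (x : G) := by
  rw [Finset.sum_mul]
  refine Fintype.sum_equiv (Equiv.mulRight (⟨b, hb⟩ : B)) _ _ (fun x => ?_)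
  simp [map_mul]

theorem rho_mul_avgOp (ρ : Representation k G V) (B : Subgroup G) [Finite B] {b : G}
    (hb : b ∈ B) : ρ b * avgOp ρ B = avgOp ρ B := by
  let _ := Fintype.ofFinite B
  rw [avgOp_eq, mul_smul_comm, rho_mul_sum ρ B hb]

theorem avgOp_mul_rho (ρ : Representation k G V) (B : Subgroup G) [Finite B] {b : G}
    (hb : b ∈ B) : avgOp ρ B * ρ b = avgOp ρ B := by
  let _ := Fintype.ofFinite B
  rw [avgOp_eq, smul_mul_assoc, sum_mul_rho ρ B hb]

theorem avgOp_apply_of_mem (ρ : Representation k G V) (B : Subgroup G) [Finite B]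
    (hB : (Nat.card B : k) ≠ 0) {v : V} (hv : v ∈ invOf ρ B) : avgOp ρ B v = v := by
  let _ := Fintype.ofFinite B
  rw [avgOp_eq, LinearMap.smul_apply, LinearMap.sum_apply]
  rw [Finset.sum_congr rfl (fun (x : ↥B) _ => hv x.1 x.2), Finset.sum_const, Finset.card_univ,
    ← Nat.card_eq_fintype_card, ← Nat.cast_smul_eq_nsmul k, smul_smul, inv_mul_cancel₀ hB, one_smul]

theorem range_avgOp (ρ : Representation k G V) (B : Subgroup G) [Finite B]
    (hB : (Nat.card B : k) ≠ 0) : LinearMap.range (avgOp ρ B) = invOf ρ B := by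
  ext v
  constructor
  · rintro ⟨w, rfl⟩ b hb
    have := rho_mul_avgOp ρ B hb
    calc ρ b (avgOp ρ B w) = (ρ b * avgOp ρ B) w := rfl
      _ = avgOp ρ B w := by rw [this]
  · intro hv
    exact ⟨v, avgOp_apply_of_mem ρ B hB hv⟩

theorem avgOp_mul_self (ρ : Representation k G V) (B : Subgroup G) [Finite B]
    (hB : (Nat.card B : k) ≠ 0) : avgOp ρ B * avgOp ρ B = avgOp ρ B := by
  ext v
  rw [Module.End.mul_apply]
  apply avgOp_apply_of_mem ρ B hB
  rw [← range_avgOp ρ B hB]
  exact LinearMap.mem_range_self _ _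

theorem avgOp_bot (ρ : Representation k G V) : avgOp ρ (⊥ : Subgroup G) = 1 := by
  ext v
  rw [Module.End.one_apply]
  apply avgOp_apply_of_mem
  · rw [Subgroup.card_bot, Nat.cast_one]
    exact one_ne_zero
  · rw [invOf_bot]
    exact Submodule.mem_top

/-- For a normal subgroup `B`, the averaging operator commutes with the representation. -/
theorem rho_mul_avgOp_comm (ρ : Representation k G V) (B : Subgroup G) [Finite B] [hB : B.Normal]
    (g : G) : ρ g * avgOp ρ B = avgOp ρ B * ρ g := by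
  let _ := Fintype.ofFinite B
  rw [avgOp_eq, mul_smul_comm, smul_mul_assoc, Finset.mul_sum, Finset.sum_mul]
  congr 1
  refine Fintype.sum_equiv (MulAut.conjNormal g : MulAut B).toEquiv _ _ (fun x => ?_)
  rw [← map_mul, ← map_mul]
  congr 1
  simp

theorem card_subgroup_ne_zero [Finite G] (hG : (Nat.card G : k) ≠ 0) (B : Subgroup G) :
    (Nat.card B : k) ≠ 0 := by
  intro h
  apply hG
  rw [← Subgroup.card_mul_index B, Nat.cast_mul, h, zero_mul]

end Inv

section Orth

variable {k : Type*} [Field k] {V : Type*} [AddCommGroup V] [Module k V] [FiniteDimensional k V]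

theorem finrank_range_add_of_orthogonal {A B : V →ₗ[k] V} (hA : A * A = A) (hB : B * B = B)
    (hAB : A * B = 0) (hBA : B * A = 0) :
    finrank k (LinearMap.range (A + B)) =
      finrank k (LinearMap.range A) + finrank k (LinearMap.range B) := by
  have hAA : ∀ v, A (A v) = A v := fun v => by
    have := congrArg (fun f : V →ₗ[k] V => f v) hA
    simpa using this
  have hBB : ∀ v, B (B v) = B v := fun v => by
    have := congrArg (fun f : V →ₗ[k] V => f v) hB
    simpa using this
  have hAB' : ∀ v, A (B v) = 0 := fun v => by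
    have := congrArg (fun f : V →ₗ[k] V => f v) hAB
    simpa using this
  have hBA' : ∀ v, B (A v) = 0 := fun v => by
    have := congrArg (fun f : V →ₗ[k] V => f v) hBA
    simpa using this
  have hsup : LinearMap.range (A + B) = LinearMap.range A ⊔ LinearMap.range B := by
    apply le_antisymm
    · rintro _ ⟨v, rfl⟩
      rw [LinearMap.add_apply]
      exact Submodule.add_mem_sup (LinearMap.mem_range_self A v) (LinearMap.mem_range_self B v)
    · apply sup_le
      · rintro _ ⟨v, rfl⟩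
        refine ⟨A v, ?_⟩
        rw [LinearMap.add_apply, hAA, hBA', add_zero]
      · rintro _ ⟨v, rfl⟩
        refine ⟨B v, ?_⟩
        rw [LinearMap.add_apply, hBB, hAB', zero_add]
  have hinf : LinearMap.range A ⊓ LinearMap.range B = ⊥ := by
    rw [eq_bot_iff]
    rintro x ⟨⟨u, rfl⟩, ⟨w, hw⟩⟩
    have : A u = 0 := by
      calc A u = A (A u) := (hAA u).symm
        _ = A (B w) := by rw [hw]
        _ = 0 := hAB' w
    rw [this]
    exact Submodule.zero_mem _
  have := Submodule.finrank_sup_add_finrank_inf_eq (LinearMap.range A) (LinearMap.range B)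
  rw [hinf, finrank_bot, add_zero] at this
  rw [hsup, this]

omit [FiniteDimensional k V] in
theorem sum_mul_sum_of_orthogonal {ι : Type*} [DecidableEq ι] (p : ι → (V →ₗ[k] V))
    (hp : ∀ i j, p i * p j = if i = j then p i else 0) (s t : Finset ι) :
    (∑ i ∈ s, p i) * (∑ j ∈ t, p j) = ∑ i ∈ s ∩ t, p i := by
  rw [Finset.sum_mul]
  simp_rw [Finset.mul_sum, hp]
  rw [← Finset.sum_filter_add_sum_filter_not s (· ∈ t)]
  have h1 : ∑ i ∈ s with i ∈ t, ∑ j ∈ t, (if i = j then p i else 0) = ∑ i ∈ s ∩ t, p i := by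
    rw [Finset.filter_mem_eq_inter]
    refine Finset.sum_congr rfl (fun i hi => ?_)
    rw [Finset.sum_ite_eq]
    simp [(Finset.mem_inter.mp hi).2]
  have h2 : ∑ i ∈ s with i ∉ t, ∑ j ∈ t, (if i = j then p i else 0) = 0 := by
    refine Finset.sum_eq_zero (fun i hi => ?_)
    rw [Finset.sum_ite_eq]
    simp [(Finset.mem_filter.mp hi).2]
  rw [h1, h2, add_zero]

theorem finrank_range_sum_of_orthogonal {ι : Type*} [DecidableEq ι] (p : ι → (V →ₗ[k] V))
    (hp : ∀ i j, p i * p j = if i = j then p i else 0) (s : Finset ι) :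
    finrank k (LinearMap.range (∑ i ∈ s, p i)) = ∑ i ∈ s, finrank k (LinearMap.range (p i)) := by
  induction s using Finset.induction_on with
  | empty =>
    rw [Finset.sum_empty, Finset.sum_empty, LinearMap.range_zero, finrank_bot]
  | insert a s ha ih =>
    rw [Finset.sum_insert ha, Finset.sum_insert ha, ← ih]
    apply finrank_range_add_of_orthogonal
    · simpa using hp a a
    · have := sum_mul_sum_of_orthogonal p hp s s
      rwa [Finset.inter_self] at this
    · have := sum_mul_sum_of_orthogonal p hp {a} s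
      rw [Finset.sum_singleton] at this
      rw [this, Finset.singleton_inter_of_notMem ha, Finset.sum_empty]
    · have := sum_mul_sum_of_orthogonal p hp s {a}
      rw [Finset.sum_singleton] at this
      rw [this, Finset.inter_singleton_of_notMem ha, Finset.sum_empty]

end Orth

section QE

variable {k : Type*} [Field k] {V : Type*} [AddCommGroup V] [Module k V] [FiniteDimensional k V]
  {G : Type*} [Group G]

theorem finrank_range_mul_le (A P B : V →ₗ[k] V) :
    finrank k (LinearMap.range (A * P * B)) ≤ finrank k (LinearMap.range P) := by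
  have h : LinearMap.range (A * P * B) ≤ (LinearMap.range P).map A := by
    rintro _ ⟨v, rfl⟩
    exact ⟨P (B v), LinearMap.mem_range_self P _, rfl⟩
  exact (Submodule.finrank_mono h).trans (Submodule.finrank_map_le A _)

theorem finrank_range_conj (ρ : Representation k G V) (g : G) (P : V →ₗ[k] V) :
    finrank k (LinearMap.range (ρ g * P * ρ g⁻¹)) = finrank k (LinearMap.range P) := by
  apply le_antisymm (finrank_range_mul_le _ _ _)
  have := finrank_range_mul_le (ρ g⁻¹) (ρ g * P * ρ g⁻¹) (ρ g)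
  have h2 : ρ g⁻¹ * (ρ g * P * ρ g⁻¹) * ρ g = P := by
    rw [← mul_assoc, ← mul_assoc, ← map_mul, inv_mul_cancel, map_one, one_mul, mul_assoc, ← map_mul,
      inv_mul_cancel, map_one, mul_one]
  rwa [h2] at this

omit [FiniteDimensional k V] in
theorem range_mul_of_commute {A B : V →ₗ[k] V} (hA : A * A = A) (hB : B * B = B)
    (hAB : A * B = B * A) : LinearMap.range (A * B) = LinearMap.range A ⊓ LinearMap.range B := by
  ext v
  constructor
  · rintro ⟨w, rfl⟩
    refine ⟨⟨B w, rfl⟩, ⟨A w, ?_⟩⟩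
    rw [← Module.End.mul_apply, ← hAB]
  · rintro ⟨⟨a, rfl⟩, ⟨b, hb⟩⟩
    refine ⟨A a, ?_⟩
    have h1 : B (A a) = A a := by
      rw [← hb, ← Module.End.mul_apply, hB]
    rw [Module.End.mul_apply, h1, ← Module.End.mul_apply, hA]

/-- If `Q₀` is an idempotent with `Q₀ ρ(e) Q₀ = 0` for `e ∈ E`, `e ≠ 1`, then the sum `R` of the
`E`-conjugates of `Q₀` has rank `|E| · rank Q₀`, and the `E`-fixed vectors in the range of `R`
form a space of dimension `rank Q₀`. -/
theorem finrank_fixed_of_orthogonal (ρ : Representation k G V) (E : Subgroup G) [Fintype E]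
    (Q₀ : V →ₗ[k] V) (hQ : Q₀ * Q₀ = Q₀) (horth : ∀ e ∈ E, e ≠ 1 → Q₀ * ρ e * Q₀ = 0) :
    finrank k (LinearMap.range (∑ e : ↥E, ρ (e : G) * Q₀ * ρ (e : G)⁻¹)) =
        Nat.card E * finrank k (LinearMap.range Q₀) ∧
      finrank k ↥(LinearMap.range (∑ e : ↥E, ρ (e : G) * Q₀ * ρ (e : G)⁻¹) ⊓ invOf ρ E) =
        finrank k (LinearMap.range Q₀) := by
  classical
  set p : ↥E → (V →ₗ[k] V) := fun e => ρ (e : G) * Q₀ * ρ (e : G)⁻¹ with hp_def
  have hp : ∀ e f : ↥E, p e * p f = if e = f then p e else 0 := by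
    intro e f
    have key : p e * p f = ρ (e : G) * (Q₀ * ρ ((e : G)⁻¹ * (f : G)) * Q₀) * ρ (f : G)⁻¹ := by
      simp only [hp_def, map_mul, mul_assoc]
    rw [key]
    split_ifs with h
    · subst h
      rw [inv_mul_cancel, map_one, mul_one, hQ]
    · have hne : (e : G)⁻¹ * (f : G) ≠ 1 := by
        intro h1
        exact h (Subtype.ext (inv_mul_eq_one.mp h1))
      rw [horth _ (E.mul_mem (E.inv_mem e.2) f.2) hne, mul_zero, zero_mul]
  set R := ∑ e : ↥E, p e with hR_def
  have hRR : R * R = R := by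
    have := sum_mul_sum_of_orthogonal p hp Finset.univ Finset.univ
    rwa [Finset.inter_self] at this
  have hRp : ∀ e, R * p e = p e := by
    intro e
    have := sum_mul_sum_of_orthogonal p hp Finset.univ {e}
    rwa [Finset.sum_singleton, Finset.univ_inter, Finset.sum_singleton] at this
  have hrank : ∀ e : ↥E, finrank k (LinearMap.range (p e)) = finrank k (LinearMap.range Q₀) :=
    fun e => finrank_range_conj ρ (e : G) Q₀
  constructor
  · rw [hR_def, finrank_range_sum_of_orthogonal p hp Finset.univ,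
      Finset.sum_congr rfl (fun e _ => hrank e), Finset.sum_const, Finset.card_univ, smul_eq_mul,
      Nat.card_eq_fintype_card]
  · set S := ∑ e : ↥E, ρ (e : G) with hS_def
    have hSQ : S * Q₀ = ∑ e : ↥E, ρ (e : G) * Q₀ := by rw [hS_def, Finset.sum_mul]
    have hQSQ : Q₀ * (S * Q₀) = Q₀ := by
      rw [hSQ, Finset.mul_sum, Finset.sum_eq_single (1 : ↥E)]
      · rw [OneMemClass.coe_one, map_one, one_mul, hQ]
      · intro e _ he
        rw [← mul_assoc]
        exact horth e e.2 (fun h => he (Subtype.ext h))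
      · intro h
        exact absurd (Finset.mem_univ _) h
    have hRSQ : R * (S * Q₀) = S * Q₀ := by
      rw [hSQ, Finset.mul_sum]
      refine Finset.sum_congr rfl (fun e _ => ?_)
      have h1 : ρ (e : G) * Q₀ = p e * (ρ (e : G) * Q₀) := by
        simp only [hp_def]
        rw [mul_assoc, ← mul_assoc (ρ (e : G)⁻¹), ← map_mul, inv_mul_cancel, map_one, one_mul,
          mul_assoc, hQ]
      rw [h1, ← mul_assoc, hRp]
    have hfin : finrank k (LinearMap.range (S * Q₀)) = finrank k (LinearMap.range Q₀) := by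
      apply le_antisymm
      · have := finrank_range_mul_le S Q₀ 1
        rwa [mul_one] at this
      · have := finrank_range_mul_le Q₀ (S * Q₀) 1
        rwa [mul_one, hQSQ] at this
    have key : ∀ v ∈ invOf ρ E, (S * Q₀) v = R v := by
      intro v hv
      rw [hS_def, hR_def, Module.End.mul_apply, LinearMap.sum_apply, LinearMap.sum_apply]
      refine Finset.sum_congr rfl (fun e _ => ?_)
      simp only [hp_def, Module.End.mul_apply]
      rw [rho_inv_apply_of_fixed ρ (hv e e.2)]
    have hrange : LinearMap.range R ⊓ invOf ρ E = LinearMap.range (S * Q₀) := by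
      ext v
      constructor
      · rintro ⟨⟨w, rfl⟩, hvE⟩
        refine ⟨R w, ?_⟩
        rw [key _ hvE, ← Module.End.mul_apply, hRR]
      · rintro ⟨w, rfl⟩
        refine ⟨⟨(S * Q₀) w, ?_⟩, ?_⟩
        · rw [← Module.End.mul_apply, hRSQ]
        · intro b hb
          rw [Module.End.mul_apply, ← Module.End.mul_apply (ρ b), hS_def, rho_mul_sum ρ E hb]
    rw [hrange, hfin]

end QE

section Transversal

theorem exists_transversal {E : Type*} [Group E] {Λ : Type*} (t : E → Λ → Λ)
    (h1 : ∀ χ, t 1 χ = χ) (hmul : ∀ e f χ, t (e * f) χ = t e (t f χ)) (S : Set Λ)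
    (hS : ∀ e, ∀ χ ∈ S, t e χ ∈ S) (hfree : ∀ e, e ≠ 1 → ∀ χ ∈ S, t e χ ≠ χ) :
    ∃ T : Set Λ, T ⊆ S ∧ (∀ χ ∈ T, ∀ e, t e χ ∈ T → e = 1) ∧
      ∀ μ ∈ S, ∃ e, ∃ χ ∈ T, t e χ = μ := by
  let r : Setoid Λ :=
    { r := fun χ μ => ∃ e, t e χ = μ
      iseqv :=
        { refl := fun χ => ⟨1, h1 χ⟩
          symm := by
            rintro χ μ ⟨e, rfl⟩
            exact ⟨e⁻¹, by rw [← hmul, inv_mul_cancel, h1]⟩
          trans := by
            rintro χ μ ν ⟨e, rfl⟩ ⟨f, rfl⟩
            exact ⟨f * e, hmul f e χ⟩ } }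
  have hout : ∀ χ, ∃ e, t e χ = (Quotient.mk r χ).out := by
    intro χ
    have h : r.r (Quotient.mk r χ).out χ := @Quotient.mk_out _ r χ
    exact r.symm h
  have hmk : ∀ e χ, Quotient.mk r (t e χ) = Quotient.mk r χ :=
    fun e χ => Quotient.sound (r.symm ⟨e, rfl⟩)
  refine ⟨{χ | χ ∈ S ∧ (Quotient.mk r χ).out = χ}, fun χ h => h.1, ?_, ?_⟩
  · rintro χ ⟨hχS, hχ⟩ e ⟨_, he⟩
    rw [hmk, hχ] at he
    by_contra hne
    exact hfree e hne χ hχS he.symm
  · intro μ hμ
    obtain ⟨e, he⟩ := hout μ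
    refine ⟨e⁻¹, t e μ, ⟨hS e μ hμ, ?_⟩, ?_⟩
    · rw [hmk, he]
    · rw [← hmul, inv_mul_cancel, h1]

end Transversal

section FreePerm

variable {k : Type*} [Field k] {V : Type*} [AddCommGroup V] [Module k V] [FiniteDimensional k V]
  {G : Type*} [Group G]

/-- Orthogonal idempotents permuted freely by `E`: the range of their sum is a free module, in
the sense that its dimension is `|E|` times the dimension of the `E`-fixed points. -/
theorem finrank_of_free_permutation (ρ : Representation k G V) (E : Subgroup G) [Finite E]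
    {Λ : Type*} [DecidableEq Λ] (P : Λ → (V →ₗ[k] V))
    (hp : ∀ i j, P i * P j = if i = j then P i else 0)
    (t : ↥E → Λ → Λ) (h1 : ∀ χ, t 1 χ = χ) (hmul : ∀ e f χ, t (e * f) χ = t e (t f χ))
    (hconj : ∀ (e : ↥E) χ, ρ (e : G) * P χ * ρ (e : G)⁻¹ = P (t e χ))
    (S : Finset Λ) (hS : ∀ e, ∀ χ ∈ S, t e χ ∈ S) (hfree : ∀ e, e ≠ 1 → ∀ χ ∈ S, t e χ ≠ χ) :
    finrank k (LinearMap.range (∑ χ ∈ S, P χ)) =
        Nat.card E * finrank k ↥(LinearMap.range (∑ χ ∈ S, P χ) ⊓ invOf ρ E) ∧
      ∀ χ ∈ S, finrank k (LinearMap.range (P χ)) ≤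
        finrank k ↥(LinearMap.range (∑ χ ∈ S, P χ) ⊓ invOf ρ E) := by
  classical
  let _ := Fintype.ofFinite E
  obtain ⟨T, hTS, hT1, hTsurj⟩ := exists_transversal t h1 hmul (S : Set Λ) hS hfree
  set Tf : Finset Λ := S.filter (· ∈ T) with hTf
  have hmemT : ∀ χ, χ ∈ Tf ↔ χ ∈ T := by
    intro χ
    rw [hTf, Finset.mem_filter]
    exact ⟨fun h => h.2, fun h => ⟨hTS h, h⟩⟩
  set Q₀ := ∑ χ ∈ Tf, P χ with hQ₀
  have hQ : Q₀ * Q₀ = Q₀ := by
    have := sum_mul_sum_of_orthogonal P hp Tf Tf
    rwa [Finset.inter_self] at this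
  have hconj' : ∀ (e : ↥E) χ, ρ (e : G) * P χ = P (t e χ) * ρ (e : G) := by
    intro e χ
    rw [← hconj, mul_assoc, ← map_mul, inv_mul_cancel, map_one, mul_one]
  have hQP : ∀ μ, μ ∉ T → Q₀ * P μ = 0 := by
    intro μ hμ
    rw [hQ₀, Finset.sum_mul]
    refine Finset.sum_eq_zero (fun χ hχ => ?_)
    rw [hp, if_neg]
    rintro rfl
    exact hμ ((hmemT _).mp hχ)
  have hQP' : ∀ μ, μ ∈ T → Q₀ * P μ = P μ := by
    intro μ hμ
    have := sum_mul_sum_of_orthogonal P hp Tf {μ}
    rwa [Finset.sum_singleton, Finset.inter_singleton_of_mem ((hmemT μ).mpr hμ),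
      Finset.sum_singleton] at this
  have horth : ∀ e ∈ E, e ≠ 1 → Q₀ * ρ e * Q₀ = 0 := by
    intro e he hne
    have h2 : ρ e * Q₀ = (∑ μ ∈ Tf, P (t ⟨e, he⟩ μ)) * ρ e := by
      rw [hQ₀, Finset.mul_sum, Finset.sum_mul]
      exact Finset.sum_congr rfl (fun μ _ => hconj' ⟨e, he⟩ μ)
    rw [mul_assoc, h2, ← mul_assoc, Finset.mul_sum, Finset.sum_eq_zero, zero_mul]
    intro μ hμ
    apply hQP
    intro hmem
    have := hT1 μ ((hmemT μ).mp hμ) ⟨e, he⟩ hmem
    exact hne (congrArg Subtype.val this)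
  have hsum : ∑ e : ↥E, ρ (e : G) * Q₀ * ρ (e : G)⁻¹ = ∑ χ ∈ S, P χ := by
    have h3 : ∀ e : ↥E, ρ (e : G) * Q₀ * ρ (e : G)⁻¹ = ∑ χ ∈ Tf, P (t e χ) := by
      intro e
      rw [hQ₀, Finset.mul_sum, Finset.sum_mul]
      exact Finset.sum_congr rfl (fun χ _ => hconj e χ)
    rw [Finset.sum_congr rfl (fun e _ => h3 e), ← Finset.sum_product']
    refine Finset.sum_bij (fun x _ => t x.1 x.2) ?_ ?_ ?_ (fun _ _ => rfl)
    · intro x hx
      exact hS _ _ (hTS ((hmemT _).mp (Finset.mem_product.mp hx).2))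
    · rintro ⟨e, χ⟩ hx ⟨f, χ'⟩ hx' heq
      have hχ := (hmemT _).mp (Finset.mem_product.mp hx).2
      have hχ' := (hmemT _).mp (Finset.mem_product.mp hx').2
      simp only at heq hχ hχ'
      have h4 : t (f⁻¹ * e) χ = χ' := by
        rw [hmul, heq, ← hmul, inv_mul_cancel, h1]
      have h5 : f⁻¹ * e = 1 := hT1 χ hχ _ (h4 ▸ hχ')
      have h6 : e = f := (inv_mul_eq_one.mp h5).symm
      subst h6
      have h7 : χ = χ' := by
        have := congrArg (t e⁻¹) heq
        rwa [← hmul, ← hmul, inv_mul_cancel, h1, h1] at this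
      rw [h7]
    · intro μ hμ
      obtain ⟨e, χ, hχ, rfl⟩ := hTsurj μ hμ
      exact ⟨(e, χ), Finset.mem_product.mpr ⟨Finset.mem_univ _, (hmemT χ).mpr hχ⟩, rfl⟩
  have main := finrank_fixed_of_orthogonal ρ E Q₀ hQ horth
  rw [hsum] at main
  refine ⟨by rw [main.1, main.2], ?_⟩
  intro χ hχ
  rw [main.2]
  obtain ⟨e, χ', hχ', rfl⟩ := hTsurj χ hχ
  rw [← hconj, finrank_range_conj]
  have := finrank_range_mul_le 1 Q₀ (P χ')
  rwa [one_mul, hQP' χ' hχ'] at this

end FreePerm

end

end Cfsg.Agent.Helper70
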