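import Cfsg.Agent.Helper70.FrobLinA

/-!
# Abelian sections of a group acting linearly (helper70)

Weighted averaging operators `wtProj ρ M ψ` attached to linear characters `ψ` of a normal
subgroup `M`, and the dimension formula for an abelian section `M / N` on which a subgroup `E`
acts freely (`section_main`).
-/

set_option autoImplicit false

namespace Cfsg.Agent.Helper70

open Module

noncomputable section

section Wt

variable {k : Type*} [Field k] {V : Type*} [AddCommGroup V] [Module k V] {G : Type*} [Group G]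

/-- The weighted averaging operator attached to a linear character `ψ` of the subgroup `M`. -/
def wtProj (ρ : Representation k G V) (M : Subgroup G) [Finite M] (ψ : ↥M →* kˣ) : V →ₗ[k] V :=
  letI := Fintype.ofFinite M
  (Nat.card M : k)⁻¹ • ∑ m : ↥M, ((ψ m⁻¹ : kˣ) : k) • ρ (m : G)

theorem wtProj_eq (ρ : Representation k G V) (M : Subgroup G) [Fintype M] (ψ : ↥M →* kˣ) :
    wtProj ρ M ψ = (Nat.card M : k)⁻¹ • ∑ m : ↥M, ((ψ m⁻¹ : kˣ) : k) • ρ (m : G) := by
  unfold wtProj
  congr 1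
  exact @Fintype.sum_equiv ↥M ↥M _ (Fintype.ofFinite ↥M) _ _ (Equiv.refl _)
    (fun m => ((ψ m⁻¹ : kˣ) : k) • ρ (m : G)) (fun m => ((ψ m⁻¹ : kˣ) : k) • ρ (m : G))
    (fun _ => rfl)

theorem wtProj_one (ρ : Representation k G V) (M : Subgroup G) [Finite M] :
    wtProj ρ M 1 = avgOp ρ M := by
  let _ := Fintype.ofFinite M
  rw [wtProj_eq, avgOp_eq]
  simp

theorem rho_mul_wtProj (ρ : Representation k G V) (M : Subgroup G) [Finite M] (ψ : ↥M →* kˣ)
    (m₀ : ↥M) : ρ (m₀ : G) * wtProj ρ M ψ = ((ψ m₀ : kˣ) : k) • wtProj ρ M ψ := by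
  let _ := Fintype.ofFinite M
  rw [wtProj_eq, mul_smul_comm, smul_comm (((ψ m₀ : kˣ) : k)) ((Nat.card M : k)⁻¹)]
  congr 1
  rw [Finset.mul_sum, Finset.smul_sum]
  refine Fintype.sum_equiv (Equiv.mulLeft m₀) _ _ (fun m => ?_)
  have h : ψ m₀ * ψ (m₀ * m)⁻¹ = ψ m⁻¹ := by
    rw [mul_inv_rev, map_mul, mul_comm (ψ m⁻¹), ← mul_assoc, ← map_mul, mul_inv_cancel, map_one,
      one_mul]
  rw [Equiv.coe_mulLeft, mul_smul_comm, smul_smul, ← Units.val_mul, h, Subgroup.coe_mul, map_mul]

theorem wtProj_mul_wtProj_aux (ρ : Representation k G V) (M : Subgroup G) [Fintype M]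
    (ψ μ : ↥M →* kˣ) :
    wtProj ρ M ψ * wtProj ρ M μ =
      ((Nat.card M : k)⁻¹ * ∑ m : ↥M, (((ψ⁻¹ * μ) m : kˣ) : k)) • wtProj ρ M μ := by
  conv_lhs => rw [wtProj_eq ρ M ψ]
  rw [smul_mul_assoc, Finset.sum_mul, mul_smul, Finset.sum_smul]
  congr 1
  refine Finset.sum_congr rfl (fun m _ => ?_)
  rw [smul_mul_assoc, rho_mul_wtProj, smul_smul]
  congr 1
  rw [MonoidHom.mul_apply, MonoidHom.inv_apply, map_inv, Units.val_mul]

theorem wtProj_mul_self (ρ : Representation k G V) (M : Subgroup G) [Finite M]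
    (hM : (Nat.card M : k) ≠ 0) (ψ : ↥M →* kˣ) : wtProj ρ M ψ * wtProj ρ M ψ = wtProj ρ M ψ := by
  let _ := Fintype.ofFinite M
  have h1 : ∀ m : ↥M, (((ψ⁻¹ * ψ) m : kˣ) : k) = 1 := fun m => by
    rw [MonoidHom.mul_apply, MonoidHom.inv_apply, inv_mul_cancel, Units.val_one]
  rw [wtProj_mul_wtProj_aux, Finset.sum_congr rfl (fun m _ => h1 m), Finset.sum_const,
    Finset.card_univ, ← Nat.card_eq_fintype_card, nsmul_eq_mul, mul_one, inv_mul_cancel₀ hM,
    one_smul]

theorem wtProj_mul_of_ne (ρ : Representation k G V) (M : Subgroup G) [Finite M]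
    {ψ μ : ↥M →* kˣ} (h : ψ ≠ μ) : wtProj ρ M ψ * wtProj ρ M μ = 0 := by
  let _ := Fintype.ofFinite M
  rw [wtProj_mul_wtProj_aux]
  have hf : (Units.coeHom k).comp (ψ⁻¹ * μ) ≠ 1 := by
    intro h1
    apply h
    ext m
    have h2 := DFunLike.congr_fun h1 m
    simp only [MonoidHom.coe_comp, Function.comp_apply, Units.coeHom_apply, MonoidHom.mul_apply,
      MonoidHom.inv_apply, MonoidHom.one_apply] at h2
    have h3 : (ψ m)⁻¹ * μ m = 1 := Units.ext h2
    rw [inv_mul_eq_one.mp h3]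
  have := sum_hom_units_eq_zero _ hf
  simp only [MonoidHom.coe_comp, Function.comp_apply, Units.coeHom_apply] at this
  rw [this, mul_zero, zero_smul]

/-- Twisting a linear character of a normal subgroup by conjugation. -/
def twist (M : Subgroup G) [M.Normal] (g : G) (ψ : ↥M →* kˣ) : ↥M →* kˣ :=
  ψ.comp (MulAut.conjNormal g⁻¹ : MulAut ↥M).toMonoidHom

theorem twist_apply (M : Subgroup G) [M.Normal] (g : G) (ψ : ↥M →* kˣ) (m : ↥M) :
    twist M g ψ m = ψ ((MulAut.conjNormal g⁻¹ : MulAut ↥M) m) := rfl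

theorem twist_one (M : Subgroup G) [M.Normal] (ψ : ↥M →* kˣ) : twist M 1 ψ = ψ := by
  ext m
  rw [twist_apply, inv_one, map_one, MulAut.one_apply]

theorem twist_mul (M : Subgroup G) [M.Normal] (g h : G) (ψ : ↥M →* kˣ) :
    twist M (g * h) ψ = twist M g (twist M h ψ) := by
  ext m
  rw [twist_apply, twist_apply, twist_apply, mul_inv_rev, map_mul, MulAut.mul_apply]

theorem twist_one_char (M : Subgroup G) [M.Normal] (g : G) :
    twist M g (1 : ↥M →* kˣ) = 1 := rfl

theorem rho_conj_wtProj (ρ : Representation k G V) (M : Subgroup G) [Finite M] [M.Normal] (g : G)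
    (ψ : ↥M →* kˣ) : ρ g * wtProj ρ M ψ * ρ g⁻¹ = wtProj ρ M (twist M g ψ) := by
  let _ := Fintype.ofFinite M
  rw [wtProj_eq, wtProj_eq, mul_smul_comm, smul_mul_assoc, Finset.mul_sum, Finset.sum_mul]
  congr 1
  refine Fintype.sum_equiv (MulAut.conjNormal g : MulAut ↥M).toEquiv _ _ (fun m => ?_)
  have h2 : twist M g ψ ((MulAut.conjNormal g : MulAut ↥M) m)⁻¹ = ψ m⁻¹ := by
    rw [twist_apply, ← map_inv, ← MulAut.mul_apply, ← map_mul, inv_mul_cancel, map_one,
      MulAut.one_apply]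
  rw [MulEquiv.toEquiv_eq_coe, MulEquiv.coe_toEquiv, h2, MulAut.conjNormal_apply, mul_smul_comm,
    smul_mul_assoc, ← map_mul, ← map_mul]

end Wt

section Orth

variable {k : Type*} [Field k] {Q : Type*} [CommGroup Q] [Finite Q]
  [HasEnoughRootsOfUnity k (Monoid.exponent Q)]

theorem finite_char (k : Type*) [Field k] (Q : Type*) [CommGroup Q] [Finite Q]
    [HasEnoughRootsOfUnity k (Monoid.exponent Q)] : Finite (Q →* kˣ) := by
  apply Nat.finite_of_card_ne_zero
  rw [CommGroup.card_monoidHom_of_hasEnoughRootsOfUnity Q k]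
  exact Nat.card_pos.ne'

open Classical in
theorem sum_char_apply [Fintype (Q →* kˣ)] (q : Q) :
    ∑ χ : Q →* kˣ, ((χ q : kˣ) : k) = if q = 1 then (Nat.card Q : k) else 0 := by
  split_ifs with h
  · subst h
    simp only [map_one, Units.val_one, Finset.sum_const, Finset.card_univ]
    rw [← Nat.card_eq_fintype_card, CommGroup.card_monoidHom_of_hasEnoughRootsOfUnity Q k,
      nsmul_eq_mul, mul_one]
  · obtain ⟨χ₀, hχ₀⟩ := CommGroup.exists_apply_ne_one_of_hasEnoughRootsOfUnity Q k h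
    have h1 : ∑ χ : Q →* kˣ, ((χ q : kˣ) : k) =
        ((χ₀ q : kˣ) : k) * ∑ χ : Q →* kˣ, ((χ q : kˣ) : k) := by
      rw [Finset.mul_sum]
      refine (Fintype.sum_equiv (Equiv.mulLeft χ₀) _ _ (fun χ => ?_)).symm
      rw [Equiv.coe_mulLeft, MonoidHom.mul_apply, Units.val_mul]
    have h2 : (((χ₀ q : kˣ) : k) - 1) * ∑ χ : Q →* kˣ, ((χ q : kˣ) : k) = 0 := by
      rw [sub_mul, one_mul, ← h1, sub_self]
    rcases mul_eq_zero.mp h2 with h3 | h3
    · exfalso
      apply hχ₀
      apply Units.ext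
      rw [Units.val_one]
      exact sub_eq_zero.mp h3
    · exact h3

end Orth

section Sec

variable {k : Type*} [Field k] {V : Type*} [AddCommGroup V] [Module k V] {G : Type*} [Group G]
  [Finite G]

theorem sum_wtProj_comp {Q : Type*} [CommGroup Q] [Finite Q]
    [HasEnoughRootsOfUnity k (Monoid.exponent Q)] [Fintype (Q →* kˣ)]
    (ρ : Representation k G V) (M N : Subgroup G) (π : ↥M →* Q)
    (hπ : Function.Surjective π) (hker : ∀ m : ↥M, π m = 1 ↔ (m : G) ∈ N) (hNM : N ≤ M)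
    (hM : (Nat.card M : k) ≠ 0) :
    ∑ χ : Q →* kˣ, wtProj ρ M (χ.comp π) = avgOp ρ N := by
  classical
  let _ := Fintype.ofFinite M
  let _ := Fintype.ofFinite N
  have hcard : Nat.card M = Nat.card N * Nat.card Q := by
    have h1 : N.subgroupOf M = π.ker := by
      ext m
      rw [Subgroup.mem_subgroupOf, MonoidHom.mem_ker, hker]
    have h2 : Nat.card (N.subgroupOf M) = Nat.card N :=
      Nat.card_congr (Subgroup.subgroupOfEquivOfLe hNM).toEquiv
    have h3 := Subgroup.card_mul_index π.ker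
    rw [Subgroup.index_ker, MonoidHom.range_eq_top.mpr hπ, Subgroup.card_top, ← h1, h2] at h3
    exact h3.symm
  have hQ : (Nat.card Q : k) ≠ 0 := by
    intro h
    apply hM
    rw [hcard, Nat.cast_mul, h, mul_zero]
  have hN : (Nat.card N : k) ≠ 0 := by
    intro h
    apply hM
    rw [hcard, Nat.cast_mul, h, zero_mul]
  simp_rw [wtProj_eq]
  rw [← Finset.smul_sum, Finset.sum_comm, avgOp_eq]
  have h4 : ∀ m : ↥M, ∑ χ : Q →* kˣ, (((χ.comp π) m⁻¹ : kˣ) : k) • ρ (m : G) =
      if π m = 1 then (Nat.card Q : k) • ρ (m : G) else 0 := by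
    intro m
    rw [← Finset.sum_smul]
    have := sum_char_apply (k := k) (π m⁻¹)
    simp only [MonoidHom.comp_apply]
    rw [this]
    have h5 : π m⁻¹ = 1 ↔ π m = 1 := by rw [map_inv, inv_eq_one]
    simp only [h5]
    split_ifs
    · rfl
    · rw [zero_smul]
  rw [Finset.sum_congr rfl (fun m _ => h4 m), ← Finset.sum_filter, ← Finset.smul_sum, smul_smul]
  have h6 : (Nat.card M : k)⁻¹ * (Nat.card Q : k) = (Nat.card N : k)⁻¹ := by
    rw [hcard, Nat.cast_mul]
    field_simp
  rw [h6]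
  congr 1
  refine Finset.sum_bij (fun m hm => (⟨(m : G), (hker m).mp (Finset.mem_filter.mp hm).2⟩ : ↥N))
    (fun _ _ => Finset.mem_univ _) ?_ ?_ (fun _ _ => rfl)
  · intro a ha b hb hab
    have h7 : (a : G) = (b : G) := congrArg (fun n : ↥N => (n : G)) hab
    exact Subtype.ext h7
  · intro n _
    exact ⟨⟨n.1, hNM n.2⟩, Finset.mem_filter.mpr ⟨Finset.mem_univ _, (hker _).mpr n.2⟩, rfl⟩

theorem comm_mul_of_rank_le_one [FiniteDimensional k V] {P A B : V →ₗ[k] V} (hP : P * P = P)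
    (hr : finrank k (LinearMap.range P) ≤ 1) (hA : A * P = P * A) (hB : B * P = P * B) :
    (A * B - B * A) * P = 0 := by
  obtain ⟨w, hw⟩ := finrank_le_one_iff.mp hr
  have hPw : P (w : V) = w := by
    obtain ⟨x, hx⟩ := w.2
    rw [← hx, ← Module.End.mul_apply, hP]
  have hmem : ∀ C : V →ₗ[k] V, C * P = P * C → ∃ c : k, C (w : V) = c • (w : V) := by
    intro C hC
    have h1 : C (w : V) ∈ LinearMap.range P := by
      refine ⟨C (w : V), ?_⟩
      rw [← Module.End.mul_apply, ← hC, Module.End.mul_apply, hPw]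
    obtain ⟨c, hc⟩ := hw ⟨C (w : V), h1⟩
    exact ⟨c, by have := congrArg Subtype.val hc; simpa using this.symm⟩
  obtain ⟨a, ha⟩ := hmem A hA
  obtain ⟨b, hb⟩ := hmem B hB
  ext x
  obtain ⟨c, hc⟩ := hw ⟨P x, LinearMap.mem_range_self P x⟩
  have hc' : P x = c • (w : V) := by
    have := congrArg Subtype.val hc
    simpa using this.symm
  rw [Module.End.mul_apply, LinearMap.sub_apply, Module.End.mul_apply, Module.End.mul_apply, hc',
    LinearMap.zero_apply]
  simp only [map_smul, ha, hb]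
  rw [smul_comm a b (w : V), sub_self]

theorem finrank_inf_range_add [FiniteDimensional k V] {A B C : V →ₗ[k] V} (hA : A * A = A)
    (hB : B * B = B) (hC : C * C = C) (hBC : B * C = 0) (hCB : C * B = 0) (hAB : A * B = B * A)
    (hAC : A * C = C * A) :
    finrank k ↥(LinearMap.range (B + C) ⊓ LinearMap.range A) =
      finrank k ↥(LinearMap.range B ⊓ LinearMap.range A) +
        finrank k ↥(LinearMap.range C ⊓ LinearMap.range A) := by
  have hBC' : (B + C) * (B + C) = B + C := by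
    rw [mul_add, add_mul, add_mul, hB, hC, hBC, hCB, add_zero, zero_add]
  rw [← range_mul_of_commute hBC' hA (by rw [add_mul, mul_add, hAB, hAC]),
    ← range_mul_of_commute hB hA hAB.symm, ← range_mul_of_commute hC hA hAC.symm, add_mul]
  apply finrank_range_add_of_orthogonal
  · rw [mul_assoc, ← mul_assoc A, hAB, mul_assoc, hA, ← mul_assoc, hB]
  · rw [mul_assoc, ← mul_assoc A, hAC, mul_assoc, hA, ← mul_assoc, hC]
  · rw [mul_assoc, ← mul_assoc A, hAC, mul_assoc, ← mul_assoc, hBC, zero_mul]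
  · rw [mul_assoc, ← mul_assoc A, hAB, mul_assoc, ← mul_assoc, hCB, zero_mul]

theorem avgOp_mul_avgOp_comm (ρ : Representation k G V) (E B : Subgroup G) [B.Normal] :
    avgOp ρ E * avgOp ρ B = avgOp ρ B * avgOp ρ E := by
  let _ := Fintype.ofFinite E
  rw [avgOp_eq ρ E, smul_mul_assoc, mul_smul_comm, Finset.sum_mul, Finset.mul_sum]
  congr 1
  exact Finset.sum_congr rfl (fun e _ => rho_mul_avgOp_comm ρ B e)

/-- **Abelian section lemma.** `N ≤ M` normal subgroups of `G`, `M / N` abelian (given through a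
surjection `π` onto a commutative group with kernel `N`), and `E` acting freely on `M / N`. -/
theorem section_main [FiniteDimensional k V] (ρ : Representation k G V)
    (hG : (Nat.card G : k) ≠ 0) (M N E : Subgroup G) [M.Normal] [hNn : N.Normal] {Q : Type*}
    [CommGroup Q] [Finite Q] [HasEnoughRootsOfUnity k (Monoid.exponent Q)] (π : ↥M →* Q)
    (hπ : Function.Surjective π) (hker : ∀ m : ↥M, π m = 1 ↔ (m : G) ∈ N) (hNM : N ≤ M)
    (hfree : ∀ e ∈ E, e ≠ 1 → ∀ m : ↥M,
      π ((MulAut.conjNormal e : MulAut ↥M) m) = π m → π m = 1) :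
    (finrank k (invOf ρ N) + Nat.card E * finrank k ↥(invOf ρ M ⊓ invOf ρ E) =
      finrank k (invOf ρ M) + Nat.card E * finrank k ↥(invOf ρ N ⊓ invOf ρ E)) ∧
    (finrank k ↥(invOf ρ N ⊓ invOf ρ E) ≤ finrank k ↥(invOf ρ M ⊓ invOf ρ E) + 1 →
      ∀ u u' : G, (∀ m : ↥M, π ((MulAut.conjNormal u : MulAut ↥M) m) = π m) →
        (∀ m : ↥M, π ((MulAut.conjNormal u' : MulAut ↥M) m) = π m) →
        (ρ u * ρ u' - ρ u' * ρ u) * (avgOp ρ N - avgOp ρ M) = 0) := by
  classical
  have hfinΛ : Finite (Q →* kˣ) := finite_char k Q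
  let _ := Fintype.ofFinite (Q →* kˣ)
  have hM := card_subgroup_ne_zero hG M
  have hN := card_subgroup_ne_zero hG N
  have hE := card_subgroup_ne_zero hG E
  set P : (Q →* kˣ) → (V →ₗ[k] V) := fun χ => wtProj ρ M (χ.comp π) with hP_def
  have hcomp_inj : ∀ χ χ' : Q →* kˣ, χ.comp π = χ'.comp π → χ = χ' :=
    fun χ χ' h => (MonoidHom.cancel_right hπ).mp h
  have hp : ∀ i j, P i * P j = if i = j then P i else 0 := by
    intro i j
    split_ifs with h
    · subst h
      exact wtProj_mul_self ρ M hM _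
    · exact wtProj_mul_of_ne ρ M (fun h' => h (hcomp_inj _ _ h'))
  have hinv : ∀ (g : G) (m : ↥M), π m = 1 → π ((MulAut.conjNormal g : MulAut ↥M) m) = 1 := by
    intro g m hm
    rw [hker] at hm ⊢
    rw [MulAut.conjNormal_apply]
    exact hNn.conj_mem _ hm g
  have hex : ∀ (g : G) (χ : Q →* kˣ), ∃ χ' : Q →* kˣ, χ'.comp π = twist M g (χ.comp π) := by
    intro g χ
    have hle : π.ker ≤ (twist M g (χ.comp π)).ker := by
      intro m hm
      rw [MonoidHom.mem_ker] at hm ⊢
      rw [twist_apply, MonoidHom.comp_apply, hinv g⁻¹ m hm, map_one]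
    exact ⟨π.liftOfSurjective hπ ⟨twist M g (χ.comp π), hle⟩,
      MonoidHom.liftOfRightInverse_comp _ _ _ _⟩
  choose tw htw using hex
  have tw_one : ∀ χ, tw 1 χ = χ := by
    intro χ
    apply hcomp_inj
    rw [htw, twist_one]
  have tw_mul : ∀ g h χ, tw (g * h) χ = tw g (tw h χ) := by
    intro g h χ
    apply hcomp_inj
    rw [htw, htw, htw, twist_mul]
  have tw_triv : ∀ g, tw g 1 = 1 := by
    intro g
    apply hcomp_inj
    rw [htw]
    rfl
  set S : Finset (Q →* kˣ) := Finset.univ.erase 1 with hS_def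
  have hS : ∀ (e : ↥E), ∀ χ ∈ S, tw (e : G) χ ∈ S := by
    intro e χ hχ
    rw [hS_def, Finset.mem_erase] at hχ ⊢
    refine ⟨fun h => hχ.1 ?_, Finset.mem_univ _⟩
    have := congrArg (tw (e : G)⁻¹) h
    rwa [← tw_mul, inv_mul_cancel, tw_one, tw_triv] at this
  have hfree' : ∀ (e : ↥E), e ≠ 1 → ∀ χ ∈ S, tw (e : G) χ ≠ χ := by
    intro e he χ hχ hfix
    rw [hS_def, Finset.mem_erase] at hχ
    apply hχ.1
    have he' : (e : G)⁻¹ ∈ E := E.inv_mem e.2
    have hne' : (e : G)⁻¹ ≠ 1 := by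
      intro h
      apply he
      rw [inv_eq_one] at h
      exact Subtype.ext h
    set φ : ↥M →* Q := (π.comp (MulAut.conjNormal (e : G)⁻¹ : MulAut ↥M).toMonoidHom) / π with hφ
    have hφ_apply : ∀ m, φ m = π ((MulAut.conjNormal (e : G)⁻¹ : MulAut ↥M) m) / π m :=
      fun m => rfl
    have hkerφ : φ.ker = π.ker := by
      ext m
      rw [MonoidHom.mem_ker, MonoidHom.mem_ker, hφ_apply, div_eq_one]
      constructor
      · intro h
        exact hfree _ he' hne' m h
      · intro h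
        rw [h, hinv _ m h]
    have hφ_surj : Function.Surjective φ := by
      rw [← MonoidHom.range_eq_top, ← Subgroup.card_eq_iff_eq_top, ← Subgroup.index_ker, hkerφ,
        Subgroup.index_ker, MonoidHom.range_eq_top.mpr hπ, Subgroup.card_top]
    have hχinv : ∀ m : ↥M, χ (π ((MulAut.conjNormal (e : G)⁻¹ : MulAut ↥M) m)) = χ (π m) := by
      intro m
      have := DFunLike.congr_fun (htw (e : G) χ) m
      rw [hfix] at this
      exact this.symm
    refine MonoidHom.ext (fun q => ?_)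
    obtain ⟨m, rfl⟩ := hφ_surj q
    rw [hφ_apply, map_div, hχinv, div_self', MonoidHom.one_apply]
  have hconj : ∀ (e : ↥E) χ, ρ (e : G) * P χ * ρ (e : G)⁻¹ = P (tw (e : G) χ) := by
    intro e χ
    simp only [hP_def]
    rw [rho_conj_wtProj, htw]
  obtain ⟨hA, hB⟩ := finrank_of_free_permutation ρ E P hp (fun e χ => tw (e : G) χ)
    (fun χ => by rw [OneMemClass.coe_one]; exact tw_one χ)
    (fun e f χ => by rw [Subgroup.coe_mul, tw_mul]) hconj S hS hfree'
  set R := ∑ χ ∈ S, P χ with hR_def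
  have hsumall : ∑ χ : Q →* kˣ, P χ = avgOp ρ N := sum_wtProj_comp ρ M N π hπ hker hNM hM
  have hP1 : P 1 = avgOp ρ M := by
    simp only [hP_def]
    rw [MonoidHom.one_comp, wtProj_one]
  have hR : R = avgOp ρ N - avgOp ρ M := by
    rw [hR_def, hS_def, Finset.sum_erase_eq_sub (Finset.mem_univ _), hsumall, hP1]
  have hRR : R * R = R := by
    have := sum_mul_sum_of_orthogonal P hp S S
    rwa [Finset.inter_self] at this
  have h1S : (1 : Q →* kˣ) ∉ S := by
    rw [hS_def]
    exact Finset.notMem_erase _ _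
  have hMR : avgOp ρ M * R = 0 := by
    have := sum_mul_sum_of_orthogonal P hp {1} S
    rwa [Finset.sum_singleton, Finset.singleton_inter_of_notMem h1S, Finset.sum_empty, hP1] at this
  have hRM : R * avgOp ρ M = 0 := by
    have := sum_mul_sum_of_orthogonal P hp S {1}
    rwa [Finset.sum_singleton, Finset.inter_singleton_of_notMem h1S, Finset.sum_empty, hP1] at this
  have hMM := avgOp_mul_self ρ M hM
  have hEE := avgOp_mul_self ρ E hE
  have hNeq : avgOp ρ N = avgOp ρ M + R := by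
    rw [hR]
    abel
  have hEM : avgOp ρ E * avgOp ρ M = avgOp ρ M * avgOp ρ E := avgOp_mul_avgOp_comm ρ E M
  have hER : avgOp ρ E * R = R * avgOp ρ E := by
    rw [hR, mul_sub, sub_mul, avgOp_mul_avgOp_comm ρ E N, avgOp_mul_avgOp_comm ρ E M]
  have e1 : finrank k (invOf ρ N) = finrank k (invOf ρ M) + finrank k (LinearMap.range R) := by
    rw [← range_avgOp ρ N hN, ← range_avgOp ρ M hM, hNeq]
    exact finrank_range_add_of_orthogonal hMM hRR hMR hRM
  have e2 : finrank k ↥(invOf ρ N ⊓ invOf ρ E) =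
      finrank k ↥(invOf ρ M ⊓ invOf ρ E) + finrank k ↥(LinearMap.range R ⊓ invOf ρ E) := by
    rw [← range_avgOp ρ N hN, ← range_avgOp ρ M hM, ← range_avgOp ρ E hE, hNeq]
    exact finrank_inf_range_add hEE hMM hRR hMR hRM hEM hER
  refine ⟨?_, ?_⟩
  · rw [e1, e2, hA]
    ring
  · intro hle u u' hu hu'
    have hd : finrank k ↥(LinearMap.range R ⊓ invOf ρ E) ≤ 1 := by omega
    have hcommP : ∀ (g : G), (∀ m : ↥M, π ((MulAut.conjNormal g : MulAut ↥M) m) = π m) →
        ∀ χ, ρ g * P χ = P χ * ρ g := by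
      intro g hg χ
      have h1 : twist M g (χ.comp π) = χ.comp π := by
        refine MonoidHom.ext (fun m => ?_)
        rw [twist_apply, MonoidHom.comp_apply, MonoidHom.comp_apply]
        have := hg ((MulAut.conjNormal g⁻¹ : MulAut ↥M) m)
        rw [← MulAut.mul_apply, ← map_mul, mul_inv_cancel, map_one, MulAut.one_apply] at this
        rw [this]
      have h2 := rho_conj_wtProj ρ M g (χ.comp π)
      rw [h1] at h2
      calc ρ g * P χ = ρ g * P χ * ρ g⁻¹ * ρ g := by
            rw [mul_assoc (ρ g * P χ), ← map_mul, inv_mul_cancel, map_one, mul_one]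
        _ = P χ * ρ g := by rw [h2]
    rw [← hR, hR_def, Finset.mul_sum]
    refine Finset.sum_eq_zero (fun χ hχ => ?_)
    exact comm_mul_of_rank_le_one (by simpa using hp χ χ) ((hB χ hχ).trans hd)
      (hcommP u hu χ) (hcommP u' hu' χ)

end Sec

end

end Cfsg.Agent.Helper70
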