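import Cfsg.Agent.Helper70.FrobLinB

/-!
# A nilpotent normal subgroup `U` with a subgroup `E` acting fixed-point-freely: linear theory
over a separably closed field (helper70)

`frob_linear`: for a representation `ρ` of a finite group `G` over a separably closed field of
characteristic not dividing `|G|`, `U ⊴ G` nilpotent, `E ≤ G` with `C_U(e) = 1` for `e ∈ E`,
`e ≠ 1`:
* `dim V + |E| · dim C_V(UE) = dim C_V(U) + |E| · dim C_V(E)`;
* if `dim C_V(E) ≤ dim C_V(UE) + 1` then `ρ(U)` is commutative.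
-/

set_option autoImplicit false

namespace Cfsg.Agent.Helper70

open Module

noncomputable section

section FPF

variable {G : Type*} [Group G]

theorem fpf_comm_aux (e a b : G) (h : (e * a * e⁻¹)⁻¹ * a = (e * b * e⁻¹)⁻¹ * b) :
    e * (b * a⁻¹) = b * a⁻¹ * e := by
  have h1 : a⁻¹ * e⁻¹ * a = b⁻¹ * e⁻¹ * b := by
    have := congrArg (fun x => e⁻¹ * x) h
    simpa [mul_assoc] using this
  calc e * (b * a⁻¹) = e * (b * (a⁻¹ * e⁻¹ * a) * a⁻¹) * e := by group
    _ = e * (b * (b⁻¹ * e⁻¹ * b) * a⁻¹) * e := by rw [h1]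
    _ = b * a⁻¹ * e := by group

theorem mem_of_comm_mem (U N : Subgroup G) [Finite N] (hNU : N ≤ U) (e : G)
    (hfix : ∀ u ∈ U, e * u = u * e → u = 1) (hnorm : ∀ n ∈ N, e * n * e⁻¹ ∈ N) (m : G)
    (hm : m ∈ U) (h : (e * m * e⁻¹)⁻¹ * m ∈ N) : m ∈ N := by
  let f : ↥N → ↥N := fun n => ⟨(e * n * e⁻¹)⁻¹ * n, N.mul_mem (N.inv_mem (hnorm n n.2)) n.2⟩
  have hinj : Function.Injective f := by
    intro a b hab
    have h1 : (e * (a : G) * e⁻¹)⁻¹ * a = (e * (b : G) * e⁻¹)⁻¹ * b :=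
      congrArg (fun n : ↥N => (n : G)) hab
    have h2 := fpf_comm_aux e _ _ h1
    have h3 := hfix _ (U.mul_mem (hNU b.2) (U.inv_mem (hNU a.2))) h2
    exact Subtype.ext (mul_inv_eq_one.mp h3).symm
  obtain ⟨n, hn⟩ := Finite.surjective_of_injective hinj ⟨_, h⟩
  have h1 : (e * (n : G) * e⁻¹)⁻¹ * n = (e * m * e⁻¹)⁻¹ * m :=
    congrArg (fun n : ↥N => (n : G)) hn
  have h2 := fpf_comm_aux e _ _ h1
  have h3 := hfix _ (U.mul_mem hm (U.inv_mem (hNU n.2))) h2
  rw [mul_inv_eq_one.mp h3]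
  exact n.2

end FPF

section Main

variable {k : Type*} [Field k] [IsSepClosed k] {V : Type*} [AddCommGroup V] [Module k V]
  [FiniteDimensional k V] {G : Type*} [Group G] [Finite G]

/-- One step of the series: a section `N ≤ M` of `U`, central in `U`. -/
theorem section_step (ρ : Representation k G V) (hG : (Nat.card G : k) ≠ 0)
    (U E M N : Subgroup G) [M.Normal] [hNn : N.Normal]
    (hfpf : ∀ e ∈ E, e ≠ 1 → ∀ u ∈ U, e * u = u * e → u = 1)
    (hNM : N ≤ M) (hMU : M ≤ U) (hcent : ∀ x ∈ M, ∀ y ∈ U, x * y * x⁻¹ * y⁻¹ ∈ N) :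
    (finrank k (invOf ρ N) + Nat.card E * finrank k ↥(invOf ρ M ⊓ invOf ρ E) =
      finrank k (invOf ρ M) + Nat.card E * finrank k ↥(invOf ρ N ⊓ invOf ρ E)) ∧
    (finrank k ↥(invOf ρ N ⊓ invOf ρ E) ≤ finrank k ↥(invOf ρ M ⊓ invOf ρ E) + 1 →
      ∀ u ∈ U, ∀ u' ∈ U, (ρ u * ρ u' - ρ u' * ρ u) * (avgOp ρ N - avgOp ρ M) = 0) := by
  have hcomm : ∀ a b : ↥M ⧸ N.subgroupOf M, a * b = b * a := by
    intro a b
    induction a using QuotientGroup.induction_on with | _ a => ?_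
    induction b using QuotientGroup.induction_on with | _ b => ?_
    rw [← QuotientGroup.mk_mul, ← QuotientGroup.mk_mul, QuotientGroup.eq, Subgroup.mem_subgroupOf]
    have := hcent (b : G)⁻¹ (M.inv_mem b.2) (a : G)⁻¹ (U.inv_mem (hMU a.2))
    have h' : (((a * b)⁻¹ * (b * a) : ↥M) : G) = (b : G)⁻¹ * (a : G)⁻¹ * (b : G)⁻¹⁻¹ * (a : G)⁻¹⁻¹ := by
      push_cast
      group
    rw [h']
    exact this
  let _ : CommGroup (↥M ⧸ N.subgroupOf M) :=
    { (inferInstance : Group (↥M ⧸ N.subgroupOf M)) with mul_comm := hcomm }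
  have hexp : ((Monoid.exponent (↥M ⧸ N.subgroupOf M) : ℕ) : k) ≠ 0 := by
    intro h
    apply hG
    have h1 : Monoid.exponent (↥M ⧸ N.subgroupOf M) ∣ Nat.card G :=
      Group.exponent_dvd_nat_card.trans
        ((Subgroup.card_quotient_dvd_card _).trans (Subgroup.card_subgroup_dvd_card M))
    obtain ⟨c, hc⟩ := h1
    rw [hc, Nat.cast_mul, h, zero_mul]
  have : NeZero ((Monoid.exponent (↥M ⧸ N.subgroupOf M) : ℕ) : k) := ⟨hexp⟩
  have hker : ∀ m : ↥M, (QuotientGroup.mk' (N.subgroupOf M)) m = 1 ↔ (m : G) ∈ N := by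
    intro m
    rw [QuotientGroup.mk'_apply, QuotientGroup.eq_one_iff, Subgroup.mem_subgroupOf]
  have heq : ∀ (g : G) (m : ↥M),
      (QuotientGroup.mk' (N.subgroupOf M)) ((MulAut.conjNormal g : MulAut ↥M) m) =
        (QuotientGroup.mk' (N.subgroupOf M)) m ↔ (g * (m : G) * g⁻¹)⁻¹ * (m : G) ∈ N := by
    intro g m
    rw [QuotientGroup.mk'_apply, QuotientGroup.mk'_apply, QuotientGroup.eq,
      Subgroup.mem_subgroupOf]
    simp
  have hfree : ∀ e ∈ E, e ≠ 1 → ∀ m : ↥M,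
      (QuotientGroup.mk' (N.subgroupOf M)) ((MulAut.conjNormal e : MulAut ↥M) m) =
        (QuotientGroup.mk' (N.subgroupOf M)) m → (QuotientGroup.mk' (N.subgroupOf M)) m = 1 := by
    intro e he hne m hm
    rw [hker]
    rw [heq] at hm
    exact mem_of_comm_mem U N (hNM.trans hMU) e (hfpf e he hne)
      (fun n hn => hNn.conj_mem n hn e) m (hMU m.2) hm
  have hU : ∀ u ∈ U, ∀ m : ↥M,
      (QuotientGroup.mk' (N.subgroupOf M)) ((MulAut.conjNormal u : MulAut ↥M) m) =
        (QuotientGroup.mk' (N.subgroupOf M)) m := by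
    intro u hu m
    rw [heq]
    have := N.inv_mem (hcent (m : G)⁻¹ (M.inv_mem m.2) u hu)
    have h' : (u * (m : G) * u⁻¹)⁻¹ * (m : G) = ((m : G)⁻¹ * u * (m : G)⁻¹⁻¹ * u⁻¹)⁻¹ := by
      group
    rw [h']
    exact this
  obtain ⟨h1, h2⟩ := section_main ρ hG M N E (QuotientGroup.mk' (N.subgroupOf M))
    (QuotientGroup.mk'_surjective _) hker hNM hfree
  exact ⟨h1, fun hle u hu u' hu' => h2 hle u u' (hU u hu) (hU u' hu')⟩

/-- **Linear theory of Frobenius-type actions** over a separably closed field. -/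
theorem frob_linear (ρ : Representation k G V) (hG : (Nat.card G : k) ≠ 0) (U E : Subgroup G)
    [hUn : U.Normal] [hnil : Group.IsNilpotent U]
    (hfpf : ∀ e ∈ E, e ≠ 1 → ∀ u ∈ U, e * u = u * e → u = 1) :
    (finrank k V + Nat.card E * finrank k ↥(invOf ρ U ⊓ invOf ρ E) =
      finrank k (invOf ρ U) + Nat.card E * finrank k (invOf ρ E)) ∧
    (finrank k (invOf ρ E) ≤ finrank k ↥(invOf ρ U ⊓ invOf ρ E) + 1 →
      ∀ u ∈ U, ∀ u' ∈ U, ρ u * ρ u' = ρ u' * ρ u) := by
  set Z : ℕ → Subgroup G := fun i => (Subgroup.upperCentralSeries ↥U i).map U.subtype with hZ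
  have hZn : ∀ i, (Z i).Normal := fun i => ConjAct.normal_of_characteristic_of_normal
  have hZ0 : Z 0 = ⊥ := by
    simp only [hZ]
    rw [Subgroup.upperCentralSeries_zero, Subgroup.map_bot]
  have hZU : ∀ i, Z i ≤ U := fun i => Subgroup.map_subtype_le _
  have hZmono : ∀ i, Z i ≤ Z (i + 1) :=
    fun i => Subgroup.map_mono (Subgroup.upperCentralSeries_mono _ (Nat.le_succ i))
  have hZcent : ∀ i, ∀ x ∈ Z (i + 1), ∀ y ∈ U, x * y * x⁻¹ * y⁻¹ ∈ Z i := by
    intro i x hx y hy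
    obtain ⟨x', hx', rfl⟩ := hx
    have := Subgroup.mem_upperCentralSeries_succ_iff.mp hx' ⟨y, hy⟩
    exact ⟨_, this, by simp [commutatorElement_def]⟩
  obtain ⟨c, hc⟩ := hnil.nilpotent'
  have hZc : Z c = U := by
    simp only [hZ]
    rw [hc, ← MonoidHom.range_eq_map, Subgroup.range_subtype]
  have hstep := fun i => section_step ρ hG U E (Z (i + 1)) (Z i) hfpf (hZmono i) (hZU _)
    (hZcent i)
  constructor
  · have hA : ∀ i, finrank k V + Nat.card E * finrank k ↥(invOf ρ (Z i) ⊓ invOf ρ E) =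
        finrank k (invOf ρ (Z i)) + Nat.card E * finrank k (invOf ρ E) := by
      intro i
      induction i with
      | zero => rw [hZ0, invOf_bot, top_inf_eq, finrank_top]
      | succ i ih =>
        have := (hstep i).1
        omega
    rw [← hZc]
    exact hA c
  · intro hle u hu u' hu'
    have hB : ∀ i, (ρ u * ρ u' - ρ u' * ρ u) * (1 - avgOp ρ (Z i)) = 0 := by
      intro i
      induction i with
      | zero => rw [hZ0, avgOp_bot, sub_self, mul_zero]
      | succ i ih =>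
        have h1 : finrank k ↥(invOf ρ (Z i) ⊓ invOf ρ E) ≤
            finrank k ↥(invOf ρ (Z (i + 1)) ⊓ invOf ρ E) + 1 := by
          have h2 : finrank k ↥(invOf ρ (Z i) ⊓ invOf ρ E) ≤ finrank k (invOf ρ E) :=
            Submodule.finrank_mono inf_le_right
          have h3 : finrank k ↥(invOf ρ U ⊓ invOf ρ E) ≤
              finrank k ↥(invOf ρ (Z (i + 1)) ⊓ invOf ρ E) :=
            Submodule.finrank_mono (inf_le_inf_right _ (invOf_anti ρ (hZU (i + 1))))
          omega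
        have h4 := (hstep i).2 h1 u hu u' hu'
        have h5 : (1 : V →ₗ[k] V) - avgOp ρ (Z (i + 1)) =
            (1 - avgOp ρ (Z i)) + (avgOp ρ (Z i) - avgOp ρ (Z (i + 1))) := by abel
        rw [h5, mul_add, ih, h4, add_zero]
    have h6 := hB c
    rw [hZc] at h6
    have h7 : (ρ u * ρ u' - ρ u' * ρ u) * avgOp ρ U = 0 := by
      rw [sub_mul, mul_assoc, mul_assoc, rho_mul_avgOp ρ U hu', rho_mul_avgOp ρ U hu,
        rho_mul_avgOp ρ U hu', sub_self]
    have h8 : ρ u * ρ u' - ρ u' * ρ u = 0 := by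
      calc ρ u * ρ u' - ρ u' * ρ u
          = (ρ u * ρ u' - ρ u' * ρ u) * (1 - avgOp ρ U) +
              (ρ u * ρ u' - ρ u' * ρ u) * avgOp ρ U := by
            rw [← mul_add, sub_add_cancel, mul_one]
        _ = 0 := by rw [h6, h7, add_zero]
    exact sub_eq_zero.mp h8

end Main

end

end Cfsg.Agent.Helper70
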