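import Cfsg.Agent.Helper70.FrobBC

/-!
# Frobenius-type actions on elementary abelian groups (helper70)

`frob_mul`: multiplicative form of `frob_linear_field` for a finite group `G` acting by
automorphisms on a finite elementary abelian `r`-group `Q` with `r ∤ |G|`.
-/

set_option autoImplicit false

namespace Cfsg.Agent.Helper70

open Module

noncomputable section

section Fix

variable {G : Type*} [Group G] {Q : Type*} [Group Q]

/-- The fixed points of the subgroup `B` under an action `α` by automorphisms. -/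
def fixSub (α : G →* MulAut Q) (B : Subgroup G) : Subgroup Q where
  carrier := {q | ∀ b ∈ B, α b q = q}
  mul_mem' := by
    intro x y hx hy b hb
    rw [map_mul, hx b hb, hy b hb]
  one_mem' := by
    intro b _
    exact map_one _
  inv_mem' := by
    intro x hx b hb
    rw [map_inv, hx b hb]

theorem mem_fixSub {α : G →* MulAut Q} {B : Subgroup G} {q : Q} :
    q ∈ fixSub α B ↔ ∀ b ∈ B, α b q = q := Iff.rfl

end Fix

section Mul

variable {G : Type*} [Group G] [Finite G] {Q : Type*} [CommGroup Q] [Finite Q]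

theorem frob_mul_aux (r : ℕ) [hr : Fact r.Prime] [Module (ZMod r) (Additive Q)]
    (α : G →* MulAut Q)
    (hG : ¬ r ∣ Nat.card G) (U E : Subgroup G) [U.Normal] [Group.IsNilpotent U]
    (hfpf : ∀ e ∈ E, e ≠ 1 → ∀ u ∈ U, e * u = u * e → u = 1) :
    (Nat.card Q * Nat.card (fixSub α (U ⊔ E)) ^ Nat.card E =
      Nat.card (fixSub α U) * Nat.card (fixSub α E) ^ Nat.card E) ∧
    (Nat.card (fixSub α E) ≤ r * Nat.card (fixSub α (U ⊔ E)) →
      ∀ u ∈ U, ∀ u' ∈ U, ∀ q : Q, α u (α u' q) = α u' (α u q)) := by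
  let f : G → Module.End (ZMod r) (Additive Q) := fun g =>
    AddMonoidHom.toZModLinearMap r (MonoidHom.toAdditive (α g).toMonoidHom)
  have hf : ∀ g (x : Additive Q), f g x = Additive.ofMul (α g (Additive.toMul x)) :=
    fun g x => rfl
  let σ : Representation (ZMod r) G (Additive Q) :=
    MonoidHom.mk ⟨f, by
      ext x
      rw [hf, map_one]
      rfl⟩ (fun g h => by
      ext x
      rw [Module.End.mul_apply, hf, hf, hf, map_mul]
      rfl)
  have hσ : ∀ g (x : Additive Q), σ g x = Additive.ofMul (α g (Additive.toMul x)) :=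
    fun g x => rfl
  have hcard : ∀ B : Subgroup G, Nat.card (fixSub α B) = r ^ finrank (ZMod r) (invOf σ B) := by
    intro B
    have h1 : Nat.card (fixSub α B) = Nat.card (invOf σ B) :=
      Nat.card_congr (Equiv.subtypeEquiv Additive.ofMul (fun q => Iff.rfl))
    rw [h1, Module.natCard_eq_pow_finrank (K := ZMod r), Nat.card_zmod]
  have hcardQ : Nat.card Q = r ^ finrank (ZMod r) (Additive Q) := by
    have h1 : Nat.card Q = Nat.card (Additive Q) := rfl
    rw [h1, Module.natCard_eq_pow_finrank (K := ZMod r), Nat.card_zmod]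
  have hGr : (Nat.card G : ZMod r) ≠ 0 := by
    rw [Ne, ZMod.natCast_eq_zero_iff]
    exact hG
  obtain ⟨h1, h2⟩ := frob_linear_field σ hGr U E hfpf
  constructor
  · rw [hcardQ, hcard, hcard, hcard, ← pow_mul, ← pow_mul, ← pow_add, ← pow_add]
    congr 1
    linarith
  · intro hle u hu u' hu' q
    rw [hcard, hcard, ← pow_succ'] at hle
    have h3 := (Nat.pow_le_pow_iff_right hr.out.one_lt).mp hle
    have h4 := h2 h3 u hu u' hu'
    have h5 := congrArg (fun f : Additive Q →ₗ[ZMod r] Additive Q => f (Additive.ofMul q)) h4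
    exact congrArg Additive.toMul h5

/-- **Frobenius-type action on an elementary abelian `r`-group**, `r ∤ |G|`, `U ⊴ G`
nilpotent, `E ≤ G` with `C_U(e) = 1` for `e ∈ E`, `e ≠ 1`. -/
theorem frob_mul (r : ℕ) [hr : Fact r.Prime] (hQ : ∀ q : Q, q ^ r = 1) (α : G →* MulAut Q)
    (hG : ¬ r ∣ Nat.card G) (U E : Subgroup G) [U.Normal] [Group.IsNilpotent U]
    (hfpf : ∀ e ∈ E, e ≠ 1 → ∀ u ∈ U, e * u = u * e → u = 1) :
    (Nat.card Q * Nat.card (fixSub α (U ⊔ E)) ^ Nat.card E =
      Nat.card (fixSub α U) * Nat.card (fixSub α E) ^ Nat.card E) ∧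
    (Nat.card (fixSub α E) ≤ r * Nat.card (fixSub α (U ⊔ E)) →
      ∀ u ∈ U, ∀ u' ∈ U, ∀ q : Q, α u (α u' q) = α u' (α u q)) := by
  have hadd : ∀ x : Additive Q, r • x = 0 := fun x =>
    congrArg Additive.ofMul (hQ (Additive.toMul x))
  exact @frob_mul_aux G _ _ Q _ _ r hr (AddCommGroup.zmodModule hadd) α hG U E _ _ hfpf

end Mul

end

end Cfsg.Agent.Helper70
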