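import Mathlib

set_option autoImplicit false

namespace Cfsg.Agent.Helper70

open Subgroup

section Fitting

/-- Directly indecomposable nontrivial group. -/
def Indec (H : Type*) [Group H] : Prop :=
  Nontrivial H ∧ ∀ A B : Subgroup H, A.Normal → B.Normal → A ⊓ B = ⊥ → A ⊔ B = ⊤ →
    A = ⊥ ∨ B = ⊥

/-- Normal endomorphisms: those commuting with inner automorphisms. -/
def IsNormalEnd {H : Type*} [Group H] (f : H →* H) : Prop :=
  ∀ g x : H, f (g * x * g⁻¹) = g * f x * g⁻¹

theorem exists_iterate_idempotent {α : Type*} [Finite α] (f : α → α) :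
    ∃ N, 0 < N ∧ f^[N] ∘ f^[N] = f^[N] := by
  have aux : ∀ i j : ℕ, i < j → f^[i] = f^[j] → ∃ N, 0 < N ∧ f^[N] ∘ f^[N] = f^[N] := by
    intro i j hij h
    obtain ⟨d, rfl⟩ : ∃ d, j = i + d := ⟨j - i, by omega⟩
    have hd : 0 < d := by omega
    have hstep : ∀ k, i ≤ k → f^[k] = f^[k + d] := by
      intro k hk
      obtain ⟨t, rfl⟩ : ∃ t, k = t + i := ⟨k - i, by omega⟩
      rw [Function.iterate_add, h, ← Function.iterate_add]
      congr 1; omega
    have hmul : ∀ m k, i ≤ k → f^[k] = f^[k + m * d] := by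
      intro m
      induction m with
      | zero => intro k _; simp
      | succ m ih =>
        intro k hk
        rw [ih k hk, hstep (k + m * d) (by omega)]
        congr 1; ring
    refine ⟨(i + 1) * d, Nat.mul_pos (Nat.succ_pos i) hd, ?_⟩
    rw [← Function.iterate_add]
    have hle : i ≤ (i + 1) * d := by nlinarith
    exact (hmul (i + 1) ((i + 1) * d) hle).symm
  obtain ⟨i, j, hij, h⟩ := Finite.exists_ne_map_eq_of_infinite (fun n : ℕ => f^[n])
  rcases Nat.lt_or_gt_of_ne hij with h1 | h1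
  · exact aux i j h1 h
  · exact aux j i h1 h.symm

theorem iterate_normal {H : Type*} [Group H] (f : H →* H) (hf : IsNormalEnd f) (N : ℕ)
    (g x : H) : f^[N] (g * x * g⁻¹) = g * f^[N] x * g⁻¹ := by
  induction N generalizing x with
  | zero => rfl
  | succ n ih => rw [Function.iterate_succ_apply, Function.iterate_succ_apply, hf, ih]

/-- **Fitting's lemma** for finite indecomposable groups. -/
theorem fitting {H : Type*} [Group H] [Finite H] (hH : Indec H) (f : H →* H)
    (hf : IsNormalEnd f) : Function.Bijective f ∨ ∃ N, ∀ x, f^[N] x = 1 := by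
  obtain ⟨N, hN0, hidem⟩ := exists_iterate_idempotent (⇑f)
  have hmul : ∀ x y, f^[N] (x * y) = f^[N] x * f^[N] y := fun x y => iterate_map_mul f N x y
  have hone : f^[N] 1 = 1 := iterate_map_one f N
  have hinv : ∀ x, f^[N] x⁻¹ = (f^[N] x)⁻¹ := fun x => iterate_map_inv f N x
  have hconj := iterate_normal f hf N
  have hgg : ∀ x, f^[N] (f^[N] x) = f^[N] x := fun x => congrFun hidem x
  let K : Subgroup H :=
    { carrier := {x | f^[N] x = 1}
      one_mem' := hone
      mul_mem' := by
        intro a b ha hb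
        show f^[N] (a * b) = 1
        rw [hmul, ha, hb, one_mul]
      inv_mem' := by
        intro a ha
        show f^[N] a⁻¹ = 1
        rw [hinv, ha, inv_one] }
  let R : Subgroup H :=
    { carrier := Set.range f^[N]
      one_mem' := ⟨1, hone⟩
      mul_mem' := by
        rintro _ _ ⟨a, rfl⟩ ⟨b, rfl⟩
        exact ⟨a * b, hmul a b⟩
      inv_mem' := by
        rintro _ ⟨a, rfl⟩
        exact ⟨a⁻¹, hinv a⟩ }
  have hKn : K.Normal := by
    constructor
    intro x hx g
    show f^[N] (g * x * g⁻¹) = 1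
    rw [hconj, hx]; group
  have hRn : R.Normal := by
    constructor
    rintro _ ⟨a, rfl⟩ g
    exact ⟨g * a * g⁻¹, hconj g a⟩
  have hinf : K ⊓ R = ⊥ := by
    rw [eq_bot_iff]
    rintro y ⟨hyK, a, rfl⟩
    have h1 : f^[N] (f^[N] a) = 1 := hyK
    rw [hgg] at h1
    rw [Subgroup.mem_bot]; exact h1
  have hsup : K ⊔ R = ⊤ := by
    rw [eq_top_iff]
    intro x _
    have h1 : x * (f^[N] x)⁻¹ ∈ K := by
      show f^[N] (x * (f^[N] x)⁻¹) = 1
      rw [hmul, hinv, hgg, mul_inv_cancel]
    have h2 : f^[N] x ∈ R := ⟨x, rfl⟩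
    have h3 : x = x * (f^[N] x)⁻¹ * f^[N] x := by group
    rw [h3]
    exact Subgroup.mul_mem_sup h1 h2
  rcases hH.2 K R hKn hRn hinf hsup with hK | hR
  · left
    have hinj : Function.Injective f := by
      intro x y hxy
      have h1 : f^[N] x = f^[N] y := by
        obtain ⟨n, rfl⟩ : ∃ n, N = n + 1 := ⟨N - 1, by omega⟩
        rw [Function.iterate_succ_apply, Function.iterate_succ_apply, hxy]
      have h2 : x * y⁻¹ ∈ K := by
        show f^[N] (x * y⁻¹) = 1
        rw [hmul, hinv, h1, mul_inv_cancel]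
      rw [hK, Subgroup.mem_bot] at h2
      exact mul_inv_eq_one.mp h2
    exact Finite.injective_iff_bijective.mp hinj
  · right
    refine ⟨N, fun x => ?_⟩
    have h2 : f^[N] x ∈ R := ⟨x, rfl⟩
    rw [hR, Subgroup.mem_bot] at h2
    exact h2

theorem bijective_or_of_mul_eq_self {H : Type*} [Group H] [Finite H] (hH : Indec H)
    (φ ψ : H →* H) (hψ : IsNormalEnd ψ) (h : ∀ x, φ x * ψ x = x) :
    Function.Bijective φ ∨ Function.Bijective ψ := by
  rcases fitting hH ψ hψ with hb | ⟨N, hN⟩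
  · exact Or.inr hb
  · left
    have hinj : Function.Injective φ := by
      rw [injective_iff_map_eq_one]
      intro x hx
      have h1 : ψ x = x := by
        have := h x
        rw [hx, one_mul] at this
        exact this
      have h2 : ∀ k, ψ^[k] x = x := by
        intro k
        induction k with
        | zero => rfl
        | succ k ih => rw [Function.iterate_succ_apply, h1, ih]
      rw [← h2 N, hN]
    exact Finite.injective_iff_bijective.mp hinj

theorem bijective_or_of_mul_eq {H : Type*} [Group H] [Finite H] (hH : Indec H)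
    (φ ψ α : H →* H) (hψ : IsNormalEnd ψ) (hα : IsNormalEnd α)
    (hαb : Function.Bijective α) (h : ∀ x, φ x * ψ x = α x) :
    Function.Bijective φ ∨ Function.Bijective ψ := by
  let a : H ≃* H := MulEquiv.ofBijective α hαb
  have ha : ∀ x, α (a.symm x) = x := fun x => a.apply_symm_apply x
  have ha' : ∀ x, a.symm (α x) = x := fun x => a.symm_apply_apply x
  have hβn : ∀ g x : H, a.symm (g * x * g⁻¹) = g * a.symm x * g⁻¹ := by
    intro g x
    apply hαb.1
    rw [ha, hα, ha]
  have hψ' : IsNormalEnd (ψ.comp a.symm.toMonoidHom) := by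
    intro g x
    show ψ (a.symm (g * x * g⁻¹)) = g * ψ (a.symm x) * g⁻¹
    rw [hβn, hψ]
  have h' : ∀ x, (φ.comp a.symm.toMonoidHom) x * (ψ.comp a.symm.toMonoidHom) x = x := by
    intro x
    show φ (a.symm x) * ψ (a.symm x) = x
    rw [h, ha]
  rcases bijective_or_of_mul_eq_self hH _ _ hψ' h' with hb | hb
  · left
    have : (⇑φ) = (⇑(φ.comp a.symm.toMonoidHom)) ∘ (⇑α) := by
      funext x
      show φ x = φ (a.symm (α x))
      rw [ha']
    rw [this]
    exact hb.comp hαb
  · right
    have : (⇑ψ) = (⇑(ψ.comp a.symm.toMonoidHom)) ∘ (⇑α) := by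
      funext x
      show ψ x = ψ (a.symm (α x))
      rw [ha']
    rw [this]
    exact hb.comp hαb

theorem exists_bijective_of_family {H : Type*} [Group H] [Finite H] (hH : Indec H)
    {κ : Type*} [DecidableEq κ] (Θ : Finset κ → (H →* H)) (hΘn : ∀ S, IsNormalEnd (Θ S))
    (hΘ0 : ∀ x, Θ ∅ x = 1)
    (hΘins : ∀ j S, j ∉ S → ∀ x, Θ (insert j S) x = Θ {j} x * Θ S x) :
    ∀ S, Function.Bijective (Θ S) → ∃ j ∈ S, Function.Bijective (Θ {j}) := by
  intro S
  induction S using Finset.induction_on with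
  | empty =>
    intro hb
    exfalso
    obtain ⟨x, y, hxy⟩ := hH.1
    apply hxy
    apply hb.1
    rw [hΘ0, hΘ0]
  | insert j S hj ih =>
    intro hb
    rcases bijective_or_of_mul_eq hH (Θ {j}) (Θ S) (Θ (insert j S)) (hΘn S) (hΘn _) hb
      (fun x => (hΘins j S hj x).symm) with h1 | h1
    · exact ⟨j, Finset.mem_insert_self j S, h1⟩
    · obtain ⟨j', hj', hb'⟩ := ih h1
      exact ⟨j', Finset.mem_insert_of_mem hj', hb'⟩

end Fitting

section KRS

universe u v

variable {ι κ : Type} [Fintype ι] [Fintype κ] [DecidableEq ι] [DecidableEq κ]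
  {A : ι → Type u} {B : κ → Type v} [∀ i, Group (A i)] [∀ j, Group (B j)]
  [∀ i, Finite (A i)] [∀ j, Finite (B j)]

/-- Projection onto the coordinates in `S`. -/
def piProj (B : κ → Type v) [∀ j, Group (B j)] (S : Finset κ) :
    ((j : κ) → B j) →* ((j : κ) → B j) where
  toFun y j := if j ∈ S then y j else 1
  map_one' := by funext j; simp
  map_mul' x y := by funext j; by_cases h : j ∈ S <;> simp [h]

omit [Fintype κ] [∀ j, Finite (B j)] in
theorem piProj_apply (S : Finset κ) (y : (j : κ) → B j) (j : κ) :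
    piProj B S y j = if j ∈ S then y j else 1 := rfl

/-- Extension by one. -/
def piExt (A : ι → Type u) [∀ i, Group (A i)] (i₀ : ι) :
    ((i : {i // i ≠ i₀}) → A i) →* ((i : ι) → A i) where
  toFun a i := if h : i = i₀ then 1 else a ⟨i, h⟩
  map_one' := by funext i; by_cases h : i = i₀ <;> simp [h]
  map_mul' x y := by funext i; by_cases h : i = i₀ <;> simp [h]

omit [Fintype ι] [∀ i, Finite (A i)] in
theorem piExt_apply (i₀ : ι) (a : (i : {i // i ≠ i₀}) → A i) (i : ι) :
    piExt A i₀ a i = if h : i = i₀ then 1 else a ⟨i, h⟩ := rfl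

/-- Restriction. -/
def piRes (B : κ → Type v) [∀ j, Group (B j)] (j₀ : κ) :
    ((j : κ) → B j) →* ((j : {j // j ≠ j₀}) → B j) where
  toFun y j := y j.1
  map_one' := rfl
  map_mul' _ _ := rfl

omit [Fintype ι] in
theorem krs_step (e : ((i : ι) → A i) ≃* ((j : κ) → B j)) (hA : ∀ i, Indec (A i))
    (hB : ∀ j, Indec (B j)) (i₀ : ι) :
    ∃ j₀ : κ, Nonempty (A i₀ ≃* B j₀) ∧
      Nonempty (((i : {i // i ≠ i₀}) → A i) ≃* ((j : {j // j ≠ j₀}) → B j)) := by
  classical
  let Θ : Finset κ → (A i₀ →* A i₀) := fun S =>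
    (Pi.evalMonoidHom A i₀).comp (e.symm.toMonoidHom.comp ((piProj B S).comp
      (e.toMonoidHom.comp (MonoidHom.mulSingle A i₀))))
  have hΘ : ∀ S x, Θ S x = (e.symm (piProj B S (e (Pi.mulSingle i₀ x)))) i₀ := fun S x => rfl
  have hρn : ∀ S (b y : (j : κ) → B j), piProj B S (b * y * b⁻¹) = b * piProj B S y * b⁻¹ := by
    intro S b y
    funext j
    by_cases h : j ∈ S <;> simp [piProj_apply, h]
  have hΘn : ∀ S, IsNormalEnd (Θ S) := by
    intro S g x
    rw [hΘ, hΘ]
    have h1 : (Pi.mulSingle i₀ (g * x * g⁻¹) : (i : ι) → A i) =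
        Pi.mulSingle i₀ g * Pi.mulSingle i₀ x * (Pi.mulSingle i₀ g)⁻¹ := by
      rw [← Pi.mulSingle_inv, ← Pi.mulSingle_mul, ← Pi.mulSingle_mul]
    have h2 : e (Pi.mulSingle i₀ g * Pi.mulSingle i₀ x * (Pi.mulSingle i₀ g)⁻¹) =
        e (Pi.mulSingle i₀ g) * e (Pi.mulSingle i₀ x) * (e (Pi.mulSingle i₀ g))⁻¹ := by
      rw [map_mul, map_mul, map_inv]
    have h3 : e.symm (e (Pi.mulSingle i₀ g) * piProj B S (e (Pi.mulSingle i₀ x)) *
        (e (Pi.mulSingle i₀ g))⁻¹) = Pi.mulSingle i₀ g *
        e.symm (piProj B S (e (Pi.mulSingle i₀ x))) * (Pi.mulSingle i₀ g)⁻¹ := by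
      rw [map_mul, map_mul, map_inv, e.symm_apply_apply]
    rw [h1, h2, hρn, h3]
    simp
  have hΘ0 : ∀ x, Θ ∅ x = 1 := by
    intro x
    rw [hΘ]
    have : piProj B ∅ (e (Pi.mulSingle i₀ x)) = 1 := by
      funext j; simp [piProj_apply]
    rw [this, map_one]; rfl
  have hΘins : ∀ j S, j ∉ S → ∀ x, Θ (insert j S) x = Θ {j} x * Θ S x := by
    intro j S hj x
    rw [hΘ, hΘ, hΘ]
    have : ∀ y : (j : κ) → B j, piProj B (insert j S) y = piProj B {j} y * piProj B S y := by
      intro y
      funext k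
      by_cases hk : k = j
      · subst hk; simp [piProj_apply, hj]
      · by_cases hkS : k ∈ S <;> simp [piProj_apply, hk, hkS]
    rw [this, map_mul]; rfl
  have hΘuniv : Function.Bijective (Θ Finset.univ) := by
    have : ∀ x, Θ Finset.univ x = x := by
      intro x
      rw [hΘ]
      have h1 : ∀ y : (j : κ) → B j, piProj B Finset.univ y = y := by
        intro y; funext k; simp [piProj_apply]
      rw [h1, e.symm_apply_apply]; simp
    have h2 : (⇑(Θ Finset.univ)) = id := funext this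
    rw [h2]; exact Function.bijective_id
  obtain ⟨j₀, -, hbij⟩ := exists_bijective_of_family (hA i₀) Θ hΘn hΘ0 hΘins Finset.univ hΘuniv
  let f : A i₀ →* B j₀ :=
    (Pi.evalMonoidHom B j₀).comp (e.toMonoidHom.comp (MonoidHom.mulSingle A i₀))
  let g : B j₀ →* A i₀ :=
    (Pi.evalMonoidHom A i₀).comp (e.symm.toMonoidHom.comp (MonoidHom.mulSingle B j₀))
  have hf : ∀ x, f x = (e (Pi.mulSingle i₀ x)) j₀ := fun x => rfl
  have hg : ∀ b, g b = (e.symm (Pi.mulSingle j₀ b)) i₀ := fun b => rfl
  have hgf : ∀ x, g (f x) = Θ {j₀} x := by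
    intro x
    rw [hg, hf, hΘ]
    have : ∀ y : (j : κ) → B j, piProj B {j₀} y = Pi.mulSingle j₀ (y j₀) := by
      intro y
      funext k
      by_cases hk : k = j₀
      · subst hk; simp [piProj_apply]
      · simp [piProj_apply, hk]
    rw [this]
  have hgfb : Function.Bijective (fun x => g (f x)) := by
    have : (fun x => g (f x)) = ⇑(Θ {j₀}) := funext hgf
    rw [this]; exact hbij
  have hfinj : Function.Injective f := by
    intro x y hxy
    apply hgfb.1
    show g (f x) = g (f y)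
    rw [hxy]
  -- the range of f is normal
  have hRn : f.range.Normal := by
    constructor
    rintro _ ⟨x, rfl⟩ b
    refine ⟨g b * x * (g b)⁻¹, ?_⟩
    rw [hf, hf, hg]
    set u := e.symm (Pi.mulSingle j₀ b) with hu
    have h1 : (Pi.mulSingle i₀ (u i₀ * x * (u i₀)⁻¹) : (i : ι) → A i) =
        u * Pi.mulSingle i₀ x * u⁻¹ := by
      funext i
      by_cases hi : i = i₀
      · subst hi; simp
      · simp [Pi.mulSingle_eq_of_ne hi]
    rw [h1, map_mul, map_mul, map_inv, hu, e.apply_symm_apply]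
    simp
  have hKn : g.ker.Normal := inferInstance
  have hinf : g.ker ⊓ f.range = ⊥ := by
    rw [eq_bot_iff]
    rintro y ⟨hyK, x, rfl⟩
    have h1 : g (f x) = 1 := hyK
    have h2 : x = 1 := by
      apply hgfb.1
      show g (f x) = g (f 1)
      rw [h1, map_one, map_one]
    rw [Subgroup.mem_bot, h2, map_one]
  have hsup : g.ker ⊔ f.range = ⊤ := by
    rw [eq_top_iff]
    intro b _
    obtain ⟨x, hx⟩ := hgfb.2 (g b)
    have hx' : g (f x) = g b := hx
    have h1 : b * (f x)⁻¹ ∈ g.ker := by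
      rw [MonoidHom.mem_ker, map_mul, map_inv, hx', mul_inv_cancel]
    have h2 : f x ∈ f.range := ⟨x, rfl⟩
    have h3 : b = b * (f x)⁻¹ * f x := by group
    rw [h3]
    exact Subgroup.mul_mem_sup h1 h2
  have hK : g.ker = ⊥ := by
    rcases (hB j₀).2 g.ker f.range hKn hRn hinf hsup with hK | hR
    · exact hK
    · exfalso
      obtain ⟨x, y, hxy⟩ := (hA i₀).1
      apply hxy
      apply hfinj
      have hx : f x ∈ f.range := ⟨x, rfl⟩
      have hy : f y ∈ f.range := ⟨y, rfl⟩
      rw [hR, Subgroup.mem_bot] at hx hy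
      rw [hx, hy]
  have hginj : Function.Injective g := (MonoidHom.ker_eq_bot_iff g).mp hK
  have hfsurj : Function.Surjective f := by
    intro b
    obtain ⟨x, hx⟩ := hgfb.2 (g b)
    exact ⟨x, hginj hx⟩
  have hfb : Function.Bijective f := ⟨hfinj, hfsurj⟩
  refine ⟨j₀, ⟨MulEquiv.ofBijective f hfb⟩, ?_⟩
  let Φ : ((i : {i // i ≠ i₀}) → A i) →* ((j : {j // j ≠ j₀}) → B j) :=
    (piRes B j₀).comp (e.toMonoidHom.comp (piExt A i₀))
  have hΦ : ∀ a (j : {j // j ≠ j₀}), Φ a j = e (piExt A i₀ a) j.1 := fun a j => rfl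
  have hΦinj : Function.Injective Φ := by
    rw [injective_iff_map_eq_one]
    intro a ha
    have h1 : e (piExt A i₀ a) = Pi.mulSingle j₀ ((e (piExt A i₀ a)) j₀) := by
      funext j
      by_cases h : j = j₀
      · subst h; simp
      · rw [Pi.mulSingle_eq_of_ne h]
        have := congrFun ha ⟨j, h⟩
        rw [hΦ] at this
        exact this
    have h2 : g ((e (piExt A i₀ a)) j₀) = 1 := by
      rw [hg, ← h1, e.symm_apply_apply, piExt_apply]
      simp
    have h3 : (e (piExt A i₀ a)) j₀ = 1 := hginj (h2.trans g.map_one.symm)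
    have h4 : e (piExt A i₀ a) = 1 := by
      rw [h1, h3, Pi.mulSingle_one]
    have h5 : piExt A i₀ a = 1 := by
      apply e.injective
      rw [h4, map_one]
    funext ⟨i, hi⟩
    have := congrFun h5 i
    rw [piExt_apply] at this
    simpa [hi] using this
  have hcard : Nat.card ((j : {j // j ≠ j₀}) → B j) = Nat.card ((i : {i // i ≠ i₀}) → A i) := by
    have hA1 : Nat.card ((i : ι) → A i) =
        Nat.card (A i₀) * Nat.card ((i : {i // i ≠ i₀}) → A i) := by
      rw [Nat.card_congr (Equiv.piSplitAt i₀ A), Nat.card_prod]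
    have hB1 : Nat.card ((j : κ) → B j) =
        Nat.card (B j₀) * Nat.card ((j : {j // j ≠ j₀}) → B j) := by
      rw [Nat.card_congr (Equiv.piSplitAt j₀ B), Nat.card_prod]
    have h0 : Nat.card ((i : ι) → A i) = Nat.card ((j : κ) → B j) := Nat.card_congr e.toEquiv
    have h1 : Nat.card (A i₀) = Nat.card (B j₀) := Nat.card_congr (Equiv.ofBijective f hfb)
    have hpos : 0 < Nat.card (A i₀) := Nat.card_pos
    rw [hA1, hB1, ← h1] at h0
    exact (Nat.eq_of_mul_eq_mul_left hpos h0).symm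
  have hΦb : Function.Bijective Φ := hΦinj.bijective_of_nat_card_le (le_of_eq hcard)
  exact ⟨MulEquiv.ofBijective Φ hΦb⟩

theorem krs_aux : ∀ (N : ℕ) (ι κ : Type) [Fintype ι] [Fintype κ] [DecidableEq ι] [DecidableEq κ]
    (A : ι → Type u) (B : κ → Type v) [∀ i, Group (A i)] [∀ j, Group (B j)]
    [∀ i, Finite (A i)] [∀ j, Finite (B j)],
    Fintype.card ι = N → (∀ i, Indec (A i)) → (∀ j, Indec (B j)) →
    (((i : ι) → A i) ≃* ((j : κ) → B j)) → ∃ σ : ι ≃ κ, ∀ i, Nonempty (A i ≃* B (σ i)) := by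
  intro N
  induction N with
  | zero =>
    intro ι κ _ _ _ _ A B _ _ _ _ hN hA hB e
    have hι : IsEmpty ι := Fintype.card_eq_zero_iff.mp hN
    have hκ : IsEmpty κ := by
      constructor
      intro j
      obtain ⟨x, y, hxy⟩ := (hB j).1
      apply hxy
      have h1 : (Pi.mulSingle j x : (j : κ) → B j) = Pi.mulSingle j y := by
        apply e.symm.injective
        funext i
        exact isEmptyElim i
      have := congrFun h1 j
      simpa using this
    exact ⟨Equiv.equivOfIsEmpty ι κ, fun i => isEmptyElim i⟩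
  | succ N ih =>
    intro ι κ _ _ _ _ A B _ _ _ _ hN hA hB e
    have hne : Nonempty ι := by
      rw [← Fintype.card_pos_iff, hN]; exact Nat.succ_pos N
    obtain ⟨i₀⟩ := hne
    obtain ⟨j₀, ⟨e₀⟩, ⟨e'⟩⟩ := krs_step e hA hB i₀
    have hcard : Fintype.card {i // i ≠ i₀} = N := by
      have h1 := Fintype.card_congr (Equiv.optionSubtypeNe i₀)
      rw [Fintype.card_option, hN] at h1
      omega
    obtain ⟨σ', hσ'⟩ := ih {i // i ≠ i₀} {j // j ≠ j₀} (fun i => A i) (fun j => B j) hcard
      (fun i => hA i) (fun j => hB j) e'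
    refine ⟨(Equiv.optionSubtypeNe i₀).symm.trans
      ((Equiv.optionCongr σ').trans (Equiv.optionSubtypeNe j₀)), ?_⟩
    intro i
    by_cases h : i = i₀
    · subst h
      have hσ : ((Equiv.optionSubtypeNe i).symm.trans
          ((Equiv.optionCongr σ').trans (Equiv.optionSubtypeNe j₀))) i = j₀ := by
        simp
      rw [hσ]
      exact ⟨e₀⟩
    · have hσ : ((Equiv.optionSubtypeNe i₀).symm.trans
          ((Equiv.optionCongr σ').trans (Equiv.optionSubtypeNe j₀))) i = (σ' ⟨i, h⟩ : κ) := by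
        simp [Equiv.optionSubtypeNe_symm_of_ne h]
      rw [hσ]
      exact hσ' ⟨i, h⟩

end KRS

end Cfsg.Agent.Helper70
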