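import Mathlib
import Cfsg.Prelude.Def_GeometricClasses
import Cfsg.Prelude.Def_Classical
import Cfsg.Agent.Helper13.NPDefs
import Cfsg.Agent.Helper96.OHDefs
import Cfsg.Agent.Helper31.OHOFIX
import Cfsg.Agent.Helper31.NPSUBATOM
import Cfsg.Agent.Helper33.NPEMB2
import Cfsg.Agent.Helper84.NPISOND

set_option autoImplicit false
set_option linter.unusedSectionVars false
set_option linter.unusedVariables false

namespace Cfsg.Agent.Helper70.NP5989

open Module Cfsg Cfsg.Geo Cfsg.Agent.Helper13.NP Cfsg.Agent.Helper96.OH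
open scoped MatrixGroups

universe u

variable {ι : Type} [Fintype ι] [DecidableEq ι] {F : Type*} [Field F] [Fintype F]
  (Q : (ι → F) → F)

/-- GOODCORE. -/
theorem np_good_core (hQ : IsNondegenerateQuadraticForm Q) (h2 : (2 : F) ≠ 0)
    (T : Module.End F (ι → F)) (hT : OPres Q T) (r : ℕ) [Fact r.Prime] (hr2 : 2 < r)
    (hrF : (r : F) ≠ 0) (hTr : T ^ r = 1) (i c : ℕ)
    (hi : i = orderOf ((Fintype.card F : ℕ) : ZMod r)) (hc : c = if Even i then i else 2 * i)
    (W₀ : Submodule F (ι → F)) (hW₀ : ONd Q W₀) (m : ℕ) (hm : finrank F W₀ = m) (hmo : Odd m)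
    (hmn : m + 1 ≤ Fintype.card ι)
    (hC : m % c < finrank F (LinearMap.ker (T - 1)) ∨
      Fintype.card ι - finrank F (LinearMap.ker (T - 1)) ≤ c * (m / c)) :
    ∃ W : Submodule F (ι → F), NPX Q W₀ m W ∧ W.map T ≤ W := by
  classical
  have hr0 : 0 < r := by omega
  obtain ⟨hCnd, P, -, hPT, hPnd, hPk, hsup, horth, hdim⟩ :=
    Cfsg.Agent.Helper31.OH5992.o_fix Q hQ T hT r hr0 hrF hTr ⊤ le_top (ond_top Q hQ)
  rw [top_inf_eq] at hCnd hsup horth hdim
  rw [finrank_top, Module.finrank_fintype_fun_eq_card] at hdim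
  have hceven : Even c := by
    rw [hc]
    split_ifs with h
    · exact h
    · exact even_two_mul i
  have hcm : c * (m / c) ≤ m := Nat.mul_div_le m c
  have hcmne : c * (m / c) ≠ m := by
    intro h
    have h3 : Even m := by rw [← h]; exact hceven.mul_right _
    exact (Nat.not_even_iff_odd.mpr hmo) h3
  have hmod : m % c + c * (m / c) = m := Nat.mod_add_div m c
  obtain ⟨A, hA⟩ : ∃ A : ℕ, A = c * (m / c) := ⟨_, rfl⟩
  obtain ⟨B, hB⟩ : ∃ B : ℕ, B = m % c := ⟨_, rfl⟩
  rw [← hA] at hcm hcmne hmod hC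
  rw [← hB] at hmod hC
  have hCfix : ∀ w ∈ LinearMap.ker (T - 1), T w = w := by
    intro w hw
    rw [LinearMap.mem_ker, LinearMap.sub_apply, Module.End.one_apply, sub_eq_zero] at hw
    exact hw
  have key : ∀ U : Submodule F (ι → F), U ≤ P → U.map T ≤ U → ONd Q U → finrank F U < m →
      m - finrank F U + 1 ≤ finrank F (LinearMap.ker (T - 1)) →
      ∃ W : Submodule F (ι → F), NPX Q W₀ m W ∧ W.map T ≤ W := by
    intro U hUP hUT hUnd hlt hdimU
    have horthU : OOrth Q U (LinearMap.ker (T - 1)) := fun u hu v hv => by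
      rw [QuadraticMap.polar_comm]
      exact horth v hv u (hUP hu)
    obtain ⟨W', hW'C, hiso⟩ := Cfsg.Agent.Helper33.NP5989.np_emb_two Q hQ h2 U
      (LinearMap.ker (T - 1)) W₀ hUnd hCnd hW₀ horthU (by rw [hm]; exact hlt)
      (by rw [hm]; exact hdimU)
    obtain ⟨hWnd, hWdim⟩ := Cfsg.Agent.Helper84.NP5989.np_iso_nd Q (U ⊔ W') W₀ hiso hW₀
    refine ⟨U ⊔ W', ⟨by rw [hWdim, hm], hWnd, hiso⟩, ?_⟩
    rw [Submodule.map_sup]
    apply sup_le_sup hUT
    rintro _ ⟨w, hw, rfl⟩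
    rw [hCfix w (hW'C hw)]
    exact hw
  by_cases hcase : finrank F P ≤ A
  · apply key P le_rfl hPT hPnd
    · omega
    · omega
  · push Not at hcase
    have hCm : B < finrank F (LinearMap.ker (T - 1)) := by
      rcases hC with h | h
      · exact h
      · omega
    obtain ⟨U, hUP, hUT, hUnd, hUdim⟩ := Cfsg.Agent.Helper31.NP5989.np_sub_atom Q hQ h2 T hT r
      hr2 hrF hTr i c hi hc P hPT hPnd hPk (m / c) (by rw [← hA]; exact le_of_lt hcase)
    rw [← hA] at hUdim
    apply key U hUP hUT hUnd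
    · omega
    · omega

end Cfsg.Agent.Helper70.NP5989
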