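import Mathlib
import Cfsg.Prelude.Def_GeometricClasses
import Cfsg.Prelude.Def_Classical
import Cfsg.Agent.Helper13.NPDefs
import Cfsg.Agent.Helper96.OHDefs
import Cfsg.Agent.Helper96.OHCDVD
import Cfsg.Agent.Helper84.OEETRANSFIXCore
import Cfsg.Agent.Helper70.ELCauchy

set_option autoImplicit false
set_option linter.unusedSectionVars false
set_option linter.unusedVariables false

namespace Cfsg.Agent.Helper70.NP5989

open Module Cfsg Cfsg.Geo Cfsg.Agent.Helper13.NP Cfsg.Agent.Helper96.OH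
open scoped MatrixGroups

universe u

variable {ι : Type} [Fintype ι] [DecidableEq ι] {F : Type*} [Field F] [Fintype F]
  (Q : (ι → F) → F)

/-- NDSUBCARD. -/
theorem np_nd_sub_card (hQ : IsNondegenerateQuadraticForm Q) (h2 : (2 : F) ≠ 0)
    (r : ℕ) [Fact r.Prime] (hr2 : 2 < r) (hrF : (r : F) ≠ 0) (i c : ℕ)
    (hi : i = orderOf ((Fintype.card F : ℕ) : ZMod r)) (hc : c = if Even i then i else 2 * i)
    (m : ℕ) (K : Submodule F (ι → F)) (hK : ONd Q K) (hKc : finrank F K < c)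
    (W₀ W₁ : Submodule F (ι → F)) (hW₁ : NPX Q W₀ m W₁ ∧ W₁ ≤ K) :
    ¬ r ∣ Nat.card {W : Submodule F (ι → F) // NPX Q W₀ m W ∧ W ≤ K} := by
  classical
  intro hr
  have hPr : ∀ g : Module.End F (ι → F), OPres Q g → Function.Bijective g →
      ∀ W : Submodule F (ι → F), NPX Q W₀ m W → NPX Q W₀ m (W.map g) := by
    rintro g hg hgb W ⟨h1, h2', h3⟩
    obtain ⟨i1, i2, -⟩ := Cfsg.Agent.Helper70.EL.el_iso_invariants Q g hg hgb W
    refine ⟨by rw [i1, h1], i2.mpr h2', ?_⟩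
    obtain ⟨e, he⟩ := h3
    refine ⟨(Submodule.equivMapOfInjective g hgb.1 W).symm.trans e, fun w => ?_⟩
    rw [LinearEquiv.trans_apply, he]
    have h4 : (((Submodule.equivMapOfInjective g hgb.1 W)
        ((Submodule.equivMapOfInjective g hgb.1 W).symm w) : W.map g) : ι → F) =
        g ((((Submodule.equivMapOfInjective g hgb.1 W).symm w : W)) : ι → F) :=
      Submodule.coe_equivMapOfInjective_apply g hgb.1 W _
    rw [LinearEquiv.apply_symm_apply] at h4
    rw [h4, hg]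
  have htrans : ∀ W W' : Submodule F (ι → F), NPX Q W₀ m W → NPX Q W₀ m W' → W ≤ K → W' ≤ K →
      ∃ g : Module.End F (ι → F), OPres Q g ∧ Function.Bijective g ∧ W.map g = W' ∧
        ∀ v, (∀ u ∈ K, QuadraticMap.polar Q u v = 0) → g v = v := by
    intro W W' hW hW' hWK hW'K
    obtain ⟨e, he⟩ := hW.2.2
    obtain ⟨e', he'⟩ := hW'.2.2
    have hiso : AreIsometricFor Q W W' := ⟨e.trans e'.symm, fun w => by
      rw [LinearEquiv.trans_apply]
      have h := he' (e'.symm (e w))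
      rw [LinearEquiv.apply_symm_apply] at h
      rw [← h, he]⟩
    exact Cfsg.Agent.Helper84.OE5993.oetransfix_core Q hQ K W W' hK hW.2.1 hW'.2.1 hWK hW'K hiso
  obtain ⟨y, hy1, hy2, hy3, -, hy5⟩ := Cfsg.Agent.Helper70.EL.el_cauchy_fix Q hQ r K hK
    (NPX Q W₀ m) hPr htrans W₁ hW₁ hr
  have h1 := Cfsg.Agent.Helper96.OH5992.o_cdvd Q hQ h2 y hy1 r hr2 hrF hy2 i c hi hc ⊤ le_top
    (ond_top Q hQ)
  rw [top_inf_eq, finrank_top] at h1
  have hrn := LinearMap.finrank_range_add_finrank_ker (y - 1)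
  have h4 := Submodule.finrank_mono hy5
  have h5 : finrank F (LinearMap.ker (y - 1)) ≤ finrank F (ι → F) := Submodule.finrank_le _
  have h6 := Nat.eq_zero_of_dvd_of_lt h1 (by omega)
  have h7 : LinearMap.ker (y - 1) = ⊤ := by
    apply Submodule.eq_top_of_finrank_eq
    omega
  have h8 : y - 1 = 0 := LinearMap.ker_eq_top.mp h7
  exact hy3 (sub_eq_zero.mp h8)

end Cfsg.Agent.Helper70.NP5989
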