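import Mathlib

set_option autoImplicit false

namespace Cfsg.Agent.Helper70

/-- The symmetric group on four letters is solvable. -/
theorem isSolvable_perm_of_card_eq_four {α : Type*} [Finite α] (h4 : Nat.card α = 4) :
    Group.IsSolvable (Equiv.Perm α) := by
  classical
  haveI := Fintype.ofFinite α
  -- the alternating group is solvable
  have hA : Group.IsSolvable (alternatingGroup α) := by
    haveI := alternatingGroup.normal_kleinFour h4
    rw [Group.isSolvable_iff_subgroup_quotient (alternatingGroup.kleinFour α)]
    constructor
    · have hK := alternatingGroup.kleinFour_isKleinFour h4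
      apply Group.isSolvable_of_comm
      intro a b
      exact mul_comm_of_exponent_two hK.exponent_two a b
    · have hcomm : IsMulCommutative (alternatingGroup α ⧸ alternatingGroup.kleinFour α) := by
        rw [Subgroup.Normal.quotient_commutative_iff_commutator_le,
          alternatingGroup.kleinFour_eq_commutator h4]
      apply Group.isSolvable_of_comm
      intro a b
      exact hcomm.is_comm.comm a b
  rw [Group.isSolvable_iff_subgroup_quotient (alternatingGroup α)]
  refine ⟨hA, ?_⟩
  have hcomm : IsMulCommutative (Equiv.Perm α ⧸ alternatingGroup α) := by
    rw [Subgroup.Normal.quotient_commutative_iff_commutator_le]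
    have : commutator (Equiv.Perm α) ≤ (Equiv.Perm.sign (α := α)).ker :=
      Abelianization.commutator_subset_ker _
    exact this
  apply Group.isSolvable_of_comm
  intro a b
  exact hcomm.is_comm.comm a b

end Cfsg.Agent.Helper70
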