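import Mathlib
import Cfsg.Prelude.Def_GeometricClasses
import Cfsg.Prelude.Def_Classical
import Cfsg.Agent.Helper35.S88Defs
import Cfsg.Agent.Helper35.TSSTDM
import Cfsg.Agent.Helper97.OForm
import Cfsg.Agent.Helper96.OHAux
import Cfsg.Agent.Helper31.OHOPERP
import Cfsg.Agent.Helper33.OType

set_option autoImplicit false
set_option linter.unusedSectionVars false
set_option linter.unusedVariables false

/-!
# CALL S90 (helper98; row S5990), stage T2G: reduction to the block lemmas (helper70)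

`r = p = 2`, good direction, ambient form of MINUS type.  List-free route on top of two block
properties of an isometry `T` with `T ^ 2 = 1` (the pieces BLK and CORE of CALL S74 stage T2G):
* `BlkHyp Q T`: every nonzero `T`-invariant nondegenerate subspace contains a `T`-invariant
  nondegenerate block of dimension `2`, or of dimension `4` and plus type;
* `CoreHyp Q T`: a `T`-invariant nondegenerate subspace `U` of plus type contains `T`-invariant
  nondegenerate subspaces of plus type of every dimension `4 k ≤ dim U`.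
Then (`t2g_epl`) every `T`-invariant nondegenerate subspace of minus type contains a `T`-invariant
elliptic plane, and (`t2g_minus_core`) a minus-type space of dimension `2 d` has a `T`-invariant
elliptic `m`-subspace whenever `d` is even or `m ≡ 2 (4)`.
-/

namespace Cfsg.Agent.Helper70.S90

open Module Cfsg Cfsg.Geo Cfsg.Agent.Helper35.S88
open scoped MatrixGroups

section generic

open Cfsg.Agent.Helper96.OH Cfsg.Agent.Helper96.OHAux

variable {ι : Type} [Fintype ι] [DecidableEq ι] {F : Type*} [Field F] [Fintype F]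

/-- every nonzero invariant nondegenerate subspace contains an invariant nondegenerate block of
dimension `2`, or of dimension `4` and plus type. -/
def BlkHyp (Q : (ι → F) → F) (T : Module.End F (ι → F)) : Prop :=
  ∀ U : Submodule F (ι → F), U.map T ≤ U → ONd Q U → U ≠ ⊥ →
    ∃ B : Submodule F (ι → F), B ≤ U ∧ B.map T ≤ B ∧ ONd Q B ∧
      (finrank F B = 2 ∨ (finrank F B = 4 ∧ OPl Q B))

/-- an invariant nondegenerate subspace of plus type contains invariant nondegenerate subspaces of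
plus type of every dimension `4 k`. -/
def CoreHyp (Q : (ι → F) → F) (T : Module.End F (ι → F)) : Prop :=
  ∀ U : Submodule F (ι → F), U.map T ≤ U → ONd Q U → OPl Q U → ∀ k : ℕ, 4 * k ≤ finrank F U →
    ∃ W : Submodule F (ι → F), W ≤ U ∧ W.map T ≤ W ∧ ONd Q W ∧ OPl Q W ∧ finrank F W = 4 * k

/-- EPL: an invariant nondegenerate subspace of minus type contains an invariant elliptic plane. -/
theorem t2g_epl (Q : (ι → F) → F) (hQ : IsNondegenerateQuadraticForm Q)
    (T : Module.End F (ι → F)) (hT : OPres Q T) (hT2 : T ^ 2 = 1) (hBLK : BlkHyp Q T) :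
    ∀ n : ℕ, ∀ U : Submodule F (ι → F), finrank F U = 2 * n → U.map T ≤ U → ONd Q U →
      ¬ OPl Q U →
      ∃ P : Submodule F (ι → F), P ≤ U ∧ P.map T ≤ P ∧ ONd Q P ∧ ¬ OPl Q P ∧
        finrank F P = 2 := by
  intro n
  induction n using Nat.strong_induction_on with
  | _ n ih =>
    intro U hdim hUT hUnd hUmin
    have hUne : U ≠ ⊥ := by
      rintro rfl
      exact hUmin (Cfsg.Agent.Helper33.o_plus_bot Q hQ)
    obtain ⟨B, hBU, hBT, hBnd, hB⟩ := hBLK U hUT hUnd hUne
    by_cases hBpl : OPl Q B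
    · obtain ⟨P', hP'U, hP'T, hP'nd, hinf, hsup, horth, hdimP⟩ :=
        Cfsg.Agent.Helper31.OH5992.o_perp Q hQ T hT 2 (by norm_num) hT2 U B hUnd hBnd hBU hUT hBT
      have hBev : Even (finrank F B) := by
        rcases hB with h | ⟨h, -⟩
        · exact ⟨1, by omega⟩
        · exact ⟨2, by omega⟩
      obtain ⟨n', hn', hlt⟩ : ∃ n', finrank F P' = 2 * n' ∧ n' < n := by
        rcases hB with h | ⟨h, -⟩
        · exact ⟨n - 1, by omega, by omega⟩
        · exact ⟨n - 2, by omega, by omega⟩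
      have hP'ev : Even (finrank F P') := ⟨n', by omega⟩
      have htype := Cfsg.Agent.Helper33.o_type_mul Q hQ B P' hBnd hP'nd horth hBev hP'ev
      rw [hsup] at htype
      have hP'min : ¬ OPl Q P' := fun h => hUmin (htype.mpr ⟨fun _ => h, fun _ => hBpl⟩)
      obtain ⟨P, hPP', hPT, hPnd, hPmin, hPdim⟩ := ih n' hlt P' hn' hP'T hP'nd hP'min
      exact ⟨P, hPP'.trans hP'U, hPT, hPnd, hPmin, hPdim⟩
    · rcases hB with h | ⟨-, h⟩
      · exact ⟨B, hBU, hBT, hBnd, hBpl, h⟩
      · exact absurd h hBpl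

/-- the generic core of stage T2G in minus type. -/
theorem t2g_minus_core (Q : (ι → F) → F) (hQ : IsNondegenerateQuadraticForm Q)
    (T : Module.End F (ι → F)) (hT : OPres Q T) (hT2 : T ^ 2 = 1) (hBLK : BlkHyp Q T)
    (hCORE : CoreHyp Q T) (d m : ℕ) (hcard : Fintype.card ι = 2 * d) (hminus : ¬ OPl Q ⊤)
    (hm : 2 ≤ m) (hme : Even m) (hmn : m + 2 ≤ 2 * d) (hcond : Even d ∨ m % 4 = 2) :
    ∃ W : Submodule F (ι → F), (finrank F W = m ∧ ONd Q W ∧ ¬ OPl Q W) ∧ W.map T ≤ W := by
  have htop : finrank F (⊤ : Submodule F (ι → F)) = 2 * d := by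
    rw [finrank_top, Module.finrank_fintype_fun_eq_card, hcard]
  have hndtop : ONd Q ⊤ := ond_top Q hQ
  have hTtop : (⊤ : Submodule F (ι → F)).map T ≤ ⊤ := le_top
  obtain ⟨P, -, hPT, hPnd, hPmin, hPdim⟩ :=
    t2g_epl Q hQ T hT hT2 hBLK d ⊤ htop hTtop hndtop hminus
  obtain ⟨U, -, hUT, hUnd, hinf, hsup, horth, hdimU⟩ :=
    Cfsg.Agent.Helper31.OH5992.o_perp Q hQ T hT 2 (by norm_num) hT2 ⊤ P hndtop hPnd le_top hTtop
      hPT
  have hUdim : finrank F U = 2 * d - 2 := by omega
  have hUpl : OPl Q U := by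
    have htype := Cfsg.Agent.Helper33.o_type_mul Q hQ P U hPnd hUnd horth ⟨1, by omega⟩
      ⟨d - 1, by omega⟩
    rw [hsup] at htype
    by_contra hUmin
    exact hminus (htype.mpr ⟨fun h => absurd h hPmin, fun h => absurd h hUmin⟩)
  obtain ⟨m', rfl⟩ := hme
  by_cases hm4 : (m' + m') % 4 = 2
  · obtain ⟨W', hW'U, hW'T, hW'nd, hW'pl, hW'dim⟩ :=
      hCORE U hUT hUnd hUpl ((m' + m' - 2) / 4) (by omega)
    have horth' : OOrth Q P W' := fun u hu v hv => horth u hu v (hW'U hv)
    refine ⟨P ⊔ W', ⟨?_, Cfsg.Agent.Helper33.OType.nondeg_sup Q hQ P W' hPnd hW'nd horth', ?_⟩,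
      ?_⟩
    · rw [Cfsg.Agent.Helper33.OType.finrank_sup_of_orth Q P W' hPnd horth', hPdim, hW'dim]
      omega
    · have htype := Cfsg.Agent.Helper33.o_type_mul Q hQ P W' hPnd hW'nd horth' ⟨1, by omega⟩
        ⟨2 * ((m' + m' - 2) / 4), by omega⟩
      intro h
      exact hPmin ((htype.mp h).mpr hW'pl)
    · rw [Submodule.map_sup]
      exact sup_le_sup hPT hW'T
  · have hdev : Even d := by
      rcases hcond with h | h
      · exact h
      · exact absurd h hm4
    obtain ⟨d', rfl⟩ := hdev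
    obtain ⟨W', hW'U, hW'T, hW'nd, hW'pl, hW'dim⟩ :=
      hCORE U hUT hUnd hUpl ((2 * (d' + d') - (m' + m')) / 4) (by omega)
    obtain ⟨W, -, hWT, hWnd, hinf', hsup', horth', hdimW⟩ :=
      Cfsg.Agent.Helper31.OH5992.o_perp Q hQ T hT 2 (by norm_num) hT2 ⊤ W' hndtop hW'nd le_top
        hTtop hW'T
    refine ⟨W, ⟨by omega, hWnd, ?_⟩, hWT⟩
    have htype := Cfsg.Agent.Helper33.o_type_mul Q hQ W' W hW'nd hWnd horth'
      ⟨2 * ((2 * (d' + d') - (m' + m')) / 4), by omega⟩ ⟨m', by omega⟩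
    rw [hsup'] at htype
    intro h
    exact hminus (htype.mpr ⟨fun _ => h, fun _ => hW'pl⟩)

end generic

section stage

open Cfsg.Agent.Helper96.OH Cfsg.Agent.Helper96.OHAux

variable {F : Type*} [Field F] [Fintype F]

/-- an isometry `x` with `x ^ 2` scalar is an involution in characteristic `2`. -/
theorem t2g_sq_one {κ : Type} [Fintype κ] [DecidableEq κ] [Nonempty κ] [CharP F 2]
    (Q : (κ → F) → F) (hQ : IsNondegenerateQuadraticForm Q) (x : GL κ F)
    (hx : x ∈ Cfsg.isometryGroup F Q) (z : F)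
    (hz : ((x ^ 2 : GL κ F) : Matrix κ κ F) = z • (1 : Matrix κ κ F)) :
    Matrix.toLin' (x : Matrix κ κ F) ^ 2 = 1 := by
  have hT := oh_opres_toLin' Q x hx
  have hTT : ∀ v, Matrix.toLin' (x : Matrix κ κ F) (Matrix.toLin' (x : Matrix κ κ F) v)
      = z • v := by
    intro v
    rw [Matrix.toLin'_apply, Matrix.toLin'_apply, Matrix.mulVec_mulVec, ← Units.val_mul,
      ← pow_two, hz, Matrix.smul_mulVec, Matrix.one_mulVec]
  have hQz : ∀ v, Q (z • v) = Q v := by
    intro v
    rw [← hTT v, hT, hT]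
  have hex : ∃ v, Q v ≠ 0 := by
    by_contra hall
    push Not at hall
    obtain ⟨i⟩ := ‹Nonempty κ›
    have hw0 : (Pi.single i (1 : F) : κ → F) ≠ 0 := by
      intro h
      have h1 := congrFun h i
      simp at h1
    obtain ⟨⟨y, hy⟩, -⟩ := hQ.nondegenerate _ hw0
    apply hy
    unfold QuadraticMap.polar
    rw [hall, hall, hall]
    ring
  obtain ⟨v, hv⟩ := hex
  have hz2 : z ^ 2 = 1 := by
    have h1 := hQz v
    rw [hQ.smul] at h1
    have h2 : (z ^ 2 - 1) * Q v = 0 := by linear_combination h1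
    rcases mul_eq_zero.mp h2 with h3 | h3
    · linear_combination h3
    · exact absurd h3 hv
  have h2 : (2 : F) = 0 := CharTwo.two_eq_zero
  have hz1 : z = 1 := by
    have h3 : (z - 1) ^ 2 = 0 := by linear_combination hz2 + (1 - z) * h2
    have h4 := pow_eq_zero_iff (two_ne_zero) |>.mp h3
    linear_combination h4
  apply LinearMap.ext
  intro v
  rw [pow_two, Module.End.mul_apply, hTT, hz1, one_smul]
  rfl

/-- Stage T2G of CALL S90, given the block lemmas for every involutory isometry. -/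
theorem s90_two_even_good_of {p : ℕ} [Fact p.Prime] [CharP F p] (d m : ℕ) (hd : 4 ≤ d)
    (hm : 2 ≤ m) (hme : Even m) (hmn : m + 2 ≤ 2 * d) (a b : F)
    (hab : ∀ x y : F, x ^ 2 + a * x * y + b * y ^ 2 = 0 → x = 0 ∧ y = 0) (hp2 : p = 2)
    (hcond : Even d ∨ m % 4 = 2)
    (hBLK : ∀ T : Module.End F ((Fin (d - 1) ⊕ Fin (d - 1)) ⊕ Fin 2 → F),
      OPres (Cfsg.quadFormMinus (d - 1) F a b) T → T ^ 2 = 1 →
        BlkHyp (Cfsg.quadFormMinus (d - 1) F a b) T)
    (hCORE : ∀ T : Module.End F ((Fin (d - 1) ⊕ Fin (d - 1)) ⊕ Fin 2 → F),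
      OPres (Cfsg.quadFormMinus (d - 1) F a b) T → T ^ 2 = 1 →
        CoreHyp (Cfsg.quadFormMinus (d - 1) F a b) T) :
    AllEll (Cfsg.quadFormMinus (d - 1) F a b) 2 m := by
  classical
  subst hp2
  obtain ⟨hQ, hminus⟩ := Cfsg.Agent.Helper35.TS5973.ts_std_minus (F := F) (d - 1) a b hab
  have hcard : Fintype.card ((Fin (d - 1) ⊕ Fin (d - 1)) ⊕ Fin 2) = 2 * d := by
    simp
    omega
  intro x hx hxr hns
  have hxiso := Cfsg.Agent.Helper97.Gen.omegaGL_le _ hx
  have hT := oh_opres_toLin' (Cfsg.quadFormMinus (d - 1) F a b) x hxiso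
  obtain ⟨z, hz⟩ := hxr
  have : Nonempty ((Fin (d - 1) ⊕ Fin (d - 1)) ⊕ Fin 2) := ⟨Sum.inr 0⟩
  have hT2 := t2g_sq_one (Cfsg.quadFormMinus (d - 1) F a b) hQ x hxiso z hz
  obtain ⟨W, hW, hWT⟩ := t2g_minus_core (Cfsg.quadFormMinus (d - 1) F a b) hQ _ hT hT2
    (hBLK _ hT hT2) (hCORE _ hT hT2) d m hcard hminus hm hme hmn hcond
  exact ⟨W, hW, hWT⟩

end stage

end Cfsg.Agent.Helper70.S90
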