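import Mathlib
import Cfsg.Agent.Helper87.SFDefs

/-!
# Helper70: PIECES DANN and DSEP of CALL S2752 (helper87)

Duality for finite elementary abelian 2-groups, in terms of `M →+ ZMod 2`.
-/

set_option autoImplicit false
set_option linter.style.haveILetI false

namespace Cfsg.Agent.Helper70

open Cfsg.Agent.Helper87.SF

/-- DANN -/
theorem sf_dual_ann {M : Type*} [AddCommGroup M] [Finite M] (h2 : ∀ m : M, 2 • m = 0)
    (N : AddSubgroup M) :
    Nat.card {f : M →+ ZMod 2 // ∀ n ∈ N, f n = 0} * Nat.card N = Nat.card M := by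
  letI : Module (ZMod 2) M := AddCommGroup.zmodModule h2
  haveI : Fact (Nat.Prime 2) := ⟨Nat.prime_two⟩
  let W : Submodule (ZMod 2) M := AddSubgroup.toZModSubmodule 2 N
  have e : {f : M →+ ZMod 2 // ∀ n ∈ N, f n = 0} ≃ ↥(W.dualAnnihilator) :=
    { toFun := fun f => ⟨f.1.toZModLinearMap 2, by
          rw [Submodule.mem_dualAnnihilator]
          intro w hw
          exact f.2 w hw⟩
      invFun := fun φ => ⟨(φ.1 : M →ₗ[ZMod 2] ZMod 2).toAddMonoidHom, by
          intro n hn
          exact (Submodule.mem_dualAnnihilator φ.1).mp φ.2 n hn⟩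
      left_inv := fun f => by
        ext
        rfl
      right_inv := fun φ => by
        ext
        rfl }
  have hN : Nat.card N = Nat.card W := Nat.card_congr (Equiv.subtypeEquivRight fun x => Iff.rfl)
  rw [Nat.card_congr e, hN, Module.natCard_eq_pow_finrank (K := ZMod 2) (V := W.dualAnnihilator),
    Module.natCard_eq_pow_finrank (K := ZMod 2) (V := W),
    Module.natCard_eq_pow_finrank (K := ZMod 2) (V := M), ← pow_add, add_comm,
    Subspace.finrank_add_finrank_dualAnnihilator_eq]

/-- DSEP -/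
theorem sf_dual_sep {M : Type*} [AddCommGroup M] [Finite M] (h2 : ∀ m : M, 2 • m = 0)
    (m : M) (hm : m ≠ 0) : ∃ f : M →+ ZMod 2, f m ≠ 0 := by
  letI : Module (ZMod 2) M := AddCommGroup.zmodModule h2
  by_contra hcon
  push Not at hcon
  apply hm
  apply (Module.forall_dual_apply_eq_zero_iff (ZMod 2) m).mp
  intro φ
  exact hcon (φ : M →ₗ[ZMod 2] ZMod 2).toAddMonoidHom

end Cfsg.Agent.Helper70
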