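import Mathlib
import Cfsg.Agent.Helper87.SFDefs
import Cfsg.Agent.Helper70.SFDANN

/-!
# Helper70: PIECE DMAIN of CALL S2752 (helper87): the dual module `M →+ ZMod 2`.
-/

set_option autoImplicit false
set_option linter.style.haveILetI false

namespace Cfsg.Agent.Helper70

open Cfsg.Agent.Helper87.SF

/-- DMAIN -/
theorem sf_dual_main {Γ M : Type*} [Group Γ] [AddCommGroup M] [Finite M] [DistribMulAction Γ M]
    (h2 : ∀ m : M, 2 • m = 0) (A : Subgroup Γ) :
    letI := dualAct Γ M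
    Finite (M →+ ZMod 2) ∧ (∀ f : M →+ ZMod 2, 2 • f = 0) ∧
    ((∀ g : Γ, (∀ m : M, g • m = m) → g = 1) →
      ∀ g : Γ, (∀ f : M →+ ZMod 2, g • f = f) → g = 1) ∧
    Nat.card (M →+ ZMod 2) = Nat.card M ∧
    Nat.card {f : M →+ ZMod 2 // ∀ a ∈ A, a • f = f} *
      Nat.card (AddSubgroup.closure {x : M | ∃ a ∈ A, ∃ m : M, x = a • m - m}) = Nat.card M := by
  letI := dualAct Γ M
  have hfin : Finite (M →+ ZMod 2) :=
    Finite.of_injective (fun f : M →+ ZMod 2 => (f : M → ZMod 2)) DFunLike.coe_injective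
  refine ⟨hfin, ?_, ?_, ?_, ?_⟩
  · intro f
    ext m
    have h : ∀ x : ZMod 2, 2 • x = 0 := by decide
    rw [AddMonoidHom.smul_apply, AddMonoidHom.zero_apply, h]
  · intro hfaith g hg
    have h1 : ∀ m : M, g⁻¹ • m = m := by
      intro m
      by_contra hne
      obtain ⟨f, hf⟩ := sf_dual_sep h2 (g⁻¹ • m - m) (sub_ne_zero.mpr hne)
      apply hf
      have h3 : (g • f) m = f m := by rw [hg f]
      have h4 : (g • f) m = f (g⁻¹ • m) := rfl
      rw [map_sub, ← h4, h3, sub_self]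
    have h5 := hfaith g⁻¹ h1
    exact inv_eq_one.mp h5
  · have h := sf_dual_ann h2 (⊥ : AddSubgroup M)
    rw [AddSubgroup.card_bot, mul_one] at h
    rw [← h]
    refine Nat.card_congr (Equiv.subtypeUnivEquiv ?_).symm
    intro f n hn
    rw [AddSubgroup.mem_bot] at hn
    rw [hn, map_zero]
  · have h := sf_dual_ann h2
      (AddSubgroup.closure {x : M | ∃ a ∈ A, ∃ m : M, x = a • m - m})
    rw [← h]
    congr 1
    refine Nat.card_congr (Equiv.subtypeEquivRight ?_)
    intro f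
    constructor
    · intro hf n hn
      have hle : AddSubgroup.closure {x : M | ∃ a ∈ A, ∃ m : M, x = a • m - m} ≤ f.ker := by
        rw [AddSubgroup.closure_le]
        rintro x ⟨a, ha, m, rfl⟩
        show f (a • m - m) = 0
        have h3 : (a⁻¹ • f) m = f m := by rw [hf a⁻¹ (A.inv_mem ha)]
        have h4 : (a⁻¹ • f) m = f (a⁻¹⁻¹ • m) := rfl
        rw [inv_inv] at h4
        rw [map_sub, ← h4, h3, sub_self]
      exact hle hn
    · intro hf a ha
      ext m
      show f (a⁻¹ • m) = f m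
      have h3 : f (a⁻¹ • m - m) = 0 :=
        hf _ (AddSubgroup.subset_closure ⟨a⁻¹, A.inv_mem ha, m, rfl⟩)
      rw [map_sub] at h3
      exact sub_eq_zero.mp h3

end Cfsg.Agent.Helper70
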