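import Mathlib
import Cfsg.Agent.Helper87.SFDefs
import Cfsg.Agent.Helper87.ConjAct

/-!
# Helper70: PIECES TRFIX and TRCOMM of CALL S2752 (helper87)

Translation between a subgroup `M` normalized by `G ≥ A` and the module `Additive M` with the
conjugation action (`Helper87.conjAddAction`).
-/

set_option autoImplicit false
set_option linter.style.haveILetI false

namespace Cfsg.Agent.Helper70

open Cfsg.Agent.Helper87 Cfsg.Agent.Helper87.SF

/-- TRFIX -/
theorem sf_tr_fix {L : Type*} [Group L] [Finite L] (M G A : Subgroup L)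
    (hGM : G ≤ Subgroup.normalizer (M : Set L)) (hA : A ≤ G) :
    letI := conjAddAction G M hGM
    Nat.card ↥(M ⊓ Subgroup.centralizer (A : Set L)) =
      Nat.card {m : Additive ↥M // ∀ a ∈ A.subgroupOf G, a • m = m} := by
  letI := conjAddAction G M hGM
  apply Nat.card_congr
  exact
    { toFun := fun x => ⟨Additive.ofMul ⟨x.1, x.2.1⟩, by
        intro a ha
        have ha' : (a : L) ∈ A := Subgroup.mem_subgroupOf.mp ha
        have h1 : (a : L) * x.1 = x.1 * (a : L) :=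
          Subgroup.mem_centralizer_iff.mp x.2.2 (a : L) ha'
        have h2 : nat2Conj G M hGM a ⟨x.1, x.2.1⟩ = ⟨x.1, x.2.1⟩ := by
          apply Subtype.ext
          rw [nat2Conj_coe]
          show (a : L) * x.1 * (a : L)⁻¹ = x.1
          rw [h1, mul_inv_cancel_right]
        exact congrArg Additive.ofMul h2⟩
      invFun := fun m => ⟨((Additive.toMul m.1 : ↥M) : L), Subgroup.mem_inf.mpr
          ⟨(Additive.toMul m.1).2, by
        rw [Subgroup.mem_centralizer_iff]
        intro h hh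
        have hfix := m.2 ⟨h, hA hh⟩ (Subgroup.mem_subgroupOf.mpr hh)
        have h1 : nat2Conj G M hGM ⟨h, hA hh⟩ (Additive.toMul m.1) = Additive.toMul m.1 :=
          Additive.ofMul.injective hfix
        have h2 : h * ((Additive.toMul m.1 : ↥M) : L) * h⁻¹ = ((Additive.toMul m.1 : ↥M) : L) :=
          congrArg Subtype.val h1
        calc h * ((Additive.toMul m.1 : ↥M) : L)
            = h * ((Additive.toMul m.1 : ↥M) : L) * h⁻¹ * h := by group
          _ = ((Additive.toMul m.1 : ↥M) : L) * h := by rw [h2]⟩⟩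
      left_inv := fun x => rfl
      right_inv := fun m => rfl }

open scoped commutatorElement in
/-- TRCOMM -/
theorem sf_tr_comm {L : Type*} [Group L] [Finite L] (M G A : Subgroup L)
    (hGM : G ≤ Subgroup.normalizer (M : Set L)) (hA : A ≤ G) :
    letI := conjAddAction G M hGM
    Nat.card ↥⁅M, A⁆ =
      Nat.card ↥(AddSubgroup.closure
        {x : Additive ↥M | ∃ a ∈ A.subgroupOf G, ∃ m : Additive ↥M, x = a • m - m}) := by
  letI := conjAddAction G M hGM
  obtain ⟨S', hS'⟩ : ∃ S' : Set ↥M,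
      S' = {y | ∃ a ∈ A.subgroupOf G, ∃ m : ↥M, y = nat2Conj G M hGM a m / m} := ⟨_, rfl⟩
  have hset : {x : Additive ↥M | ∃ a ∈ A.subgroupOf G, ∃ m : Additive ↥M, x = a • m - m}
      = Additive.toMul ⁻¹' S' := by
    rw [hS']
    ext x
    constructor
    · rintro ⟨a, ha, m, rfl⟩
      exact ⟨a, ha, Additive.toMul m, rfl⟩
    · rintro ⟨a, ha, m, hm⟩
      exact ⟨a, ha, Additive.ofMul m, Additive.toMul.injective hm⟩
  rw [hset, ← Subgroup.toAddSubgroup_closure]
  have h1 : Nat.card ↥(Subgroup.toAddSubgroup (Subgroup.closure S'))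
      = Nat.card ↥(Subgroup.closure S') :=
    Nat.card_congr (Equiv.subtypeEquiv Additive.toMul (fun x => Iff.rfl))
  rw [h1, ← Subgroup.card_map_of_injective M.subtype_injective (K := Subgroup.closure S'),
    MonoidHom.map_closure, Subgroup.commutator_comm, Subgroup.commutator_def]
  have h2 : {g | ∃ g₁ ∈ A, ∃ g₂ ∈ M, ⁅g₁, g₂⁆ = g} = (M.subtype : ↥M → L) '' S' := by
    rw [hS']
    ext g
    constructor
    · rintro ⟨g₁, hg₁, g₂, hg₂, rfl⟩
      refine ⟨nat2Conj G M hGM ⟨g₁, hA hg₁⟩ ⟨g₂, hg₂⟩ / ⟨g₂, hg₂⟩,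
        ⟨⟨g₁, hA hg₁⟩, Subgroup.mem_subgroupOf.mpr hg₁, ⟨g₂, hg₂⟩, rfl⟩, ?_⟩
      show ((nat2Conj G M hGM ⟨g₁, hA hg₁⟩ ⟨g₂, hg₂⟩ / ⟨g₂, hg₂⟩ : ↥M) : L) = ⁅g₁, g₂⁆
      rw [Subgroup.coe_div, nat2Conj_coe, commutatorElement_def, div_eq_mul_inv]
    · rintro ⟨y, ⟨a, ha, m, rfl⟩, rfl⟩
      refine ⟨(a : L), Subgroup.mem_subgroupOf.mp ha, (m : L), m.2, ?_⟩
      show ⁅(a : L), (m : L)⁆ = ((nat2Conj G M hGM a m / m : ↥M) : L)
      rw [Subgroup.coe_div, nat2Conj_coe, commutatorElement_def, div_eq_mul_inv]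
  rw [h2]

end Cfsg.Agent.Helper70
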