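import Mathlib
import Cfsg.Agent.Helper71.SODefs
import Cfsg.Agent.Helper96.T5Defs

/-!
# Helper70: PIECE IA of CALL S5843 (helper71): `rad_comm`.

An element `ρ ∈ M` of the "radical" `R_u` commutes with the root elements `1 ⊗ r_{u,w}`.
-/

set_option autoImplicit false

namespace Cfsg.Agent.Helper70.SOIA

open Matrix Cfsg.Agent.Helper71.T4 Cfsg.Agent.Helper71.SO
open scoped Kronecker

variable {F : Type*} [Field F] {n : ℕ}

section Aux

open Cfsg.Agent.Helper96.T5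

theorem ia_bl_symm (S : Matrix (Fin n) (Fin n) F) (hS : Sᵀ = S) (x y : Fin n → F) :
    bl S x y = bl S y x := by
  unfold bl
  rw [Matrix.dotProduct_mulVec, ← Matrix.mulVec_transpose, hS, dotProduct_comm]

theorem ia_ruw_mulVec (S : Matrix (Fin n) (Fin n) F) (hS : Sᵀ = S)
    (u w x : Fin n → F) (huu : bl S u u = 0) (huw : bl S u w = 0) :
    ruw S u w *ᵥ x = x + (bl S x w - 2⁻¹ * bl S w w * bl S x u) • u - bl S x u • w := by
  have hN : ∀ z, Nuw S u w *ᵥ z = bl S z w • u - bl S z u • w := fun z => dm_mulVec S u w z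
  have hwu : bl S w u = 0 := by rw [ia_bl_symm S hS, huw]
  unfold ruw
  rw [Matrix.add_mulVec, Matrix.add_mulVec, Matrix.one_mulVec, Matrix.smul_mulVec,
    ← Matrix.mulVec_mulVec, hN x, Matrix.mulVec_sub, Matrix.mulVec_smul, Matrix.mulVec_smul,
    hN u, hN w, huu, huw, hwu]
  module

theorem ia_ext_bf (A B : Matrix (Fin n) (Fin n) F) (h : ∀ x y, bf A x y = bf B x y) : A = B := by
  ext i j
  have h1 := h (Pi.single i 1) (Pi.single j 1)
  simpa [bf] using h1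

theorem ia_ruw_isom (h2 : (2 : F) ≠ 0) (S : Matrix (Fin n) (Fin n) F) (hS : Sᵀ = S)
    (u w : Fin n → F) (huu : bl S u u = 0) (huw : bl S u w = 0) :
    (ruw S u w)ᵀ * S * ruw S u w = S := by
  apply ia_ext_bf
  intro x y
  rw [← bf_mulVec_right, ← bf_mulVec_left, ia_ruw_mulVec S hS u w x huu huw,
    ia_ruw_mulVec S hS u w y huu huw]
  have hwu : bl S w u = 0 := by rw [ia_bl_symm S hS, huw]
  have e1 : bl S u y = bl S y u := ia_bl_symm S hS u y
  have e2 : bl S w y = bl S y w := ia_bl_symm S hS w y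
  simp only [bf_add_left, bf_sub_left, bf_smul_left, bf_add_right, bf_sub_right, bf_smul_right]
  change bl S u u = 0 at huu
  have huu' : bf S u u = 0 := huu
  have huw' : bf S u w = 0 := huw
  have hwu' : bf S w u = 0 := hwu
  have e1' : bf S u y = bf S y u := e1
  have e2' : bf S w y = bf S y w := e2
  rw [huu', huw', hwu', e1', e2']
  show _ = bf S x y
  have h : (2 : F) * 2⁻¹ = 1 := mul_inv_cancel₀ h2
  simp only [bl]
  simp only [bf]
  linear_combination (-((w ⬝ᵥ S *ᵥ w) * (x ⬝ᵥ S *ᵥ u) * (y ⬝ᵥ S *ᵥ u))) * h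

theorem ia_root_inM (h2 : (2 : F) ≠ 0) (S : Matrix (Fin n) (Fin n) F) (hS : Sᵀ = S)
    (M : Subgroup (GL (Fin 2 × Fin n) F)) (hH : HasH S M)
    (u w : Fin n → F) (huu : bl S u u = 0) (huw : bl S u w = 0) :
    InM M ((1 : Matrix (Fin 2) (Fin 2) F) ⊗ₖ ruw S u w) :=
  hH 1 (ruw S u w) 1 (by rw [ia_ruw_isom h2 S hS u w huu huw, one_smul]) (by simp)

/-- Double perp: a vector orthogonal to `u^⊥` is a multiple of `u`. -/
theorem ia_dperp (S : Matrix (Fin n) (Fin n) F) (hdet : S.det ≠ 0) (u : Fin n → F) (hu : u ≠ 0)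
    (x : Fin n → F) (h : ∀ y, bl S u y = 0 → bl S x y = 0) : ∃ c : F, x = c • u := by
  obtain ⟨x₁, hx₁⟩ := exists_bf_eq_one S hdet u hu
  refine ⟨bf S x x₁, ?_⟩
  by_contra hne
  have hz : x - bf S x x₁ • u ≠ 0 := sub_ne_zero.mpr hne
  obtain ⟨y, hy⟩ := exists_bf_eq_one S hdet _ hz
  have h3 : bf S x (y - bf S u y • x₁) = 0 := by
    apply h
    show bf S u (y - bf S u y • x₁) = 0
    rw [bf_sub_right, bf_smul_right, hx₁, mul_one, sub_self]
  rw [bf_sub_right, bf_smul_right] at h3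
  rw [bf_sub_left, bf_smul_left] at hy
  have h4 : (1 : F) = 0 := by
    rw [← hy]
    linear_combination h3
  exact one_ne_zero h4

/-- The symplectic form against a pure tensor, in terms of the two rows. -/
theorem ia_om_row (S : Matrix (Fin n) (Fin n) F) (v : Fin 2 × Fin n → F) (a : Fin 2 → F)
    (y : Fin n → F) :
    bf (Om S) v (pt a y)
      = a 1 * bl S (fun k => v (0, k)) y - a 0 * bl S (fun k => v (1, k)) y := by
  unfold bf Om
  rw [kron_mulVec_pt]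
  simp only [dotProduct, Fintype.sum_prod_type, Fin.sum_univ_two, pt, bl]
  have e0 : (J2 F *ᵥ a) 0 = a 1 := by simp [J2, Matrix.mulVec, dotProduct, Fin.sum_univ_two]
  have e1 : (J2 F *ᵥ a) 1 = - a 0 := by simp [J2, Matrix.mulVec, dotProduct, Fin.sum_univ_two]
  rw [e0, e1, Finset.mul_sum, Finset.mul_sum, sub_eq_add_neg, ← Finset.sum_neg_distrib]
  congr 1 <;> exact Finset.sum_congr rfl fun k _ => by ring

/-- Two matrices agreeing on the pure tensors `e_j ⊗ x` are equal. -/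
theorem ia_ext (A B : Matrix (Fin 2 × Fin n) (Fin 2 × Fin n) F)
    (h : ∀ (j : Fin 2) (x : Fin n → F),
      A *ᵥ pt (Pi.single j 1) x = B *ᵥ pt (Pi.single j 1) x) : A = B := by
  ext p q
  have e : pt (Pi.single q.1 (1 : F)) (Pi.single q.2 (1 : F)) = Pi.single q 1 := by
    ext ⟨i, k⟩
    obtain ⟨q1, q2⟩ := q
    simp only [pt, Pi.single_apply, Prod.mk.injEq]
    by_cases h1 : i = q1 <;> by_cases h2 : k = q2 <;> simp [h1, h2]
  have h1 := congrFun (h q.1 (Pi.single q.2 1)) p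
  rw [e, Matrix.mulVec_single_one, Matrix.mulVec_single_one] at h1
  exact h1

/-- The conclusion of the commutator argument. -/
theorem ia_core (S : Matrix (Fin n) (Fin n) F) (hS : Sᵀ = S)
    (hdet : S.det ≠ 0) (u : Fin n → F) (hu : u ≠ 0)
    (c : Matrix (Fin 2 × Fin n) (Fin 2 × Fin n) F) (hc : IsSpM S c)
    (hcy : ∀ (a : Fin 2 → F) (y : Fin n → F), bl S u y = 0 → c *ᵥ pt a y = pt a y) :
    ∃ C : Matrix (Fin 2) (Fin 2) F, c = 1 + C ⊗ₖ vecMulVec u (S *ᵥ u) := by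
  have hω : ∀ x z, bf (Om S) (c *ᵥ x) (c *ᵥ z) = bf (Om S) x z := by
    intro x z
    rw [bf_mulVec_left, bf_mulVec_right, show cᵀ * Om S * c = Om S from hc]
  have hZ : ∀ v a y, bl S u y = 0 → bf (Om S) (c *ᵥ v - v) (pt a y) = 0 := by
    intro v a y hy
    have h1 := hω v (pt a y)
    rw [hcy a y hy] at h1
    rw [bf_sub_left, h1, sub_self]
  have hD : ∀ v, ∃ b : Fin 2 → F, c *ᵥ v - v = pt b u := by
    intro v
    have hr0 : ∀ y, bl S u y = 0 → bl S (fun k => (c *ᵥ v - v) (0, k)) y = 0 := by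
      intro y hy
      have h1 := hZ v (Pi.single 1 1) y hy
      rw [ia_om_row] at h1
      simpa using h1
    have hr1 : ∀ y, bl S u y = 0 → bl S (fun k => (c *ᵥ v - v) (1, k)) y = 0 := by
      intro y hy
      have h1 := hZ v (Pi.single 0 1) y hy
      rw [ia_om_row] at h1
      simpa using h1
    obtain ⟨c₀, hc₀⟩ := ia_dperp S hdet u hu _ hr0
    obtain ⟨c₁, hc₁⟩ := ia_dperp S hdet u hu _ hr1
    refine ⟨![c₀, c₁], ?_⟩
    funext ⟨i, k⟩
    fin_cases i
    · have h1 := congrFun hc₀ k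
      simpa [pt] using h1
    · have h1 := congrFun hc₁ k
      simpa [pt] using h1
  choose b hb using hD
  obtain ⟨x₁, hx₁⟩ := exists_bf_eq_one S hdet u hu
  refine ⟨Matrix.of fun i j => b (pt (Pi.single j 1) x₁) i, ?_⟩
  apply ia_ext
  intro j x
  have hCj : (Matrix.of fun i j => b (pt (Pi.single j 1) x₁) i : Matrix (Fin 2) (Fin 2) F)
      *ᵥ Pi.single j 1 = b (pt (Pi.single j 1) x₁) := by
    rw [Matrix.mulVec_single_one]
    rfl
  have hN0 : vecMulVec u (S *ᵥ u) *ᵥ x = bl S x u • u := rk_mulVec S u u x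
  rw [Matrix.add_mulVec, Matrix.one_mulVec, kron_mulVec_pt, hCj, hN0, pt_smul_right]
  -- decompose `x`
  have hy : bl S u (x - bl S x u • x₁) = 0 := by
    show bf S u (x - bf S x u • x₁) = 0
    rw [bf_sub_right, bf_smul_right, hx₁, mul_one]
    have h1 : bf S u x = bf S x u := ia_bl_symm S hS u x
    rw [h1, sub_self]
  have hx : pt (Pi.single j (1 : F)) x
      = pt (Pi.single j 1) (x - bl S x u • x₁) + bl S x u • pt (Pi.single j 1) x₁ := by
    rw [← pt_smul_right, ← pt_add_right, sub_add_cancel]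
  have h1 := hb (pt (Pi.single j 1) x₁)
  have h2 : c *ᵥ pt (Pi.single j 1) x₁
      = pt (Pi.single j 1) x₁ + pt (b (pt (Pi.single j 1) x₁)) u := by
    rw [← h1]
    abel
  rw [hx, Matrix.mulVec_add, Matrix.mulVec_smul, hcy _ _ hy, h2, smul_add]
  abel

end Aux

/-! ## Piece IA -/
theorem rad_comm (h2 : (2 : F) ≠ 0) (S : Matrix (Fin n) (Fin n) F) (hS : Sᵀ = S)
    (hdet : S.det ≠ 0) (M : Subgroup (GL (Fin 2 × Fin n) F)) (hSp : SpLE S M) (hH : HasH S M)
    (hNS : NS1 S M) (u : Fin n → F) (hu : u ≠ 0) (huu : bl S u u = 0)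
    (ρ : GL (Fin 2 × Fin n) F) (hρ : ρ ∈ M)
    (h1 : ∀ a : Fin 2 → F, (ρ : Matrix (Fin 2 × Fin n) (Fin 2 × Fin n) F) *ᵥ pt a u = pt a u)
    (h2' : ∀ (a : Fin 2 → F) (y : Fin n → F), bl S u y = 0 → ∃ a' : Fin 2 → F,
      (ρ : Matrix (Fin 2 × Fin n) (Fin 2 × Fin n) F) *ᵥ pt a y = pt a y + pt a' u)
    (w : Fin n → F) (huw : bl S u w = 0) :
    (ρ : Matrix (Fin 2 × Fin n) (Fin 2 × Fin n) F) * ((1 : Matrix (Fin 2) (Fin 2) F) ⊗ₖ ruw S u w)
      = ((1 : Matrix (Fin 2) (Fin 2) F) ⊗ₖ ruw S u w)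
        * (ρ : Matrix (Fin 2 × Fin n) (Fin 2 × Fin n) F) := by
  obtain ⟨τ, hτM, hτ⟩ := ia_root_inM h2 S hS M hH u w huu huw
  rw [← hτ]
  have hτy : ∀ (a : Fin 2 → F) (y : Fin n → F), bl S u y = 0 →
      (τ : Matrix (Fin 2 × Fin n) (Fin 2 × Fin n) F) *ᵥ pt a y = pt a y + bl S y w • pt a u := by
    intro a y hy
    rw [hτ, kron_mulVec_pt, Matrix.one_mulVec, ia_ruw_mulVec S hS u w y huu huw,
      ia_bl_symm S hS y u, hy]
    simp only [mul_zero, sub_zero, zero_smul, Cfsg.Agent.Helper96.T5.pt_add_right,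
      Cfsg.Agent.Helper96.T5.pt_smul_right]
  have hτu : ∀ a : Fin 2 → F,
      (τ : Matrix (Fin 2 × Fin n) (Fin 2 × Fin n) F) *ᵥ pt a u = pt a u := by
    intro a
    rw [hτy a u huu, huw, zero_smul, add_zero]
  obtain ⟨c, hc⟩ : ∃ c : GL (Fin 2 × Fin n) F, c = (τ * ρ)⁻¹ * (ρ * τ) := ⟨_, rfl⟩
  have hcM : c ∈ M := by
    rw [hc]
    exact M.mul_mem (M.inv_mem (M.mul_mem hτM hρ)) (M.mul_mem hρ hτM)
  have hcy : ∀ (a : Fin 2 → F) (y : Fin n → F), bl S u y = 0 →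
      (c : Matrix (Fin 2 × Fin n) (Fin 2 × Fin n) F) *ᵥ pt a y = pt a y := by
    intro a y hy
    have e1 : ((ρ * τ : GL (Fin 2 × Fin n) F) : Matrix (Fin 2 × Fin n) (Fin 2 × Fin n) F)
        *ᵥ pt a y
        = ((τ * ρ : GL (Fin 2 × Fin n) F) : Matrix (Fin 2 × Fin n) (Fin 2 × Fin n) F)
          *ᵥ pt a y := by
      obtain ⟨a', ha'⟩ := h2' a y hy
      rw [Units.val_mul, Units.val_mul, ← Matrix.mulVec_mulVec, ← Matrix.mulVec_mulVec,
        hτy a y hy, ha', Matrix.mulVec_add, Matrix.mulVec_add, Matrix.mulVec_smul, ha', h1,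
        hτy a y hy, hτu]
      abel
    rw [hc, Units.val_mul, ← Matrix.mulVec_mulVec, e1, Matrix.mulVec_mulVec, ← Units.val_mul,
      inv_mul_cancel, Units.val_one, Matrix.one_mulVec]
  obtain ⟨C, hC⟩ := ia_core S hS hdet u hu _ (hSp c hcM) hcy
  have hC0 : C = 0 := hNS C u hu huu ⟨c, hcM, hC⟩
  have hc1 : c = 1 := by
    apply Units.ext
    rw [hC, hC0, Matrix.zero_kronecker, add_zero, Units.val_one]
  rw [hc] at hc1
  have h3 : ρ * τ = τ * ρ := (inv_mul_eq_one.mp hc1).symm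
  have h4 := congrArg (fun g : GL (Fin 2 × Fin n) F =>
    (g : Matrix (Fin 2 × Fin n) (Fin 2 × Fin n) F)) h3
  simpa using h4

end Cfsg.Agent.Helper70.SOIA
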