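/-
CALL S2547 (owner helper45): helper70's library for the pieces RANK1S, CNE, CENTER
(action of the root elements on frame vectors).
-/
import Mathlib
import Cfsg.Agent.Helper45.StDefs

set_option autoImplicit false

universe u

namespace Cfsg.Agent.Helper70.StRoot

open Cfsg Cfsg.Agent.Helper13 Cfsg.Agent.Helper95.SpBN Cfsg.Agent.Helper45 Cfsg.Agent.Helper45.St

variable {ι : Type} [Fintype ι] [DecidableEq ι] {F : Type u} [Field F]
  {Q : QuadraticForm F (ι → F)} {m : ℕ} {L R : Fin m → ι}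

theorem ev_idx (H : HypPairs Q m L R) (a b : Fin m ⊕ Fin m) :
    ev L R F a (idx L R b) = if b = a then 1 else 0 := by
  rw [ev_apply]
  by_cases h : b = a
  · rw [if_pos h, if_pos (by rw [h])]
  · rw [if_neg h, if_neg (fun h' => h (idx_injective H h'))]

theorem flagP_add {k : ℕ} {x y : ι → F} (hx : FlagP L k x) (hy : FlagP L k y) :
    FlagP L k (x + y) := by
  intro c hc
  by_cases h : x c = 0
  · apply hy c
    intro h'
    apply hc
    rw [Pi.add_apply, h, h', add_zero]
  · exact hx c h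

theorem flagP_smul {k : ℕ} {x : ι → F} (t : F) (hx : FlagP L k x) : FlagP L k (t • x) := by
  intro c hc
  apply hx c
  intro h
  apply hc
  rw [Pi.smul_apply, h, smul_zero]

theorem xS_ev (H : HypPairs Q m L R) (a b : Fin m ⊕ Fin m) (hab : b ≠ tauP m a) (t : F)
    (c : Fin m ⊕ Fin m) :
    mv ⇑Q (xS Q L R a b t) (ev L R F c) =
      ev L R F c + (if tauP m b = c then t else 0) • ev L R F a -
        (if tauP m a = c then t else 0) • ev L R F b := by
  rw [mv_xS H a b hab, ev_idx H, ev_idx H, mul_ite, mul_one, mul_zero, mul_ite, mul_one, mul_zero]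

theorem xa_ev_inl (H : HypPairs Q m L R) (j : Fin m) (hj : (j : ℕ) + 1 < m) (t : F) (i : Fin m) :
    mv ⇑Q (xa Q L R j t) (ev L R F (Sum.inl i)) =
      ev L R F (Sum.inl i) +
        (if (⟨(j : ℕ) + 1, hj⟩ : Fin m) = i then t else 0) • ev L R F (Sum.inl j) := by
  have hrb : (rb j : Fin m ⊕ Fin m) = Sum.inl ⟨(j : ℕ) + 1, hj⟩ := by unfold rb; rw [dif_pos hj]
  have hra : (ra j : Fin m ⊕ Fin m) = Sum.inl j := rfl
  unfold xa
  rw [hrb, hra, tauP_inl]
  rw [xS_ev H _ _ (by
    rw [tauP_inl]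
    intro h
    have h2 := Sum.inr.inj h
    rw [Fin.ext_iff] at h2
    simp at h2) t, tauP_inr, tauP_inl]
  simp

theorem ya_ev_inl (H : HypPairs Q m L R) (j : Fin m) (hj : (j : ℕ) + 1 < m) (t : F) (i : Fin m) :
    mv ⇑Q (ya Q L R j t) (ev L R F (Sum.inl i)) =
      ev L R F (Sum.inl i) +
        (if j = i then t else 0) • ev L R F (Sum.inl ⟨(j : ℕ) + 1, hj⟩) := by
  have hrb : (rb j : Fin m ⊕ Fin m) = Sum.inl ⟨(j : ℕ) + 1, hj⟩ := by unfold rb; rw [dif_pos hj]
  have hra : (ra j : Fin m ⊕ Fin m) = Sum.inl j := rfl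
  unfold ya
  rw [hrb, hra, tauP_inl]
  rw [xS_ev H _ _ (by
    rw [tauP_inl]
    intro h
    have h2 := Sum.inr.inj h
    rw [Fin.ext_iff] at h2
    simp at h2) t, tauP_inr, tauP_inl]
  simp

theorem sigE_ev_inl (H : HypPairs Q m L R) (v₀ : ι → F) (j : Fin m) (hj : (j : ℕ) + 1 < m)
    (i : Fin m) :
    mv ⇑Q (sigE Q L R v₀ j) (ev L R F (Sum.inl i)) =
      if i = j then (-1 : F) • ev L R F (Sum.inl ⟨(j : ℕ) + 1, hj⟩)
      else if i = ⟨(j : ℕ) + 1, hj⟩ then ev L R F (Sum.inl j) else ev L R F (Sum.inl i) := by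
  have hne : (⟨(j : ℕ) + 1, hj⟩ : Fin m) ≠ j := by
    intro h; rw [Fin.ext_iff] at h; simp at h
  unfold sigE
  rw [if_pos hj, mv_mul, mv_mul]
  by_cases hij : i = j
  · rw [if_pos hij, hij]
    simp only [xa_ev_inl H j hj, ya_ev_inl H j hj, mv_add, mv_smul, hne, hne.symm,
      eq_self_iff_true, if_true, if_false]
    module
  · rw [if_neg hij]
    by_cases hij' : i = ⟨(j : ℕ) + 1, hj⟩
    · rw [if_pos hij', hij']
      simp only [xa_ev_inl H j hj, ya_ev_inl H j hj, mv_add, mv_smul, hne, hne.symm,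
        eq_self_iff_true, if_true, if_false]
      module
    · rw [if_neg hij']
      simp only [xa_ev_inl H j hj, ya_ev_inl H j hj, mv_add, mv_smul, Ne.symm hij,
        Ne.symm hij', if_true, if_false]
      module

omit [Fintype ι] in
theorem polar_V0_ev (H : HypPairs Q m L R) (v : ι → F) (hv : InV0 L R v) (a : Fin m ⊕ Fin m) :
    QuadraticMap.polar ⇑Q v (ev L R F a) = 0 := by
  rw [QuadraticMap.polar_comm, polar_ev_V0 H a v hv]

/-- the action of a short root element on `⟨e_a, e_{τ a}⟩ + V₀`. -/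
theorem xB_comb (H : HypPairs Q m L R) (v : ι → F) (hv : InV0 L R v) (a : Fin m ⊕ Fin m)
    (w : ι → F) (hw : InV0 L R w) (α β γ : F) :
    mv ⇑Q (xB Q L R a v) (α • ev L R F a + β • ev L R F (tauP m a) + γ • w) =
      (α + γ * QuadraticMap.polar ⇑Q v w - Q v * β) • ev L R F a + β • ev L R F (tauP m a) +
        γ • w - β • v := by
  rw [mv_xB H a v hv]
  have h1 : QuadraticMap.polar ⇑Q v (α • ev L R F a + β • ev L R F (tauP m a) + γ • w) =
      γ * QuadraticMap.polar ⇑Q v w := by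
    rw [QuadraticMap.polar_add_right, QuadraticMap.polar_add_right,
      QuadraticMap.polar_smul_right, QuadraticMap.polar_smul_right,
      QuadraticMap.polar_smul_right, polar_V0_ev H v hv, polar_V0_ev H v hv, smul_zero,
      smul_zero, zero_add, zero_add, smul_eq_mul]
  have h2 : (α • ev L R F a + β • ev L R F (tauP m a) + γ • w) (idx L R (tauP m a)) = β := by
    rw [Pi.add_apply, Pi.add_apply, Pi.smul_apply, Pi.smul_apply, Pi.smul_apply, ev_idx H,
      ev_idx H, if_neg (tauP_ne a), if_pos rfl, hw, smul_zero, smul_zero, smul_eq_mul, mul_one,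
      zero_add, add_zero]
  rw [h1, h2]
  module

end Cfsg.Agent.Helper70.StRoot
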