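/-
CALL S2547 (owner helper45), piece CENTER.
-/
import Mathlib
import Cfsg.Agent.Helper45.StDefs
import Cfsg.Agent.Helper70.StRoot

set_option autoImplicit false

universe u

namespace Cfsg.Agent.Helper70.StCENTER

open Cfsg Cfsg.Agent.Helper13 Cfsg.Agent.Helper95.SpBN Cfsg.Agent.Helper45 Cfsg.Agent.Helper45.St
open Cfsg.Agent.Helper70.StRoot

variable {ι : Type} [Fintype ι] [DecidableEq ι] {F : Type u} [Field F]
  {Q : QuadraticForm F (ι → F)} {m : ℕ} {L R : Fin m → ι}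

theorem p_CENTER (hQ : (QuadraticMap.polarBilin Q).Nondegenerate) (H : HypPairs Q m L R)
    (hB : BCrit Q L R) (v₀ : ι → F) (hv₀ : InV0 L R v₀) (hq₀ : Q v₀ ≠ 0)
    (z : ↥(isometryGroup F ⇑Q))
    (hz : ∀ i : Fin m, z * xB Q L R (Sum.inl i) v₀ = xB Q L R (Sum.inl i) v₀ * z) :
    z ∈ borelO Q L := by
  apply hB
  intro i
  have hv0ne : v₀ ≠ 0 := by
    rintro rfl
    exact hq₀ (map_zero Q)
  obtain ⟨y, hy⟩ : ∃ y, QuadraticMap.polar ⇑Q v₀ y ≠ 0 := by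
    by_contra hcon
    push Not at hcon
    exact hv0ne (hQ.1 v₀ (fun y => hcon y))
  obtain ⟨x, hx⟩ : ∃ x : ι → F, x = y - y (R i) • ev L R F (Sum.inr i) := ⟨_, rfl⟩
  have hx1 : x (R i) = 0 := by
    rw [hx, Pi.sub_apply, Pi.smul_apply, ev_apply, idx_inr, if_pos rfl, smul_eq_mul, mul_one,
      sub_self]
  have hx2 : QuadraticMap.polar ⇑Q v₀ x = QuadraticMap.polar ⇑Q v₀ y := by
    rw [hx, QuadraticMap.polar_sub_right, QuadraticMap.polar_smul_right, polar_V0_ev H v₀ hv₀,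
      smul_zero, sub_zero]
  have hx0 : QuadraticMap.polar ⇑Q v₀ x ≠ 0 := by rw [hx2]; exact hy
  have hcomm := congrArg (fun g => mv ⇑Q g x) (hz i)
  simp only [mv_mul] at hcomm
  rw [mv_xB H _ _ hv₀, mv_xB H _ _ hv₀, tauP_inl, idx_inr, hx1, mul_zero, sub_zero, zero_smul,
    sub_zero, mv_add, mv_smul] at hcomm
  have h3 : QuadraticMap.polar ⇑Q v₀ x • mv ⇑Q z (ev L R F (Sum.inl i)) =
      (QuadraticMap.polar ⇑Q v₀ (mv ⇑Q z x) - Q v₀ * mv ⇑Q z x (R i)) • ev L R F (Sum.inl i) -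
        mv ⇑Q z x (R i) • v₀ := by
    have h4 := hcomm
    rw [add_sub_assoc] at h4
    exact add_left_cancel h4
  obtain ⟨α, hα⟩ : ∃ α : F, α = (QuadraticMap.polar ⇑Q v₀ x)⁻¹ *
      (QuadraticMap.polar ⇑Q v₀ (mv ⇑Q z x) - Q v₀ * mv ⇑Q z x (R i)) := ⟨_, rfl⟩
  obtain ⟨β, hβ⟩ : ∃ β : F, β = -((QuadraticMap.polar ⇑Q v₀ x)⁻¹ * mv ⇑Q z x (R i)) :=
    ⟨_, rfl⟩
  have h2 : mv ⇑Q z (ev L R F (Sum.inl i)) = α • ev L R F (Sum.inl i) + β • v₀ := by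
    have h5 : mv ⇑Q z (ev L R F (Sum.inl i)) = (QuadraticMap.polar ⇑Q v₀ x)⁻¹ •
        (QuadraticMap.polar ⇑Q v₀ x • mv ⇑Q z (ev L R F (Sum.inl i))) := by
      rw [smul_smul, inv_mul_cancel₀ hx0, one_smul]
    rw [h5, h3, hα, hβ]
    module
  have hQz : Q (mv ⇑Q z (ev L R F (Sum.inl i))) = 0 := by
    have h6 := mv_quad ⇑Q z (ev L R F (Sum.inl i))
    rw [h6]
    exact ev_quad H _
  rw [h2, QuadraticMap.map_add ⇑Q, QuadraticMap.map_smul, QuadraticMap.map_smul, ev_quad H,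
    smul_zero, zero_add, QuadraticMap.polar_smul_left, QuadraticMap.polar_smul_right,
    polar_ev_V0 H _ v₀ hv₀, smul_zero, smul_zero, add_zero, smul_eq_mul] at hQz
  have hβ0 : β = 0 := by
    rcases mul_eq_zero.mp hQz with h | h
    · exact mul_self_eq_zero.mp h
    · exact absurd h hq₀
  rw [h2, hβ0, zero_smul, add_zero]
  exact flagP_smul α (flagP_ev i)

end Cfsg.Agent.Helper70.StCENTER
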