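/-
CALL S2547 (owner helper45), piece CNE.
-/
import Mathlib
import Cfsg.Agent.Helper45.StDefs
import Cfsg.Agent.Helper70.StRoot

set_option autoImplicit false

universe u

namespace Cfsg.Agent.Helper70.StCNE

open Cfsg Cfsg.Agent.Helper13 Cfsg.Agent.Helper95.SpBN Cfsg.Agent.Helper45 Cfsg.Agent.Helper45.St
open Cfsg.Agent.Helper70.StRoot

variable {ι : Type} [Fintype ι] [DecidableEq ι] {F : Type u} [Field F]
  {Q : QuadraticForm F (ι → F)} {m : ℕ} {L R : Fin m → ι}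

theorem p_CNES (H : HypPairs Q m L R) (v₀ : ι → F) (j : Fin m) (hj : (j : ℕ) + 1 < m) :
    sigE Q L R v₀ j * xa Q L R j 1 * sigE Q L R v₀ j ∉ borelO Q L := by
  have hne : (⟨(j : ℕ) + 1, hj⟩ : Fin m) ≠ j := by
    intro h; rw [Fin.ext_iff] at h; simp at h
  intro hmem
  have hfl := flag_of_mem_borelO (R := R) _ hmem j
  rw [mv_mul, mv_mul] at hfl
  have hP : mv ⇑Q (sigE Q L R v₀ j) (mv ⇑Q (xa Q L R j 1) (mv ⇑Q (sigE Q L R v₀ j)
      (ev L R F (Sum.inl j)))) = (-1 : F) • ev L R F (Sum.inl j) +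
        ev L R F (Sum.inl ⟨(j : ℕ) + 1, hj⟩) := by
    simp only [xa_ev_inl H j hj, sigE_ev_inl H v₀ j hj, mv_add, mv_smul, hne, hne.symm,
      eq_self_iff_true, if_true, if_false]
    module
  rw [hP] at hfl
  obtain ⟨i, hi, hLi⟩ := hfl (L ⟨(j : ℕ) + 1, hj⟩) (by
    rw [Pi.add_apply, Pi.smul_apply, ev_apply, ev_apply, idx_inl, idx_inl,
      if_neg (fun h => hne (H.hL h)), if_pos rfl, smul_zero, zero_add]
    exact one_ne_zero)
  have h2 := H.hL hLi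
  rw [← h2] at hi
  simp at hi

/-- the element `xB (inl j) v₀` on the span of `e_j`, `f_j`, `v₀`. -/
theorem cne_X (H : HypPairs Q m L R) (v₀ : ι → F) (hv₀ : InV0 L R v₀) (j : Fin m) (α β γ : F) :
    mv ⇑Q (xB Q L R (Sum.inl j) v₀)
        (α • ev L R F (Sum.inl j) + β • ev L R F (Sum.inr j) + γ • v₀) =
      (α + γ * (2 * Q v₀) - Q v₀ * β) • ev L R F (Sum.inl j) + β • ev L R F (Sum.inr j) +
        (γ - β) • v₀ := by
  have h := xB_comb H v₀ hv₀ (Sum.inl j) v₀ hv₀ α β γ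
  rw [tauP_inl] at h
  rw [h, QuadraticMap.polar_self, nsmul_eq_mul]
  push_cast
  module

/-- the element `xB (inr j) ((Q v₀)⁻¹ • v₀)` on the span of `e_j`, `f_j`, `v₀`. -/
theorem cne_Y (H : HypPairs Q m L R) (v₀ : ι → F) (hv₀ : InV0 L R v₀) (hq₀ : Q v₀ ≠ 0)
    (j : Fin m) (α β γ : F) :
    mv ⇑Q (xB Q L R (Sum.inr j) ((Q v₀)⁻¹ • v₀))
        (α • ev L R F (Sum.inl j) + β • ev L R F (Sum.inr j) + γ • v₀) =
      α • ev L R F (Sum.inl j) + (β + 2 * γ - (Q v₀)⁻¹ * α) • ev L R F (Sum.inr j) +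
        (γ - (Q v₀)⁻¹ * α) • v₀ := by
  have hv' : InV0 L R ((Q v₀)⁻¹ • v₀) := by
    intro c
    rw [Pi.smul_apply, hv₀ c, smul_zero]
  have h := xB_comb H ((Q v₀)⁻¹ • v₀) hv' (Sum.inr j) v₀ hv₀ β α γ
  rw [tauP_inr] at h
  have hQp : Q ((Q v₀)⁻¹ • v₀) = (Q v₀)⁻¹ := by
    rw [QuadraticMap.map_smul, smul_eq_mul, mul_assoc, inv_mul_cancel₀ hq₀, mul_one]
  have hBp : QuadraticMap.polar ⇑Q ((Q v₀)⁻¹ • v₀) v₀ = 2 := by
    rw [QuadraticMap.polar_smul_left, QuadraticMap.polar_self, nsmul_eq_mul, smul_eq_mul]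
    push_cast
    field_simp
  rw [hQp, hBp] at h
  have e1 : α • ev L R F (Sum.inl j) + β • ev L R F (Sum.inr j) + γ • v₀ =
      β • ev L R F (Sum.inr j) + α • ev L R F (Sum.inl j) + γ • v₀ := by module
  rw [e1, h]
  module

theorem p_CNEB (H : HypPairs Q m L R) (v₀ : ι → F) (hv₀ : InV0 L R v₀) (hq₀ : Q v₀ ≠ 0)
    (j : Fin m) (hj : ¬ (j : ℕ) + 1 < m) :
    sigE Q L R v₀ j * xB Q L R (Sum.inl j) v₀ * sigE Q L R v₀ j ∉ borelO Q L := by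
  intro hmem
  have hfl := flag_of_mem_borelO (R := R) _ hmem j
  have hsig : sigE Q L R v₀ j = xB Q L R (Sum.inl j) v₀ *
      xB Q L R (Sum.inr j) ((Q v₀)⁻¹ • v₀) * xB Q L R (Sum.inl j) v₀ := by
    unfold sigE
    rw [if_neg hj]
    rfl
  rw [hsig] at hfl
  simp only [mv_mul] at hfl
  have he : ev L R F (Sum.inl j) = (1 : F) • ev L R F (Sum.inl j) +
      (0 : F) • ev L R F (Sum.inr j) + (0 : F) • v₀ := by module
  have hP : mv ⇑Q (xB Q L R (Sum.inl j) v₀) (mv ⇑Q (xB Q L R (Sum.inr j) ((Q v₀)⁻¹ • v₀))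
      (mv ⇑Q (xB Q L R (Sum.inl j) v₀) (mv ⇑Q (xB Q L R (Sum.inl j) v₀)
      (mv ⇑Q (xB Q L R (Sum.inl j) v₀) (mv ⇑Q (xB Q L R (Sum.inr j) ((Q v₀)⁻¹ • v₀))
      (mv ⇑Q (xB Q L R (Sum.inl j) v₀) ((1 : F) • ev L R F (Sum.inl j) +
        (0 : F) • ev L R F (Sum.inr j) + (0 : F) • v₀))))))) =
      (1 : F) • ev L R F (Sum.inl j) + (-(Q v₀)⁻¹) • ev L R F (Sum.inr j) +
        (-(Q v₀)⁻¹) • v₀ := by
    rw [cne_X H v₀ hv₀, cne_Y H v₀ hv₀ hq₀, cne_X H v₀ hv₀, cne_X H v₀ hv₀, cne_X H v₀ hv₀,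
      cne_Y H v₀ hv₀ hq₀, cne_X H v₀ hv₀]
    refine congrArg₂ (· + ·) (congrArg₂ (· + ·) (congrArg (· • ev L R F (Sum.inl j)) ?_)
      (congrArg (· • ev L R F (Sum.inr j)) ?_)) (congrArg (· • v₀) ?_)
    · field_simp
      try ring
    · field_simp
      try ring
    · field_simp
      try ring
  rw [he, hP] at hfl
  have hv0R : v₀ (R j) = 0 := hv₀ (Sum.inr j)
  obtain ⟨i, hi, hRi⟩ := hfl (R j) (by
    rw [Pi.add_apply, Pi.add_apply, Pi.smul_apply, Pi.smul_apply, Pi.smul_apply, ev_apply,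
      ev_apply, idx_inl, idx_inr, if_neg (fun h => H.hLR j j h.symm), if_pos rfl,
      hv0R, smul_zero, smul_zero, zero_add, add_zero, smul_eq_mul,
      mul_one]
    exact neg_ne_zero.mpr (inv_ne_zero hq₀))
  exact H.hLR i j hRi.symm

end Cfsg.Agent.Helper70.StCNE
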