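/-
CALL S2547 (owner helper45), piece INST (four theorems).
-/
import Mathlib
import Cfsg.Agent.Helper45.StDefs

set_option autoImplicit false

universe u

namespace Cfsg.Agent.Helper70.StINST

open Cfsg Cfsg.Agent.Helper13 Cfsg.Agent.Helper95.SpBN Cfsg.Agent.Helper45 Cfsg.Agent.Helper45.St

theorem p_ODDANISO {F : Type*} [Field F] (m : ℕ) :
    Aniso (Helper43.oddQF m F) (fun i : Fin m => (Sum.inr (Sum.inl i) : Unit ⊕ (Fin m ⊕ Fin m)))
      (fun i : Fin m => Sum.inr (Sum.inr i)) := by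
  intro x hx hq
  have h1 : ∀ i : Fin m, x (Sum.inr (Sum.inl i)) = 0 := fun i => hx (Sum.inl i)
  have h2 : ∀ i : Fin m, x (Sum.inr (Sum.inr i)) = 0 := fun i => hx (Sum.inr i)
  have hq' : Cfsg.quadFormOdd m F x = 0 := hq
  unfold Cfsg.quadFormOdd at hq'
  rw [Finset.sum_eq_zero (fun i _ => by rw [h1 i, zero_mul]), add_zero] at hq'
  have h0 : x (Sum.inl ()) = 0 := by simpa using hq'
  funext c
  rcases c with ⟨⟩ | (i | i)
  · exact h0
  · exact h1 i
  · exact h2 i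

theorem p_MINANISO {F : Type*} [Field F] (m : ℕ) (a b : F)
    (hab : ∀ z₁ z₂ : F, z₁ ^ 2 + a * z₁ * z₂ + b * z₂ ^ 2 = 0 → z₁ = 0 ∧ z₂ = 0) :
    Aniso (Helper43.minusQF m F a b)
      (fun i : Fin m => (Sum.inl (Sum.inl i) : (Fin m ⊕ Fin m) ⊕ Fin 2))
      (fun i : Fin m => Sum.inl (Sum.inr i)) := by
  intro x hx hq
  have h1 : ∀ i : Fin m, x (Sum.inl (Sum.inl i)) = 0 := fun i => hx (Sum.inl i)
  have h2 : ∀ i : Fin m, x (Sum.inl (Sum.inr i)) = 0 := fun i => hx (Sum.inr i)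
  have hq' : Cfsg.quadFormMinus m F a b x = 0 := hq
  unfold Cfsg.quadFormMinus at hq'
  rw [Finset.sum_eq_zero (fun i _ => by rw [h1 i, zero_mul]), zero_add] at hq'
  obtain ⟨h3, h4⟩ := hab _ _ hq'
  funext c
  rcases c with (i | i) | k
  · exact h1 i
  · exact h2 i
  · fin_cases k
    · exact h3
    · exact h4

theorem p_ODDV0 {F : Type*} [Field F] (m : ℕ) :
    InV0 (fun i : Fin m => (Sum.inr (Sum.inl i) : Unit ⊕ (Fin m ⊕ Fin m)))
      (fun i : Fin m => Sum.inr (Sum.inr i)) (Pi.single (Sum.inl ()) (1 : F)) ∧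
    Helper43.oddQF m F (Pi.single (Sum.inl ()) (1 : F)) ≠ 0 := by
  constructor
  · intro c
    rcases c with i | i
    · show (Pi.single (Sum.inl ()) (1 : F) : Unit ⊕ (Fin m ⊕ Fin m) → F) (Sum.inr (Sum.inl i)) = 0
      simp
    · show (Pi.single (Sum.inl ()) (1 : F) : Unit ⊕ (Fin m ⊕ Fin m) → F) (Sum.inr (Sum.inr i)) = 0
      simp
  · have h : Helper43.oddQF m F (Pi.single (Sum.inl ()) (1 : F)) = 1 := by
      show Cfsg.quadFormOdd m F (Pi.single (Sum.inl ()) (1 : F)) = 1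
      unfold Cfsg.quadFormOdd
      simp
    rw [h]; exact one_ne_zero

theorem p_MINV0 {F : Type*} [Field F] (m : ℕ) (a b : F) :
    InV0 (fun i : Fin m => (Sum.inl (Sum.inl i) : (Fin m ⊕ Fin m) ⊕ Fin 2))
      (fun i : Fin m => Sum.inl (Sum.inr i)) (Pi.single (Sum.inr 0) (1 : F)) ∧
    Helper43.minusQF m F a b (Pi.single (Sum.inr 0) (1 : F)) ≠ 0 := by
  constructor
  · intro c
    rcases c with i | i
    · show (Pi.single (Sum.inr 0) (1 : F) : (Fin m ⊕ Fin m) ⊕ Fin 2 → F) (Sum.inl (Sum.inl i)) = 0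
      simp
    · show (Pi.single (Sum.inr 0) (1 : F) : (Fin m ⊕ Fin m) ⊕ Fin 2 → F) (Sum.inl (Sum.inr i)) = 0
      simp
  · have h : Helper43.minusQF m F a b (Pi.single (Sum.inr 0) (1 : F)) = 1 := by
      show Cfsg.quadFormMinus m F a b (Pi.single (Sum.inr 0) (1 : F)) = 1
      unfold Cfsg.quadFormMinus
      simp
    rw [h]; exact one_ne_zero

end Cfsg.Agent.Helper70.StINST
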