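/-
CALL S2547 (owner helper45), piece RANK1S.
-/
import Mathlib
import Cfsg.Agent.Helper45.StDefs
import Cfsg.Agent.Helper70.StRoot

set_option autoImplicit false

universe u

namespace Cfsg.Agent.Helper70.StRANK1S

open Cfsg Cfsg.Agent.Helper13 Cfsg.Agent.Helper95.SpBN Cfsg.Agent.Helper45 Cfsg.Agent.Helper45.St
open Cfsg.Agent.Helper70.StRoot

variable {ι : Type} [Fintype ι] [DecidableEq ι] {F : Type u} [Field F]
  {Q : QuadraticForm F (ι → F)} {m : ℕ} {L R : Fin m → ι}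

theorem p_RANK1S (H : HypPairs Q m L R) (hB : BCrit Q L R) (v₀ : ι → F) (j : Fin m)
    (hj : (j : ℕ) + 1 < m) (t : F) (ht : t ≠ 0) :
    ∃ t' : F, sigE Q L R v₀ j * xa Q L R j t * ya Q L R j t' ∈ borelO Q L := by
  have hne : (⟨(j : ℕ) + 1, hj⟩ : Fin m) ≠ j := by
    intro h; rw [Fin.ext_iff] at h; simp at h
  refine ⟨-t⁻¹, hB _ ?_⟩
  intro i
  rw [mv_mul, mv_mul]
  by_cases hij : i = j
  · rw [hij]
    have hP : mv ⇑Q (sigE Q L R v₀ j) (mv ⇑Q (xa Q L R j t) (mv ⇑Q (ya Q L R j (-t⁻¹))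
        (ev L R F (Sum.inl j)))) = (-t⁻¹) • ev L R F (Sum.inl j) +
          (-1 - (-t⁻¹) * t) • ev L R F (Sum.inl ⟨(j : ℕ) + 1, hj⟩) := by
      simp only [xa_ev_inl H j hj, ya_ev_inl H j hj, sigE_ev_inl H v₀ j hj, mv_add, mv_smul, hne,
        hne.symm, eq_self_iff_true, if_true, if_false]
      module
    have h0 : (-1 - (-t⁻¹) * t) = 0 := by
      rw [neg_mul, inv_mul_cancel₀ ht]; ring
    rw [hP, h0, zero_smul, add_zero]
    exact flagP_smul _ (flagP_ev j)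
  · by_cases hij' : i = ⟨(j : ℕ) + 1, hj⟩
    · rw [hij']
      have hP : mv ⇑Q (sigE Q L R v₀ j) (mv ⇑Q (xa Q L R j t) (mv ⇑Q (ya Q L R j (-t⁻¹))
          (ev L R F (Sum.inl ⟨(j : ℕ) + 1, hj⟩)))) = ev L R F (Sum.inl j) +
            (-t) • ev L R F (Sum.inl ⟨(j : ℕ) + 1, hj⟩) := by
        simp only [xa_ev_inl H j hj, ya_ev_inl H j hj, sigE_ev_inl H v₀ j hj, mv_add, mv_smul,
          hne, hne.symm, eq_self_iff_true, if_true, if_false]
        module
      rw [hP]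
      exact flagP_add (flagP_mono (Nat.le_succ _) _ (flagP_ev j)) (flagP_smul _ (flagP_ev _))
    · have hP : mv ⇑Q (sigE Q L R v₀ j) (mv ⇑Q (xa Q L R j t) (mv ⇑Q (ya Q L R j (-t⁻¹))
          (ev L R F (Sum.inl i)))) = ev L R F (Sum.inl i) := by
        simp only [xa_ev_inl H j hj, ya_ev_inl H j hj, sigE_ev_inl H v₀ j hj, mv_add, mv_smul,
          Ne.symm hij, Ne.symm hij', hij, hij', if_true, if_false]
        module
      rw [hP]
      exact flagP_ev i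

end Cfsg.Agent.Helper70.StRANK1S
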