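import Mathlib
import Cfsg.Prelude.Def_GeometricClasses
import Cfsg.Agent.Helper71.T4Defs
import Cfsg.Agent.Helper96.T5Defs

/-!
# Helper70: PIECE L1A of CALL S5704 (helper96)

`a = 2`, `|F| > 2`: a non-scalar element of the additive group `𝔖` (containing the scalars, stable
under conjugation by transvections) produces `κ τ_e ∈ 𝔖` with `κ ≠ 0`.
-/

set_option autoImplicit false
set_option linter.unusedVariables false

namespace Cfsg.Agent.Helper70.T5L1A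

open Matrix Cfsg Cfsg.Geo Cfsg.Agent.Helper71.T4 Cfsg.Agent.Helper96.T5
open scoped Kronecker

variable {F : Type*} [Field F] {a b : ℕ}

/-- `A * rk J e y = rk J (A e) y`. -/
theorem l1a_mul_rk {n : ℕ} (J A : Matrix (Fin n) (Fin n) F) (e y : Fin n → F) :
    A * rk J e y = rk J (A *ᵥ e) y := by
  rw [rk, rk, Matrix.mul_vecMulVec]

/-- `τ A τ = q τ`. -/
theorem l1a_rk_mul_rk {n : ℕ} (J A : Matrix (Fin n) (Fin n) F) (e : Fin n → F) :
    rk J e e * A * rk J e e = bf J (A *ᵥ e) e • rk J e e := by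
  rw [Matrix.mul_assoc, l1a_mul_rk, rk_mul_rk]

/-- The conjugate of `A` by a transvection. -/
theorem l1a_conj {n : ℕ} (J A : Matrix (Fin n) (Fin n) F) (e : Fin n → F) (c : F) :
    tv J e c * A * tv J e (-c) - A
      = c • (rk J e e * A - A * rk J e e) - (c ^ 2 * bf J (A *ᵥ e) e) • rk J e e := by
  have h := l1a_rk_mul_rk J A e
  have h1 : tv J e c * A = A + c • (rk J e e * A) := by
    rw [tv, Matrix.add_mul, Matrix.one_mul, Matrix.smul_mul]
  have h2 : ∀ X : Matrix (Fin n) (Fin n) F, X * tv J e (-c) = X - c • (X * rk J e e) := by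
    intro X
    rw [tv, Matrix.mul_add, Matrix.mul_one, Matrix.mul_smul, neg_smul, sub_eq_add_neg]
  rw [h2, h1, Matrix.add_mul, Matrix.smul_mul, smul_add, smul_smul, h, smul_sub, smul_smul,
    pow_two]
  abel

/-- Shape of an alternating `2 × 2` matrix. -/
theorem l1a_shape (J : Matrix (Fin 2) (Fin 2) F) (halt : ∀ x, bf J x x = 0) :
    J = !![0, J 0 1; - J 0 1, 0] := by
  have h0 := halt ![1, 0]
  have h1 := halt ![0, 1]
  have h2 := halt ![1, 1]
  simp [bf, dotProduct, Matrix.mulVec, Fin.sum_univ_two] at h0 h1 h2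
  ext i j
  fin_cases i <;> fin_cases j <;> simp [h0, h1]
  linear_combination h2 - h0 - h1

/-- A non-scalar `2 × 2` matrix has a vector `e` with `bf (A e) e ≠ 0`. -/
theorem l1a_exists (j : F) (hj : j ≠ 0) (A : Matrix (Fin 2) (Fin 2) F)
    (hns : ¬ ∃ c : F, A = c • (1 : Matrix (Fin 2) (Fin 2) F)) :
    ∃ e : Fin 2 → F, bf !![0, j; -j, 0] (A *ᵥ e) e ≠ 0 := by
  by_contra h
  push Not at h
  have h0 := h ![1, 0]
  have h1 := h ![0, 1]
  have h2 := h ![1, 1]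
  simp [bf, dotProduct, Matrix.mulVec, Fin.sum_univ_two, hj] at h0 h1 h2
  have h3 : (A 0 0 - A 1 1) * j = 0 := by linear_combination h2 - j * h1 + j * h0
  have h4 : A 0 0 - A 1 1 = 0 := by
    rcases mul_eq_zero.mp h3 with h4 | h4
    · exact h4
    · exact absurd h4 hj
  apply hns
  refine ⟨A 0 0, ?_⟩
  ext i k
  fin_cases i <;> fin_cases k <;> simp [h0, h1]
  linear_combination -h4

/-- Characteristic two, dimension two: `τ A - A τ = q • 1 + tr A • τ`. -/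
theorem l1a_char_two (h2 : (2 : F) = 0) (j : F) (A : Matrix (Fin 2) (Fin 2) F) (e : Fin 2 → F) :
    rk !![0, j; -j, 0] e e * A - A * rk !![0, j; -j, 0] e e
      = bf !![0, j; -j, 0] (A *ᵥ e) e • (1 : Matrix (Fin 2) (Fin 2) F)
        + A.trace • rk !![0, j; -j, 0] e e := by
  ext i k
  fin_cases i <;> fin_cases k <;>
    simp [rk, bf, dotProduct, Matrix.mulVec, Fin.sum_univ_two, Matrix.mul_apply,
      Matrix.trace]
  · linear_combination (j * (- A 0 1 * e 1 ^ 2 - A 0 0 * e 0 * e 1)) * h2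
  · linear_combination (j * (A 0 1 * e 0 * e 1 + A 0 0 * e 0 ^ 2)) * h2
  · linear_combination (j * (- A 1 1 * e 1 ^ 2 - A 1 0 * e 0 * e 1)) * h2
  · linear_combination (j * (A 1 0 * e 0 ^ 2 + A 1 1 * e 0 * e 1)) * h2

/-- PIECE L1A: `a = 2`, `|F| > 2`: a non-scalar element of `𝔖` produces `κ τ_e ∈ 𝔖`. -/
theorem l1a (J₁ : Matrix (Fin a) (Fin a) F) (halt : ∀ x, bf J₁ x x = 0) (hdet : J₁.det ≠ 0)
    (ha : a = 2) (hq : ∃ l : F, l ≠ 0 ∧ l ≠ 1) (𝔖 : AddSubgroup (Matrix (Fin a) (Fin a) F))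
    (hone : ∀ c : F, c • (1 : Matrix (Fin a) (Fin a) F) ∈ 𝔖)
    (hconj : ∀ (e : Fin a → F) (c : F) (A : Matrix (Fin a) (Fin a) F), A ∈ 𝔖 →
      tv J₁ e c * A * tv J₁ e (-c) ∈ 𝔖)
    (A : Matrix (Fin a) (Fin a) F) (hA : A ∈ 𝔖)
    (hns : ¬ ∃ c : F, A = c • (1 : Matrix (Fin a) (Fin a) F)) :
    ∃ (e : Fin a → F) (κ : F), e ≠ 0 ∧ κ ≠ 0 ∧ κ • rk J₁ e e ∈ 𝔖 := by
  subst ha
  have hJ := l1a_shape J₁ halt
  obtain ⟨j, hj⟩ : ∃ j, j = J₁ 0 1 := ⟨_, rfl⟩
  rw [← hj] at hJ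
  have hj0 : j ≠ 0 := by
    intro h0
    apply hdet
    rw [hJ, h0]
    simp [Matrix.det_fin_two]
  obtain ⟨e, he⟩ := l1a_exists j hj0 A hns
  rw [← hJ] at he
  obtain ⟨q, hqdef⟩ : ∃ q, q = bf J₁ (A *ᵥ e) e := ⟨_, rfl⟩
  rw [← hqdef] at he
  have he0 : e ≠ 0 := by
    rintro rfl
    apply he
    rw [hqdef, bf_zero_right]
  have hE : ∀ c : F, c • (rk J₁ e e * A - A * rk J₁ e e) - (c ^ 2 * q) • rk J₁ e e ∈ 𝔖 := by
    intro c
    rw [hqdef, ← l1a_conj]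
    exact 𝔖.sub_mem (hconj e c A hA) hA
  by_cases h2 : (2 : F) = 0
  · have hX := l1a_char_two h2 j A e
    rw [← hJ, ← hqdef] at hX
    have hE' : ∀ c : F, (c * A.trace - c ^ 2 * q) • rk J₁ e e ∈ 𝔖 := by
      intro c
      have h1 := 𝔖.sub_mem (hE c) (hone (c * q))
      have h3 : c • (rk J₁ e e * A - A * rk J₁ e e) - (c ^ 2 * q) • rk J₁ e e
          - (c * q) • (1 : Matrix (Fin 2) (Fin 2) F)
          = (c * A.trace - c ^ 2 * q) • rk J₁ e e := by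
        rw [hX]
        module
      rwa [h3] at h1
    by_cases h4 : A.trace = q
    · obtain ⟨l, hl0, hl1⟩ := hq
      refine ⟨e, l * A.trace - l ^ 2 * q, he0, ?_, hE' l⟩
      rw [h4]
      have h5 : l * q - l ^ 2 * q = l * q * (1 - l) := by ring
      rw [h5]
      exact mul_ne_zero (mul_ne_zero hl0 he) (sub_ne_zero.mpr (Ne.symm hl1))
    · refine ⟨e, 1 * A.trace - 1 ^ 2 * q, he0, ?_, hE' 1⟩
      rw [one_mul, one_pow, one_mul]
      exact sub_ne_zero.mpr h4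
  · refine ⟨e, 2 * q, he0, mul_ne_zero h2 he, ?_⟩
    have h1 := 𝔖.sub_mem (𝔖.add_mem (hE 1) (hE 1)) (hE 2)
    have h3 : (1 : F) • (rk J₁ e e * A - A * rk J₁ e e) - (1 ^ 2 * q) • rk J₁ e e
        + ((1 : F) • (rk J₁ e e * A - A * rk J₁ e e) - (1 ^ 2 * q) • rk J₁ e e)
        - ((2 : F) • (rk J₁ e e * A - A * rk J₁ e e) - (2 ^ 2 * q) • rk J₁ e e)
        = (2 * q) • rk J₁ e e := by
      module
    rwa [h3] at h1

end Cfsg.Agent.Helper70.T5L1A
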