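import Mathlib
import Cfsg.Prelude.Def_GeometricClasses
import Cfsg.Prelude.Def_Classical
import Cfsg.Agent.Helper58.TSDefs
import Cfsg.Agent.Helper33.OType

set_option autoImplicit false
set_option linter.unusedSectionVars false
set_option linter.unusedVariables false

namespace Cfsg.Agent.Helper70.TSR2

open Module Cfsg Cfsg.Geo Cfsg.Agent.Helper58.TS
open scoped MatrixGroups

variable {ι : Type} [Fintype ι] [DecidableEq ι] {F : Type*} [Field F] [Fintype F]

/-- SPLT [M]: type additivity for the two eigenspaces of an involutory isometry. -/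
theorem r2_split_type (Q : (ι → F) → F) (hQ : IsNondegenerateQuadraticForm Q) (h2 : (2 : F) ≠ 0)
    (M : Matrix ι ι F) (hM : ∀ v, Q (M.mulVec v) = Q v) (hM2 : M * M = 1)
    (hp : Even (finrank F (LinearMap.ker (Matrix.toLin' M - 1))))
    (hm : Even (finrank F (LinearMap.ker (Matrix.toLin' M + 1)))) :
    IsPlusTypeOn Q ⊤ ↔ (IsPlusTypeOn Q (LinearMap.ker (Matrix.toLin' M - 1)) ↔
      IsPlusTypeOn Q (LinearMap.ker (Matrix.toLin' M + 1))) := by
  classical
  obtain ⟨T, hT⟩ : ∃ T : Module.End F (ι → F), T = Matrix.toLin' M := ⟨_, rfl⟩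
  rw [← hT] at hp hm ⊢
  have hTa : ∀ v, T v = M.mulVec v := fun v => by rw [hT, Matrix.toLin'_apply]
  have hTT : ∀ v, T (T v) = v := by
    intro v
    rw [hTa, hTa, Matrix.mulVec_mulVec, hM2, Matrix.one_mulVec]
  have hQT : ∀ v, Q (T v) = Q v := fun v => by rw [hTa]; exact hM v
  have hpolT : ∀ u v, QuadraticMap.polar Q (T u) (T v) = QuadraticMap.polar Q u v := by
    intro u v
    unfold QuadraticMap.polar
    rw [← map_add, hQT, hQT, hQT]
  have hb := hQ.polar_bilinear
  have hmemp : ∀ v, v ∈ LinearMap.ker (T - 1) ↔ T v = v := by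
    intro v
    rw [LinearMap.mem_ker, LinearMap.sub_apply, Module.End.one_apply, sub_eq_zero]
  have hmemm : ∀ v, v ∈ LinearMap.ker (T + 1) ↔ T v = -v := by
    intro v
    rw [LinearMap.mem_ker, LinearMap.add_apply, Module.End.one_apply, add_eq_zero_iff_eq_neg]
  have hsymm : ∀ u v : ι → F, QuadraticMap.polar Q u v = QuadraticMap.polar Q v u :=
    fun u v => QuadraticMap.polar_comm Q u v
  -- orthogonality
  have horth : AreOrthogonalFor (QuadraticMap.polar Q) (LinearMap.ker (T - 1))
      (LinearMap.ker (T + 1)) := by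
    intro u hu v hv
    have h1 := hpolT u v
    rw [(hmemp u).mp hu, (hmemm v).mp hv] at h1
    have h3 : QuadraticMap.polar Q u (-v) = - QuadraticMap.polar Q u v := by
      have := hb.smul_right (-1) u v
      rw [neg_one_smul] at this
      rw [this]; ring
    rw [h3] at h1
    have h4 : 2 * QuadraticMap.polar Q u v = 0 := by linear_combination -h1
    rcases mul_eq_zero.mp h4 with h5 | h5
    · exact absurd h5 h2
    · exact h5
  -- decomposition
  have hdec : ∀ v : ι → F, ∃ a ∈ LinearMap.ker (T - 1), ∃ b ∈ LinearMap.ker (T + 1),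
      a + b = v := by
    intro v
    refine ⟨(2 : F)⁻¹ • (v + T v), ?_, (2 : F)⁻¹ • (v - T v), ?_, ?_⟩
    · apply Submodule.smul_mem
      rw [hmemp, map_add, hTT, add_comm]
    · apply Submodule.smul_mem
      rw [hmemm, map_sub, hTT, neg_sub]
    · rw [← smul_add]
      have : v + T v + (v - T v) = (2 : F) • v := by rw [two_smul]; abel
      rw [this, smul_smul, inv_mul_cancel₀ h2, one_smul]
  have hsup : LinearMap.ker (T - 1) ⊔ LinearMap.ker (T + 1) = ⊤ := by
    rw [eq_top_iff]
    intro v _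
    obtain ⟨a, ha, b, hb', rfl⟩ := hdec v
    exact Submodule.add_mem_sup ha hb'
  -- nondegeneracy
  have hndp : IsNondegenerateOn (QuadraticMap.polar Q) (LinearMap.ker (T - 1)) := by
    intro w hw hw0
    obtain ⟨-, x, hx⟩ := hQ.nondegenerate w hw0
    obtain ⟨a, ha, b, hb', rfl⟩ := hdec x
    have h1 : QuadraticMap.polar Q w a ≠ 0 := by
      rw [hb.add_right, horth w hw b hb', add_zero] at hx
      exact hx
    exact ⟨⟨a, ha, by rw [hsymm]; exact h1⟩, ⟨a, ha, h1⟩⟩
  have hndm : IsNondegenerateOn (QuadraticMap.polar Q) (LinearMap.ker (T + 1)) := by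
    intro w hw hw0
    obtain ⟨-, x, hx⟩ := hQ.nondegenerate w hw0
    obtain ⟨a, ha, b, hb', rfl⟩ := hdec x
    have h1 : QuadraticMap.polar Q w b ≠ 0 := by
      rw [hb.add_right, hsymm w a, horth a ha w hw, zero_add] at hx
      exact hx
    exact ⟨⟨b, hb', by rw [hsymm]; exact h1⟩, ⟨b, hb', h1⟩⟩
  have key := Cfsg.Agent.Helper33.o_type_mul Q hQ _ _ hndp hndm horth hp hm
  rw [hsup] at key
  exact key

end Cfsg.Agent.Helper70.TSR2
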