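/-
CALL S2546 (owner helper95): helper70's library of unitary root elements in a Witt basis
(used by the pieces XNE, H1S, H1C).
-/
import Mathlib
import Cfsg.Agent.Helper95.UBNDefs

set_option autoImplicit false

namespace Cfsg.Agent.Helper70.UBN

open Matrix Cfsg.Agent.Helper95.UBN

variable {F : Type*} [Field F] {n : ℕ}

theorem uinv_add (τ : F →+* F) (M N : Matrix (Fin n) (Fin n) F) :
    uinv τ (M + N) = uinv τ M + uinv τ N := by
  ext a b
  simp only [uinv_apply, Matrix.add_apply, map_add]

theorem uinv_single (τ : F →+* F) (p q : Fin n) (c : F) :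
    uinv τ (Matrix.single p q c) = Matrix.single (Fin.rev q) (Fin.rev p) (τ c) := by
  ext a b
  rw [uinv_apply, Matrix.single_apply, Matrix.single_apply]
  by_cases h : p = Fin.rev b ∧ q = Fin.rev a
  · rw [if_pos h, if_pos]
    obtain ⟨h1, h2⟩ := h
    exact ⟨by rw [h2, Fin.rev_rev], by rw [h1, Fin.rev_rev]⟩
  · rw [if_neg h, if_neg, map_zero]
    rintro ⟨h1, h2⟩
    exact h ⟨by rw [← h2, Fin.rev_rev], by rw [← h1, Fin.rev_rev]⟩

theorem det_one_add_upper (N : Matrix (Fin n) (Fin n) F) (hN : ∀ i j, j ≤ i → N i j = 0) :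
    (1 + N).det = 1 := by
  rw [Matrix.det_of_isUpperTriangular]
  · apply Finset.prod_eq_one
    intro i _
    rw [Matrix.add_apply, Matrix.one_apply_eq, hN i i le_rfl, add_zero]
  · intro i j hij
    have hij' : j < i := hij
    rw [Matrix.add_apply, Matrix.one_apply_ne hij'.ne', hN i j hij'.le, add_zero]

theorem one_add_mul_one_add (N' N : Matrix (Fin n) (Fin n) F) :
    (1 + N') * (1 + N) = 1 + (N' + N + N' * N) := by
  rw [Matrix.add_mul, Matrix.mul_add, Matrix.mul_add, Matrix.one_mul, Matrix.one_mul,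
    Matrix.mul_one]
  abel

theorem isU_one_add (τ : F →+* F) (N N' : Matrix (Fin n) (Fin n) F) (hN' : uinv τ N = N')
    (h : N' + N + N' * N = 0) : IsU τ (1 + N) := by
  unfold IsU
  rw [uinv_add, uinv_one, hN', one_add_mul_one_add, h, add_zero]

/-- the relations satisfied by an upper triangular isometry. -/
theorem isU_up_sum (τ : F →+* F) (M : Matrix (Fin n) (Fin n) F) (hU : IsU τ M) (hup : IsUp M)
    (p q : Fin n) (s : Finset (Fin n)) (hs : ∀ k, p ≤ k → k ≤ q → k ∈ s) :
    ∑ k ∈ s, τ (M (Fin.rev k) (Fin.rev p)) * M k q = if p = q then 1 else 0 := by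
  rw [← (isU_iff τ M).mp hU p q]
  apply Finset.sum_subset (Finset.subset_univ s)
  intro k _ hk
  by_cases h1 : k < p
  · rw [hup _ _ (Fin.rev_lt_rev.mpr h1), map_zero, zero_mul]
  · by_cases h2 : k ≤ q
    · exact absurd (hs k (not_lt.mp h1) h2) hk
    · rw [hup k q (not_le.mp h2), mul_zero]

theorem sigP_val_short (j : Fin (n / 2)) (hj : j.1 + 1 < n / 2) (x : Fin n) :
    (sigP j x).val = if x.val = j.val then j.val + 1 else if x.val = j.val + 1 then j.val
      else if x.val = n - 2 - j.val then n - 1 - j.val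
      else if x.val = n - 1 - j.val then n - 2 - j.val else x.val := by
  have hx := x.2
  unfold sigP
  rw [if_pos hj, Equiv.Perm.mul_apply]
  unfold ib
  rw [dif_pos hj]
  simp only [Equiv.swap_apply_def, ia, Fin.ext_iff, Fin.val_rev]
  split_ifs <;> (try simp only [Fin.val_rev] at *) <;> omega

theorem sigP_val_last (j : Fin (n / 2)) (hj : ¬ j.1 + 1 < n / 2) (x : Fin n) :
    (sigP j x).val = if x.val = j.val then n - 1 - j.val
      else if x.val = n - 1 - j.val then j.val else x.val := by
  have hx := x.2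
  have hj2 := j.2
  unfold sigP
  rw [if_neg hj]
  unfold ib
  rw [dif_neg hj]
  simp only [Equiv.swap_apply_def, ia, Fin.ext_iff, Fin.val_rev]
  split_ifs <;> (try simp only [Fin.val_rev] at *) <;> omega

/-! ### short root elements -/

/-- the short root element `1 + t E_{ab} - τ t E_{b'a'}`. -/
def rootS (τ : F →+* F) (a b : Fin n) (t : F) : Matrix (Fin n) (Fin n) F :=
  1 + (Matrix.single a b t + Matrix.single (Fin.rev b) (Fin.rev a) (-τ t))

theorem rootS_apply (τ : F →+* F) (a b : Fin n) (t : F) (e f : Fin n) :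
    rootS τ a b t e f = (if e = f then 1 else 0) + ((if a = e ∧ b = f then t else 0) +
      (if Fin.rev b = e ∧ Fin.rev a = f then -τ t else 0)) := by
  unfold rootS
  rw [Matrix.add_apply, Matrix.add_apply, Matrix.one_apply, Matrix.single_apply,
    Matrix.single_apply]

theorem rootS_det (τ : F →+* F) (a b : Fin n) (hab : a < b) (t : F) :
    (rootS τ a b t).det = 1 := by
  apply det_one_add_upper
  intro i j hji
  rw [Matrix.add_apply, Matrix.single_apply, Matrix.single_apply, if_neg, if_neg, add_zero]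
  · rintro ⟨h1, h2⟩
    rw [← h1, ← h2] at hji
    exact absurd (Fin.rev_le_rev.mp hji) (not_le.mpr hab)
  · rintro ⟨h1, h2⟩
    rw [← h1, ← h2] at hji
    exact absurd hji (not_le.mpr hab)

theorem rootS_uinvN (τ : F →+* F) (hτ : ∀ x, τ (τ x) = x) (a b : Fin n) (t : F) :
    uinv τ (Matrix.single a b t + Matrix.single (Fin.rev b) (Fin.rev a) (-τ t)) =
      Matrix.single a b (-t) + Matrix.single (Fin.rev b) (Fin.rev a) (-τ (-t)) := by
  rw [uinv_add, uinv_single, uinv_single, Fin.rev_rev, Fin.rev_rev, map_neg,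
    hτ, map_neg, neg_neg, add_comm]

theorem rootS_uinv (τ : F →+* F) (hτ : ∀ x, τ (τ x) = x) (a b : Fin n) (t : F) :
    uinv τ (rootS τ a b t) = rootS τ a b (-t) := by
  unfold rootS
  rw [uinv_add, uinv_one, rootS_uinvN τ hτ]

theorem rootS_isU (τ : F →+* F) (hτ : ∀ x, τ (τ x) = x) (a b : Fin n) (hab : a < b)
    (hb : b < Fin.rev b) (t : F) : IsU τ (rootS τ a b t) := by
  have h1 : b ≠ a := hab.ne'
  have h2 : b ≠ Fin.rev b := hb.ne
  have h3 : Fin.rev a ≠ a := by
    intro h
    have h5 : Fin.rev b < Fin.rev a := Fin.rev_lt_rev.mpr hab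
    rw [h] at h5
    exact absurd (hab.trans hb) (not_lt.mpr h5.le)
  have h4 : Fin.rev a ≠ Fin.rev b := fun h => h1 (Fin.rev_injective h).symm
  unfold rootS
  apply isU_one_add τ _ _ (rootS_uinvN τ hτ a b t)
  simp only [Matrix.add_mul, Matrix.mul_add, Matrix.single_mul_single_of_ne _ _ _ _ h1,
    Matrix.single_mul_single_of_ne _ _ _ _ h2, Matrix.single_mul_single_of_ne _ _ _ _ h3,
    Matrix.single_mul_single_of_ne _ _ _ _ h4, add_zero]
  rw [add_add_add_comm, ← Matrix.single_add, ← Matrix.single_add, map_neg, neg_neg,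
    neg_add_cancel, add_neg_cancel, Matrix.single_zero, Matrix.single_zero, add_zero]

theorem mul_rootS_apply (τ : F →+* F) (M : Matrix (Fin n) (Fin n) F) (a b : Fin n) (t : F)
    (e f : Fin n) :
    (M * rootS τ a b t) e f = M e f + ((if f = b then M e a * t else 0) +
      (if f = Fin.rev a then M e (Fin.rev b) * (-τ t) else 0)) := by
  unfold rootS
  rw [Matrix.mul_add, Matrix.mul_add, Matrix.mul_one, Matrix.add_apply, Matrix.add_apply]
  congr 1
  congr 1
  · by_cases h : f = b
    · subst h; rw [if_pos rfl, Matrix.mul_single_apply_same]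
    · rw [if_neg h, Matrix.mul_single_apply_of_ne _ _ _ _ _ h]
  · by_cases h : f = Fin.rev a
    · subst h; rw [if_pos rfl, Matrix.mul_single_apply_same]
    · rw [if_neg h, Matrix.mul_single_apply_of_ne _ _ _ _ _ h]

/-! ### long root elements -/

/-- the long root element `1 + u E_{aa'}`. -/
def rootL (a : Fin n) (u : F) : Matrix (Fin n) (Fin n) F :=
  1 + Matrix.single a (Fin.rev a) u

theorem rootL_apply (a : Fin n) (u : F) (e f : Fin n) :
    rootL a u e f = (if e = f then 1 else 0) + (if a = e ∧ Fin.rev a = f then u else 0) := by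
  unfold rootL
  rw [Matrix.add_apply, Matrix.one_apply, Matrix.single_apply]

theorem rootL_det (a : Fin n) (ha : a < Fin.rev a) (u : F) : (rootL a u : Matrix _ _ F).det = 1 := by
  apply det_one_add_upper
  intro i j hji
  rw [Matrix.single_apply, if_neg]
  rintro ⟨h1, h2⟩
  rw [← h1, ← h2] at hji
  exact absurd hji (not_le.mpr ha)

theorem rootL_uinvN (τ : F →+* F) (a : Fin n) (u : F) :
    uinv τ (Matrix.single a (Fin.rev a) u) = Matrix.single a (Fin.rev a) (τ u) := by
  rw [uinv_single, Fin.rev_rev]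

theorem rootL_uinv (τ : F →+* F) (a : Fin n) (u : F) :
    uinv τ (rootL a u) = rootL a (τ u) := by
  unfold rootL
  rw [uinv_add, uinv_one, rootL_uinvN]

theorem rootL_isU (τ : F →+* F) (a : Fin n) (ha : a < Fin.rev a) (u : F) (hu : τ u + u = 0) :
    IsU τ (rootL a u) := by
  unfold rootL
  apply isU_one_add τ _ _ (rootL_uinvN τ a u)
  rw [Matrix.single_mul_single_of_ne _ _ _ _ ha.ne', add_zero, ← Matrix.single_add, hu,
    Matrix.single_zero]

theorem mul_rootL_apply (M : Matrix (Fin n) (Fin n) F) (a : Fin n) (u : F) (e f : Fin n) :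
    (M * rootL a u) e f = M e f + (if f = Fin.rev a then M e a * u else 0) := by
  unfold rootL
  rw [Matrix.mul_add, Matrix.mul_one, Matrix.add_apply]
  congr 1
  by_cases h : f = Fin.rev a
  · subst h; rw [if_pos rfl, Matrix.mul_single_apply_same]
  · rw [if_neg h, Matrix.mul_single_apply_of_ne _ _ _ _ _ h]

/-! ### root elements through the middle -/

/-- the root element `1 + t E_{ac} - τ t E_{ca'} + u E_{aa'}` (`c` the middle index). -/
def rootC (τ : F →+* F) (a c : Fin n) (t u : F) : Matrix (Fin n) (Fin n) F :=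
  1 + (Matrix.single a c t + Matrix.single c (Fin.rev a) (-τ t) + Matrix.single a (Fin.rev a) u)

theorem rootC_apply (τ : F →+* F) (a c : Fin n) (t u : F) (e f : Fin n) :
    rootC τ a c t u e f = (if e = f then 1 else 0) + ((if a = e ∧ c = f then t else 0) +
      (if c = e ∧ Fin.rev a = f then -τ t else 0) +
      (if a = e ∧ Fin.rev a = f then u else 0)) := by
  unfold rootC
  rw [Matrix.add_apply, Matrix.add_apply, Matrix.add_apply, Matrix.one_apply,
    Matrix.single_apply, Matrix.single_apply, Matrix.single_apply]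

theorem rootC_det (τ : F →+* F) (a c : Fin n) (hac : a < c) (hc : Fin.rev c = c) (t u : F) :
    (rootC τ a c t u).det = 1 := by
  have hca' : c < Fin.rev a := by
    have h := Fin.rev_lt_rev.mpr hac
    rwa [hc] at h
  apply det_one_add_upper
  intro i j hji
  rw [Matrix.add_apply, Matrix.add_apply, Matrix.single_apply, Matrix.single_apply,
    Matrix.single_apply, if_neg, if_neg, if_neg, add_zero, add_zero]
  · rintro ⟨h1, h2⟩
    rw [← h1, ← h2] at hji
    exact absurd hji (not_le.mpr (hac.trans hca'))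
  · rintro ⟨h1, h2⟩
    rw [← h1, ← h2] at hji
    exact absurd hji (not_le.mpr hca')
  · rintro ⟨h1, h2⟩
    rw [← h1, ← h2] at hji
    exact absurd hji (not_le.mpr hac)

theorem rootC_uinvN (τ : F →+* F) (hτ : ∀ x, τ (τ x) = x) (a c : Fin n) (hc : Fin.rev c = c)
    (t u : F) :
    uinv τ (Matrix.single a c t + Matrix.single c (Fin.rev a) (-τ t) +
        Matrix.single a (Fin.rev a) u) =
      Matrix.single a c (-t) + Matrix.single c (Fin.rev a) (-τ (-t)) +
        Matrix.single a (Fin.rev a) (τ u) := by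
  rw [uinv_add, uinv_add, uinv_single, uinv_single, uinv_single, Fin.rev_rev, hc, map_neg,
    hτ, map_neg, neg_neg, add_comm (Matrix.single c (Fin.rev a) (τ t))]

theorem rootC_uinv (τ : F →+* F) (hτ : ∀ x, τ (τ x) = x) (a c : Fin n) (hc : Fin.rev c = c)
    (t u : F) : uinv τ (rootC τ a c t u) = rootC τ a c (-t) (τ u) := by
  unfold rootC
  rw [uinv_add, uinv_one, rootC_uinvN τ hτ a c hc]

theorem rootC_isU (τ : F →+* F) (hτ : ∀ x, τ (τ x) = x) (a c : Fin n) (hac : a < c)
    (hc : Fin.rev c = c) (t u : F) (h : τ u + u + t * τ t = 0) : IsU τ (rootC τ a c t u) := by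
  have hca' : c < Fin.rev a := by
    have h := Fin.rev_lt_rev.mpr hac
    rwa [hc] at h
  have h1 : c ≠ a := hac.ne'
  have h2 : Fin.rev a ≠ a := (hac.trans hca').ne'
  have h3 : Fin.rev a ≠ c := hca'.ne'
  unfold rootC
  apply isU_one_add τ _ _ (rootC_uinvN τ hτ a c hc t u)
  simp only [Matrix.add_mul, Matrix.mul_add, Matrix.single_mul_single_of_ne _ _ _ _ h1,
    Matrix.single_mul_single_of_ne _ _ _ _ h2, Matrix.single_mul_single_of_ne _ _ _ _ h3,
    Matrix.single_mul_single_same, add_zero, zero_add]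
  have e : Matrix.single a c (-t) + Matrix.single c (Fin.rev a) (-τ (-t)) +
        Matrix.single a (Fin.rev a) (τ u) +
      (Matrix.single a c t + Matrix.single c (Fin.rev a) (-τ t) + Matrix.single a (Fin.rev a) u) +
      Matrix.single a (Fin.rev a) (-t * -τ t) =
      Matrix.single a c (-t + t) + Matrix.single c (Fin.rev a) (-τ (-t) + -τ t) +
        Matrix.single a (Fin.rev a) (τ u + u + -t * -τ t) := by
    simp only [Matrix.single_add]
    abel
  rw [e, neg_add_cancel, map_neg, neg_neg, add_neg_cancel, neg_mul_neg, h, Matrix.single_zero,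
    Matrix.single_zero, Matrix.single_zero, add_zero, add_zero]

theorem mul_rootC_apply (τ : F →+* F) (M : Matrix (Fin n) (Fin n) F) (a c : Fin n) (t u : F)
    (e f : Fin n) :
    (M * rootC τ a c t u) e f = M e f + ((if f = c then M e a * t else 0) +
      (if f = Fin.rev a then M e c * (-τ t) else 0) +
      (if f = Fin.rev a then M e a * u else 0)) := by
  unfold rootC
  rw [Matrix.mul_add, Matrix.mul_add, Matrix.mul_add, Matrix.mul_one, Matrix.add_apply,
    Matrix.add_apply, Matrix.add_apply]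
  congr 1
  congr 1
  · congr 1
    · by_cases h : f = c
      · subst h; rw [if_pos rfl, Matrix.mul_single_apply_same]
      · rw [if_neg h, Matrix.mul_single_apply_of_ne _ _ _ _ _ h]
    · by_cases h : f = Fin.rev a
      · subst h; rw [if_pos rfl, Matrix.mul_single_apply_same]
      · rw [if_neg h, Matrix.mul_single_apply_of_ne _ _ _ _ _ h]
  · by_cases h : f = Fin.rev a
    · subst h; rw [if_pos rfl, Matrix.mul_single_apply_same]
    · rw [if_neg h, Matrix.mul_single_apply_of_ne _ _ _ _ _ h]

/-! ### shapes and inversions -/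

theorem rootS_XSh (τ : F →+* F) (j : Fin (n / 2)) (hj : j.1 + 1 < n / 2) (a b : Fin n)
    (hav : a.val = j.val) (hbv : b.val = j.val + 1) (t : F) :
    XSh (sigP j) (rootS τ a b t) := by
  have hj2 := j.2
  constructor
  · intro c
    have hc := c.2
    rw [rootS_apply, if_pos rfl, if_neg, if_neg, add_zero, add_zero]
    · rintro ⟨h1, h2⟩
      rw [Fin.ext_iff, Fin.val_rev] at h1 h2; omega
    · rintro ⟨h1, h2⟩
      rw [Fin.ext_iff] at h1 h2; omega
  · intro e f hef hne
    rw [rootS_apply, if_neg hef, zero_add] at hne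
    have hcase : (a = e ∧ b = f) ∨ (Fin.rev b = e ∧ Fin.rev a = f) := by
      by_cases h1 : a = e ∧ b = f
      · exact Or.inl h1
      · by_cases h2 : Fin.rev b = e ∧ Fin.rev a = f
        · exact Or.inr h2
        · rw [if_neg h1, if_neg h2, add_zero] at hne
          exact absurd rfl hne
    have he := e.2
    have hf := f.2
    rw [Fin.lt_def, Fin.lt_def, sigP_val_short j hj, sigP_val_short j hj]
    rcases hcase with ⟨h1, h2⟩ | ⟨h1, h2⟩
    · rw [Fin.ext_iff] at h1 h2
      refine ⟨by omega, ?_⟩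
      split_ifs <;> omega
    · rw [Fin.ext_iff, Fin.val_rev] at h1 h2
      refine ⟨by omega, ?_⟩
      split_ifs <;> omega

theorem rootL_XSh (j : Fin (n / 2)) (hj : ¬ j.1 + 1 < n / 2) (a : Fin n)
    (hav : a.val = j.val) (u : F) : XSh (sigP j) (rootL a u : Matrix (Fin n) (Fin n) F) := by
  have hj2 := j.2
  constructor
  · intro c
    have hc := c.2
    rw [rootL_apply, if_pos rfl, if_neg, add_zero]
    rintro ⟨h1, h2⟩
    rw [Fin.ext_iff] at h1
    rw [Fin.ext_iff, Fin.val_rev] at h2
    omega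
  · intro e f hef hne
    rw [rootL_apply, if_neg hef, zero_add] at hne
    have hcase : a = e ∧ Fin.rev a = f := by
      by_contra h1
      rw [if_neg h1] at hne
      exact absurd rfl hne
    have he := e.2
    have hf := f.2
    rw [Fin.lt_def, Fin.lt_def, sigP_val_last j hj, sigP_val_last j hj]
    obtain ⟨h1, h2⟩ := hcase
    rw [Fin.ext_iff] at h1
    rw [Fin.ext_iff, Fin.val_rev] at h2
    refine ⟨by omega, ?_⟩
    split_ifs <;> omega

theorem rootC_XSh (τ : F →+* F) (j : Fin (n / 2)) (a c : Fin n)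
    (hav : a.val = j.val) (hcv : c.val = j.val + 1) (hn : n = 2 * j.val + 3) (t u : F) :
    XSh (sigP j) (rootC τ a c t u) := by
  have hj2 := j.2
  have hj : ¬ j.1 + 1 < n / 2 := by omega
  constructor
  · intro d
    have hd := d.2
    rw [rootC_apply, if_pos rfl, if_neg, if_neg, if_neg, add_zero, add_zero, add_zero]
    · rintro ⟨h1, h2⟩
      rw [Fin.ext_iff] at h1
      rw [Fin.ext_iff, Fin.val_rev] at h2
      omega
    · rintro ⟨h1, h2⟩
      rw [Fin.ext_iff] at h1
      rw [Fin.ext_iff, Fin.val_rev] at h2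
      omega
    · rintro ⟨h1, h2⟩
      rw [Fin.ext_iff] at h1 h2
      omega
  · intro e f hef hne
    rw [rootC_apply, if_neg hef, zero_add] at hne
    have hcase : (a = e ∧ c = f) ∨ (c = e ∧ Fin.rev a = f) ∨ (a = e ∧ Fin.rev a = f) := by
      by_cases h1 : a = e ∧ c = f
      · exact Or.inl h1
      · by_cases h2 : c = e ∧ Fin.rev a = f
        · exact Or.inr (Or.inl h2)
        · by_cases h3 : a = e ∧ Fin.rev a = f
          · exact Or.inr (Or.inr h3)
          · rw [if_neg h1, if_neg h2, if_neg h3, add_zero, add_zero] at hne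
            exact absurd rfl hne
    have he := e.2
    have hf := f.2
    rw [Fin.lt_def, Fin.lt_def, sigP_val_last j hj, sigP_val_last j hj]
    rcases hcase with ⟨h1, h2⟩ | ⟨h1, h2⟩ | ⟨h1, h2⟩
    · rw [Fin.ext_iff] at h1 h2
      refine ⟨by omega, ?_⟩
      split_ifs <;> omega
    · rw [Fin.ext_iff] at h1
      rw [Fin.ext_iff, Fin.val_rev] at h2
      refine ⟨by omega, ?_⟩
      split_ifs <;> omega
    · rw [Fin.ext_iff] at h1
      rw [Fin.ext_iff, Fin.val_rev] at h2
      refine ⟨by omega, ?_⟩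
      split_ifs <;> omega

theorem sigP_inv_short (j : Fin (n / 2)) (hj : j.1 + 1 < n / 2) (e f : Fin n) (hef : e < f)
    (hσ : sigP j f < sigP j e) :
    (e.val = j.val ∧ f.val = j.val + 1) ∨ (e.val = n - 2 - j.val ∧ f.val = n - 1 - j.val) := by
  have he := e.2
  have hf := f.2
  rw [Fin.lt_def] at hef hσ
  rw [sigP_val_short j hj, sigP_val_short j hj] at hσ
  split_ifs at hσ <;> omega

theorem sigP_inv_last (j : Fin (n / 2)) (hj : ¬ j.1 + 1 < n / 2) (e f : Fin n) (hef : e < f)
    (hσ : sigP j f < sigP j e) :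
    j.val ≤ e.val ∧ f.val ≤ n - 1 - j.val := by
  have he := e.2
  have hf := f.2
  have hj2 := j.2
  rw [Fin.lt_def] at hef hσ
  rw [sigP_val_last j hj, sigP_val_last j hj] at hσ
  split_ifs at hσ <;> omega

end Cfsg.Agent.Helper70.UBN
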