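/-
CALL S2546 (owner helper95), piece H1C.
-/
import Mathlib
import Cfsg.Agent.Helper95.UBNDefs
import Cfsg.Agent.Helper70.UBNRoot

set_option autoImplicit false

namespace Cfsg.Agent.Helper70.UBN

open Matrix Cfsg.Agent.Helper95.UBN

variable {F : Type*} [Field F] {n : ℕ}

theorem p_H1C (τ : F →+* F) (hτ : ∀ x, τ (τ x) = x) (j : Fin (n / 2)) (hj : j.1 + 1 = n / 2)
    (hn : Odd n)
    (g : Matrix.SpecialLinearGroup (Fin n) F) (hg : g ∈ UG τ n) (hup : IsUp g.1) :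
    ∃ x : Matrix.SpecialLinearGroup (Fin n) F, x ∈ UG τ n ∧ XSh (sigP j) x.1 ∧
      ∀ a b, a < b → sigP j b < sigP j a → (g * x⁻¹).1 a b = 0 := by
  have hj2 := j.2
  have hn3 : n = 2 * j.val + 3 := by
    obtain ⟨m, hm⟩ := hn
    omega
  have hj' : ¬ j.1 + 1 < n / 2 := by omega
  obtain ⟨a, ha⟩ : ∃ a : Fin n, a = ia j := ⟨_, rfl⟩
  have hav : a.val = j.val := by rw [ha]; rfl
  obtain ⟨c, hc⟩ : ∃ c : Fin n, c = ⟨j.val + 1, by omega⟩ := ⟨_, rfl⟩
  have hcv : c.val = j.val + 1 := by rw [hc]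
  have hac : a < c := by rw [Fin.lt_def]; omega
  have hcc : Fin.rev c = c := by rw [Fin.ext_iff, Fin.val_rev]; omega
  have hca' : c < Fin.rev a := by rw [Fin.lt_def, Fin.val_rev]; omega
  have hU : IsU τ g.1 := isU_of_mem hg
  -- the relations
  have Q1 := isU_up_sum τ g.1 hU hup a a {a} (by
    intro k h1 h2; rw [Finset.mem_singleton]; exact le_antisymm h2 h1)
  rw [Finset.sum_singleton, if_pos rfl] at Q1
  have Q2 := isU_up_sum τ g.1 hU hup c c {c} (by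
    intro k h1 h2; rw [Finset.mem_singleton]; exact le_antisymm h2 h1)
  rw [Finset.sum_singleton, if_pos rfl, hcc] at Q2
  have Q3 := isU_up_sum τ g.1 hU hup c (Fin.rev a) {c, Fin.rev a} (by
    intro k h1 h2
    rw [Fin.le_def] at h1 h2
    rw [Fin.val_rev] at h2
    simp only [Finset.mem_insert, Finset.mem_singleton, Fin.ext_iff, Fin.val_rev]
    omega)
  rw [Finset.sum_pair hca'.ne, if_neg hca'.ne, hcc, Fin.rev_rev] at Q3
  have Q4 := isU_up_sum τ g.1 hU hup a (Fin.rev a) {a, c, Fin.rev a} (by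
    intro k h1 h2
    rw [Fin.le_def] at h1 h2
    rw [Fin.val_rev] at h2
    simp only [Finset.mem_insert, Finset.mem_singleton, Fin.ext_iff, Fin.val_rev]
    omega)
  rw [Finset.sum_insert (by
      simp only [Finset.mem_insert, Finset.mem_singleton, Fin.ext_iff, Fin.val_rev]; omega),
    Finset.sum_pair hca'.ne, if_neg (hac.trans hca').ne, hcc, Fin.rev_rev] at Q4
  have Q1' : g.1 (Fin.rev a) (Fin.rev a) * τ (g.1 a a) = 1 := by
    have h := congrArg τ Q1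
    rwa [map_mul, hτ, map_one] at h
  have hP0 : g.1 a a ≠ 0 := right_ne_zero_of_mul (by rw [Q1]; exact one_ne_zero)
  have hτP0 : τ (g.1 a a) ≠ 0 := right_ne_zero_of_mul (by rw [Q1']; exact one_ne_zero)
  obtain ⟨t, ht⟩ : ∃ t : F, t = g.1 a c / g.1 a a := ⟨_, rfl⟩
  have hτt : τ t = τ (g.1 a c) * g.1 (Fin.rev a) (Fin.rev a) := by
    rw [ht, map_div₀, div_eq_iff hτP0]
    linear_combination (-τ (g.1 a c)) * Q1'
  have ht' : t = g.1 a c * τ (g.1 (Fin.rev a) (Fin.rev a)) := by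
    rw [ht, div_eq_iff hP0]
    linear_combination (-(g.1 a c)) * Q1
  obtain ⟨w, hw⟩ : ∃ w : F, w = -(g.1 a c * τ t + g.1 a (Fin.rev a)) / g.1 a a := ⟨_, rfl⟩
  have hw' : w = -(g.1 a c * (τ (g.1 a c) * g.1 (Fin.rev a) (Fin.rev a)) + g.1 a (Fin.rev a)) *
      τ (g.1 (Fin.rev a) (Fin.rev a)) := by
    rw [hw, hτt, div_eq_iff hP0]
    linear_combination (g.1 a c * (τ (g.1 a c) * g.1 (Fin.rev a) (Fin.rev a)) +
      g.1 a (Fin.rev a)) * Q1
  have hu' : τ w = -(τ (g.1 a c) * (g.1 a c * τ (g.1 (Fin.rev a) (Fin.rev a))) +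
      τ (g.1 a (Fin.rev a))) * g.1 (Fin.rev a) (Fin.rev a) := by
    rw [hw']
    simp only [map_neg, map_mul, map_add, hτ]
  have hD : g.1 c (Fin.rev a) = -(g.1 c c * τ (g.1 a c) * g.1 (Fin.rev a) (Fin.rev a)) := by
    linear_combination (g.1 c c) * Q3 - (g.1 c (Fin.rev a)) * Q2
  have hτD : τ (g.1 c (Fin.rev a)) =
      -(τ (g.1 c c) * g.1 a c * τ (g.1 (Fin.rev a) (Fin.rev a))) := by
    rw [hD]
    simp only [map_neg, map_mul, hτ]
  have Q4' := Q4
  rw [hτD, hD] at Q4'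
  have hunit : τ (τ w) + τ w + t * τ t = 0 := by
    rw [hτ, hτt, hu', hw', ht']
    linear_combination (-1) * Q4' + (g.1 a c * τ (g.1 a c) *
      τ (g.1 (Fin.rev a) (Fin.rev a)) * g.1 (Fin.rev a) (Fin.rev a)) * Q2
  obtain ⟨x, hx⟩ : ∃ x : Matrix.SpecialLinearGroup (Fin n) F,
      x = ⟨rootC τ a c t (τ w), rootC_det τ a c hac hcc t (τ w)⟩ := ⟨_, rfl⟩
  have hx1 : x.1 = rootC τ a c t (τ w) := by rw [hx]
  have hxU : x ∈ UG τ n := by
    apply (mem_UG_iff hτ x).mpr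
    rw [hx1]
    exact rootC_isU τ hτ a c hac hcc t (τ w) hunit
  have hxinv : (x⁻¹).1 = rootC τ a c (-t) (τ (τ w)) := by
    rw [inv_eq_uinv hxU, hx1]; exact rootC_uinv τ hτ a c hcc t (τ w)
  refine ⟨x, hxU, ?_, ?_⟩
  · rw [hx1]; exact rootC_XSh τ j a c hav hcv hn3 t (τ w)
  · intro e f hef hσ
    have hcase : (e = a ∧ f = c) ∨ (e = c ∧ f = Fin.rev a) ∨ (e = a ∧ f = Fin.rev a) := by
      have h := sigP_inv_last j hj' e f hef hσ
      rw [Fin.lt_def] at hef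
      simp only [Fin.ext_iff, Fin.val_rev]
      omega
    show (g.1 * (x⁻¹).1) e f = 0
    rw [hxinv, mul_rootC_apply, hτ]
    rcases hcase with ⟨h1, h2⟩ | ⟨h1, h2⟩ | ⟨h1, h2⟩
    · subst h1 h2
      rw [if_pos rfl, if_neg hca'.ne, if_neg hca'.ne, add_zero, add_zero, ht]
      field_simp
      ring
    · subst h1 h2
      rw [if_neg hca'.ne', if_pos rfl, if_pos rfl, hup e a hac, zero_mul, map_neg, neg_neg, hτt]
      linear_combination hD
    · subst h1 h2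
      rw [if_neg hca'.ne', if_pos rfl, if_pos rfl, map_neg, neg_neg, hw]
      field_simp
      ring

end Cfsg.Agent.Helper70.UBN
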