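/-
CALL S2546 (owner helper95), piece H1S.
-/
import Mathlib
import Cfsg.Agent.Helper95.UBNDefs
import Cfsg.Agent.Helper70.UBNRoot

set_option autoImplicit false

namespace Cfsg.Agent.Helper70.UBN

open Matrix Cfsg.Agent.Helper95.UBN

variable {F : Type*} [Field F] {n : ℕ}

theorem p_H1S (τ : F →+* F) (hτ : ∀ x, τ (τ x) = x) (j : Fin (n / 2)) (hj : j.1 + 1 < n / 2)
    (g : Matrix.SpecialLinearGroup (Fin n) F) (hg : g ∈ UG τ n) (hup : IsUp g.1) :
    ∃ x : Matrix.SpecialLinearGroup (Fin n) F, x ∈ UG τ n ∧ XSh (sigP j) x.1 ∧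
      ∀ a b, a < b → sigP j b < sigP j a → (g * x⁻¹).1 a b = 0 := by
  have hj2 := j.2
  obtain ⟨a, ha⟩ : ∃ a : Fin n, a = ia j := ⟨_, rfl⟩
  have hav : a.val = j.val := by rw [ha]; rfl
  obtain ⟨b, hb⟩ : ∃ b : Fin n, b = ib j := ⟨_, rfl⟩
  have hbv : b.val = j.val + 1 := by rw [hb]; unfold ib; rw [dif_pos hj]
  have hab : a < b := by rw [Fin.lt_def]; omega
  have hbb : b < Fin.rev b := by rw [Fin.lt_def, Fin.val_rev]; omega
  have hU : IsU τ g.1 := isU_of_mem hg
  -- the relations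
  have R1 := isU_up_sum τ g.1 hU hup a a {a} (by
    intro k h1 h2; rw [Finset.mem_singleton]; exact le_antisymm h2 h1)
  rw [Finset.sum_singleton, if_pos rfl] at R1
  have R2 := isU_up_sum τ g.1 hU hup b b {b} (by
    intro k h1 h2; rw [Finset.mem_singleton]; exact le_antisymm h2 h1)
  rw [Finset.sum_singleton, if_pos rfl] at R2
  have R3 := isU_up_sum τ g.1 hU hup a b {a, b} (by
    intro k h1 h2
    rw [Fin.le_def] at h1 h2
    simp only [Finset.mem_insert, Finset.mem_singleton, Fin.ext_iff]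
    omega)
  rw [Finset.sum_pair hab.ne, if_neg hab.ne] at R3
  have R1' : g.1 (Fin.rev a) (Fin.rev a) * τ (g.1 a a) = 1 := by
    have h := congrArg τ R1
    rwa [map_mul, hτ, map_one] at h
  have R2' : g.1 (Fin.rev b) (Fin.rev b) * τ (g.1 b b) = 1 := by
    have h := congrArg τ R2
    rwa [map_mul, hτ, map_one] at h
  have R3' : g.1 (Fin.rev a) (Fin.rev a) * τ (g.1 a b) +
      g.1 (Fin.rev b) (Fin.rev a) * τ (g.1 b b) = 0 := by
    have h := congrArg τ R3
    rwa [map_add, map_mul, map_mul, hτ, hτ, map_zero] at h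
  have hA0 : g.1 a a ≠ 0 := right_ne_zero_of_mul (by rw [R1]; exact one_ne_zero)
  have hτA0 : τ (g.1 a a) ≠ 0 := right_ne_zero_of_mul (by rw [R1']; exact one_ne_zero)
  obtain ⟨t, ht⟩ : ∃ t : F, t = g.1 a b / g.1 a a := ⟨_, rfl⟩
  have hτt : τ t = τ (g.1 a b) * g.1 (Fin.rev a) (Fin.rev a) := by
    rw [ht, map_div₀, div_eq_iff hτA0]
    linear_combination (-τ (g.1 a b)) * R1'
  obtain ⟨x, hx⟩ : ∃ x : Matrix.SpecialLinearGroup (Fin n) F,
      x = ⟨rootS τ a b t, rootS_det τ a b hab t⟩ := ⟨_, rfl⟩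
  have hx1 : x.1 = rootS τ a b t := by rw [hx]
  have hxU : x ∈ UG τ n := by
    apply (mem_UG_iff hτ x).mpr
    rw [hx1]
    exact rootS_isU τ hτ a b hab hbb t
  have hxinv : (x⁻¹).1 = rootS τ a b (-t) := by
    rw [inv_eq_uinv hxU, hx1]; exact rootS_uinv τ hτ a b t
  refine ⟨x, hxU, ?_, ?_⟩
  · rw [hx1]; exact rootS_XSh τ j hj a b hav hbv t
  · intro e f hef hσ
    have hinv := sigP_inv_short j hj e f hef hσ
    show (g.1 * (x⁻¹).1) e f = 0
    rw [hxinv, mul_rootS_apply]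
    rcases hinv with ⟨h1, h2⟩ | ⟨h1, h2⟩
    · have hea : e = a := by rw [Fin.ext_iff]; omega
      have hfb : f = b := by rw [Fin.ext_iff]; omega
      subst hea hfb
      rw [if_pos rfl, if_neg, add_zero, ht]
      · field_simp
        ring
      · intro h
        rw [Fin.ext_iff, Fin.val_rev] at h; omega
    · have hea : e = Fin.rev b := by rw [Fin.ext_iff, Fin.val_rev]; omega
      have hfb : f = Fin.rev a := by rw [Fin.ext_iff, Fin.val_rev]; omega
      subst hea hfb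
      rw [if_pos rfl, if_neg, zero_add, map_neg, neg_neg, hτt]
      · linear_combination (g.1 (Fin.rev b) (Fin.rev b)) * R3' -
          (g.1 (Fin.rev b) (Fin.rev a)) * R2'
      · intro h
        rw [Fin.ext_iff, Fin.val_rev] at h; omega

end Cfsg.Agent.Helper70.UBN
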