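/-
CALL S2546 (owner helper95), piece PATINV.
-/
import Mathlib
import Cfsg.Agent.Helper95.UBNDefs

set_option autoImplicit false

namespace Cfsg.Agent.Helper70.UBN

open Matrix Cfsg.Agent.Helper95.UBN

variable {F : Type*} [Field F] {n : ℕ}

theorem p_PATINV (g : Matrix.SpecialLinearGroup (Fin n) F) (π : Equiv.Perm (Fin n))
    (h : Pat g.1 π) : Pat (g⁻¹).1 π⁻¹ := by
  have h2 : g.1 * (g⁻¹).1 = 1 := by
    have : (g * g⁻¹).1 = 1 := by rw [mul_inv_cancel]; rfl
    exact this
  have h1 : (g⁻¹).1 * g.1 = 1 := by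
    have : (g⁻¹ * g).1 = 1 := by rw [inv_mul_cancel]; rfl
    exact this
  have hnz : ∀ a, g.1 (π a) a ≠ 0 := by
    intro a h0
    have h3 := congrFun (congrFun h1 a) a
    rw [Matrix.mul_apply, Matrix.one_apply_eq] at h3
    have hz : ∑ k, (g⁻¹).1 a k * g.1 k a = 0 := by
      apply Finset.sum_eq_zero
      intro k _
      by_cases hk : g.1 k a = 0
      · rw [hk, mul_zero]
      · have h4 := h k a hk
        rw [h4] at hk
        exact absurd h0 hk
    rw [hz] at h3
    exact zero_ne_one h3
  intro a b hab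
  have h3 := congrFun (congrFun h2 (π a)) b
  rw [Matrix.mul_apply, Matrix.one_apply] at h3
  rw [Finset.sum_eq_single a] at h3
  · by_cases hπ : π a = b
    · rw [← hπ]; simp
    · rw [if_neg hπ] at h3
      exact absurd h3 (mul_ne_zero (hnz a) hab)
  · intro k _ hka
    by_cases hk : g.1 (π a) k = 0
    · rw [hk, zero_mul]
    · have h4 := h (π a) k hk
      exact absurd (π.injective h4).symm hka
  · intro hh; exact absurd (Finset.mem_univ a) hh

end Cfsg.Agent.Helper70.UBN
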