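/-
CALL S2546 (owner helper95), piece PATMUL.
-/
import Mathlib
import Cfsg.Agent.Helper95.UBNDefs

set_option autoImplicit false

namespace Cfsg.Agent.Helper70.UBN

open Matrix Cfsg.Agent.Helper95.UBN

variable {F : Type*} [Field F] {n : ℕ}

theorem p_PATMUL (M N : Matrix (Fin n) (Fin n) F) (π ρ : Equiv.Perm (Fin n))
    (hM : Pat M π) (hN : Pat N ρ) : Pat (M * N) (π * ρ) := by
  intro a b hab
  rw [Matrix.mul_apply] at hab
  obtain ⟨k, _, hk⟩ := Finset.exists_ne_zero_of_sum_ne_zero hab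
  have h1 : M a k ≠ 0 := left_ne_zero_of_mul hk
  have h2 : N k b ≠ 0 := right_ne_zero_of_mul hk
  rw [Equiv.Perm.mul_apply, ← hN k b h2]
  exact hM a k h1

end Cfsg.Agent.Helper70.UBN
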