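/-
CALL S2546 (owner helper95), piece NIFF.
-/
import Mathlib
import Cfsg.Agent.Helper95.UBNDefs
import Cfsg.Agent.Helper70.UBNPATMUL
import Cfsg.Agent.Helper70.UBNPATINV
set_option autoImplicit false

namespace Cfsg.Agent.Helper70.UBN

open Matrix Cfsg.Agent.Helper95.UBN

variable {F : Type*} [Field F] {n : ℕ}

theorem p_NIFF (τ : F →+* F) (g : ↥(UG τ n)) :
    g ∈ uN τ n ↔ ∃ π : Equiv.Perm (Fin n), Pat g.1.1 π := by
  constructor
  · intro hg
    unfold uN at hg
    induction hg using Subgroup.closure_induction with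
    | mem x hx => exact hx
    | one =>
      refine ⟨1, ?_⟩
      intro a b hab
      show a = b
      by_contra hne
      exact hab (Matrix.one_apply_ne hne)
    | mul x y _ _ hx hy =>
      obtain ⟨π, hπ⟩ := hx
      obtain ⟨ρ, hρ⟩ := hy
      exact ⟨π * ρ, p_PATMUL _ _ π ρ hπ hρ⟩
    | inv x _ hx =>
      obtain ⟨π, hπ⟩ := hx
      exact ⟨π⁻¹, p_PATINV x.1 π hπ⟩
  · intro h
    exact Subgroup.subset_closure h

end Cfsg.Agent.Helper70.UBN
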