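/-
CALL S2546 (owner helper95), piece PATEX.
-/
import Mathlib
import Cfsg.Agent.Helper95.UBNDefs
import Cfsg.Agent.Helper70.UBNPATMUL
import Cfsg.Agent.Helper70.UBNPATINV
set_option autoImplicit false

namespace Cfsg.Agent.Helper70.UBN

open Matrix Cfsg.Agent.Helper95.UBN

variable {F : Type*} [Field F] {n : ℕ}

theorem p_PATEX (τ : F →+* F) (sg : Fin (n / 2) → ↥(UG τ n))
    (hsg : ∀ j, Pat (sg j).1.1 (sigP j)) (π : Equiv.Perm (Fin n))
    (hπ : π ∈ Subgroup.closure (Set.range (sigP (n := n)))) :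
    ∃ g ∈ Subgroup.closure (Set.range sg), Pat g.1.1 π := by
  induction hπ using Subgroup.closure_induction with
  | mem x hx =>
    obtain ⟨j, rfl⟩ := hx
    exact ⟨sg j, Subgroup.subset_closure ⟨j, rfl⟩, hsg j⟩
  | one =>
    refine ⟨1, Subgroup.one_mem _, ?_⟩
    intro a b hab
    show a = b
    by_contra hne
    exact hab (Matrix.one_apply_ne hne)
  | mul x y _ _ hx hy =>
    obtain ⟨g, hg, hgp⟩ := hx
    obtain ⟨h, hh, hhp⟩ := hy
    exact ⟨g * h, Subgroup.mul_mem _ hg hh, p_PATMUL _ _ x y hgp hhp⟩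
  | inv x _ hx =>
    obtain ⟨g, hg, hgp⟩ := hx
    exact ⟨g⁻¹, Subgroup.inv_mem _ hg, p_PATINV g.1 x hgp⟩

end Cfsg.Agent.Helper70.UBN
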