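/-
CALL S2546 (owner helper95), piece PATRV.
-/
import Mathlib
import Cfsg.Agent.Helper95.UBNDefs

set_option autoImplicit false

namespace Cfsg.Agent.Helper70.UBN

open Matrix Cfsg.Agent.Helper95.UBN

variable {F : Type*} [Field F] {n : ℕ}

theorem p_PATRV (τ : F →+* F) (g : Matrix.SpecialLinearGroup (Fin n) F) (hg : g ∈ UG τ n)
    (π : Equiv.Perm (Fin n)) (h : Pat g.1 π) : ∀ b, π (Fin.rev b) = Fin.rev (π b) := by
  intro b
  have h1 := (isU_iff τ g.1).mp (isU_of_mem hg) b b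
  rw [if_pos rfl] at h1
  have hne : ∑ k, τ (g.1 (Fin.rev k) (Fin.rev b)) * g.1 k b ≠ 0 := by
    rw [h1]; exact one_ne_zero
  obtain ⟨k, _, hk⟩ := Finset.exists_ne_zero_of_sum_ne_zero hne
  have hk1 : g.1 k b ≠ 0 := right_ne_zero_of_mul hk
  have hk2 : g.1 (Fin.rev k) (Fin.rev b) ≠ 0 := by
    intro h0
    apply left_ne_zero_of_mul hk
    rw [h0, map_zero]
  have e1 := h k b hk1
  have e2 := h _ _ hk2
  rw [← e2, e1]

end Cfsg.Agent.Helper70.UBN
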