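/-
CALL S2546 (owner helper95), piece UIFF.
-/
import Mathlib
import Cfsg.Agent.Helper95.UBNDefs

set_option autoImplicit false

namespace Cfsg.Agent.Helper70.UBN

open Matrix Cfsg.Agent.Helper95.UBN

variable {F : Type*} [Field F] {n : ℕ}

theorem p_UIFF (τ : F →+* F) (g : ↥(UG τ n)) :
    g ∈ uU τ n ↔ (IsUp g.1.1 ∧ ∀ a, g.1.1 a a = 1) := by
  constructor
  · intro hg
    unfold uU at hg
    induction hg using Subgroup.closure_induction with
    | mem x hx => exact hx
    | one =>
      refine ⟨?_, ?_⟩
      · intro a b hab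
        exact Matrix.one_apply_ne hab.ne'
      · intro a
        exact Matrix.one_apply_eq a
    | mul x y _ _ hx hy =>
      obtain ⟨hx1, hx2⟩ := hx
      obtain ⟨hy1, hy2⟩ := hy
      refine ⟨?_, ?_⟩
      · intro a b hab
        show (x.1.1 * y.1.1) a b = 0
        rw [Matrix.mul_apply]
        apply Finset.sum_eq_zero
        intro k _
        by_cases hk : k < a
        · rw [hx1 a k hk, zero_mul]
        · rw [hy1 k b (lt_of_lt_of_le hab (not_lt.mp hk)), mul_zero]
      · intro a
        show (x.1.1 * y.1.1) a a = 1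
        rw [Matrix.mul_apply, Finset.sum_eq_single a]
        · rw [hx2, hy2, mul_one]
        · intro k _ hka
          rcases lt_or_gt_of_ne hka with hk | hk
          · rw [hx1 a k hk, zero_mul]
          · rw [hy1 k a hk, mul_zero]
        · intro hh; exact absurd (Finset.mem_univ a) hh
    | inv x _ hx =>
      obtain ⟨hx1, hx2⟩ := hx
      refine ⟨?_, ?_⟩
      · intro a b hab
        show (x.1⁻¹).1 a b = 0
        rw [inv_apply x.2, hx1 _ _ (Fin.rev_lt_rev.mpr hab), map_zero]
      · intro a
        show (x.1⁻¹).1 a a = 1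
        rw [inv_apply x.2, hx2, map_one]
  · intro h
    exact Subgroup.subset_closure h

end Cfsg.Agent.Helper70.UBN
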