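/-
CALL S2546 (owner helper95), piece XNE.
-/
import Mathlib
import Cfsg.Agent.Helper95.UBNDefs
import Cfsg.Agent.Helper70.UBNRoot

set_option autoImplicit false

namespace Cfsg.Agent.Helper70.UBN

open Matrix Cfsg.Agent.Helper95.UBN

variable {F : Type*} [Field F] {n : ℕ}

theorem p_XNE (τ : F →+* F) (hτ : ∀ x, τ (τ x) = x) (e : F) (he : e ≠ 0) (hτe : τ e = -e)
    (j : Fin (n / 2)) :
    ∃ x : Matrix.SpecialLinearGroup (Fin n) F, x ∈ UG τ n ∧ XSh (sigP j) x.1 ∧ x ≠ 1 := by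
  have hj2 := j.2
  obtain ⟨a, ha⟩ : ∃ a : Fin n, a = ia j := ⟨_, rfl⟩
  have hav : a.val = j.val := by rw [ha]; rfl
  by_cases hj : j.1 + 1 < n / 2
  · obtain ⟨b, hb⟩ : ∃ b : Fin n, b = ib j := ⟨_, rfl⟩
    have hbv : b.val = j.val + 1 := by rw [hb]; unfold ib; rw [dif_pos hj]
    have hab : a < b := by rw [Fin.lt_def]; omega
    have hbb : b < Fin.rev b := by rw [Fin.lt_def, Fin.val_rev]; omega
    refine ⟨⟨rootS τ a b 1, rootS_det τ a b hab 1⟩,
      (mem_UG_iff hτ _).mpr (rootS_isU τ hτ a b hab hbb 1), rootS_XSh τ j hj a b hav hbv 1, ?_⟩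
    intro h
    have h2 := congrArg (fun x : Matrix.SpecialLinearGroup (Fin n) F => x.1 a b) h
    have h3 : rootS τ a b 1 a b = (1 : Matrix (Fin n) (Fin n) F) a b := h2
    rw [rootS_apply, Matrix.one_apply_ne hab.ne, if_neg hab.ne, if_pos ⟨rfl, rfl⟩, if_neg,
      zero_add, add_zero] at h3
    · exact one_ne_zero h3
    · rintro ⟨h4, _⟩
      rw [Fin.ext_iff, Fin.val_rev] at h4; omega
  · have haa : a < Fin.rev a := by rw [Fin.lt_def, Fin.val_rev]; omega
    refine ⟨⟨rootL a e, rootL_det a haa e⟩,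
      (mem_UG_iff hτ _).mpr (rootL_isU τ a haa e (by rw [hτe, neg_add_cancel])),
      rootL_XSh j hj a hav e, ?_⟩
    intro h
    have h2 := congrArg (fun x : Matrix.SpecialLinearGroup (Fin n) F => x.1 a (Fin.rev a)) h
    have h3 : rootL a e a (Fin.rev a) = (1 : Matrix (Fin n) (Fin n) F) a (Fin.rev a) := h2
    rw [rootL_apply, Matrix.one_apply_ne haa.ne, if_neg haa.ne, if_pos ⟨rfl, rfl⟩, zero_add] at h3
    exact he h3

end Cfsg.Agent.Helper70.UBN
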